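import Cfsg.Agent.Lib.Transpositions.MinLine

/-!
Two minimal lines generating a unipotent group: their bracket.
-/
set_option autoImplicit false

namespace CfsgLib.Transpositions

variable {k : Type*} [Field k] {M : Type*} [AddCommGroup M] [Module k M] [FiniteDimensional k M]
variable {G : Subgroup (Module.End k M)ˣ} {a b a' b' : Module.End k M}

open LinearMap (range ker)

/-- Facts about the bracket `u = ab - ba` of a unipotent pair of minimal lines. -/
structure BracketData (G : Subgroup (Module.End k M)ˣ) (a b : Module.End k M) : Prop where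
  min : IsMinLine G (a * b - b * a)
  rangeL : range (a * b) = range a ⊓ ker b
  rangeR : range (b * a) = range b ⊓ ker a
  range_eq : range (a * b - b * a) = (range a ⊓ ker b) ⊔ (range b ⊓ ker a)
  disj : (range a ⊓ ker b) ⊓ (range b ⊓ ker a) = ⊥
  kerL : ker (a * b) = ker b ⊔ range a
  kerR : ker (b * a) = ker a ⊔ range b
  ker_eq : ker (a * b - b * a) = (ker b ⊔ range a) ⊓ (ker a ⊔ range b)
  a_mul : a * (a * b - b * a) = 0
  mul_a : (a * b - b * a) * a = 0
  b_mul : b * (a * b - b * a) = 0
  mul_b : (a * b - b * a) * b = 0

lemma mem_of_mul_eq_zero {x y : Module.End k M} (h : x * y = 0) : range y ≤ ker x := by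
  rintro - ⟨m, rfl⟩
  exact LinearMap.mem_ker.mpr (LinearMap.congr_fun h m)

theorem bracketData (ha : IsMinLine G a) (hb : IsMinLine G b) (h1 : a * b * a = 0)
    (h2 : b * a * b = 0) (hne : a * b - b * a ≠ 0) : BracketData G a b := by
  set d := endRank a with hd
  have hdb : endRank b = d := le_antisymm (hb.2.2 a ha.1 ha.2.1) (ha.2.2 b hb.1 hb.2.1)
  set u := a * b - b * a with hu
  have hline : IsLine k G u := ha.1.bracket hb.1 h1 h2
  have hdu : d ≤ endRank u := ha.2.2 u hline hne
  -- the two halves
  have hL : range (a * b) ≤ range a ⊓ ker b :=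
    le_inf (range_mul_le a b) (mem_of_mul_eq_zero (by rw [← mul_assoc]; exact h2))
  have hR : range (b * a) ≤ range b ⊓ ker a :=
    le_inf (range_mul_le b a) (mem_of_mul_eq_zero (by rw [← mul_assoc]; exact h1))
  -- dimension bookkeeping
  have hLdim : Module.finrank k ↥(range a ⊓ ker b) + endRank (b * a) = d := by
    have h := (b.domRestrict (range a)).finrank_range_add_finrank_ker
    have e1 : range (b.domRestrict (range a)) = range (b * a) := by
      ext m; simp [LinearMap.mem_range]
    have e2 : Module.finrank k (ker (b.domRestrict (range a))) = Module.finrank k ↥(range a ⊓ ker b) := by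
      have e : ker (b.domRestrict (range a)) = (range a ⊓ ker b).comap (range a).subtype := by
        ext m; simp
      rw [e]
      exact (Submodule.comapSubtypeEquivOfLe inf_le_left).finrank_eq
    rw [e1, e2] at h
    show _ + Module.finrank k (range (b * a)) = Module.finrank k (range a)
    omega
  have hRdim : Module.finrank k ↥(range b ⊓ ker a) + endRank (a * b) = d := by
    have h := (a.domRestrict (range b)).finrank_range_add_finrank_ker
    have e1 : range (a.domRestrict (range b)) = range (a * b) := by
      ext m; simp [LinearMap.mem_range]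
    have e2 : Module.finrank k (ker (a.domRestrict (range b))) = Module.finrank k ↥(range b ⊓ ker a) := by
      have e : ker (a.domRestrict (range b)) = (range b ⊓ ker a).comap (range b).subtype := by
        ext m; simp
      rw [e]
      exact (Submodule.comapSubtypeEquivOfLe inf_le_left).finrank_eq
    rw [e1, e2] at h
    rw [← hdb]
    show _ + Module.finrank k (range (a * b)) = Module.finrank k (range b)
    omega
  have h3 : endRank (a * b) ≤ Module.finrank k ↥(range a ⊓ ker b) := Submodule.finrank_mono hL
  have h4 : endRank (b * a) ≤ Module.finrank k ↥(range b ⊓ ker a) := Submodule.finrank_mono hR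
  have hule : range u ≤ range (a * b) ⊔ range (b * a) := by
    rintro - ⟨m, rfl⟩
    exact sub_mem (Submodule.mem_sup_left (LinearMap.mem_range_self _ m))
      (Submodule.mem_sup_right (LinearMap.mem_range_self _ m))
  have hsum := Submodule.finrank_sup_add_finrank_inf_eq (range (a * b)) (range (b * a))
  have hu1 : endRank u ≤ Module.finrank k ↥(range (a * b) ⊔ range (b * a)) := Submodule.finrank_mono hule
  unfold endRank at h3 h4 hu1 hLdim hRdim hdu
  have hLe : range (a * b) = range a ⊓ ker b := Submodule.eq_of_le_of_finrank_le hL (by omega)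
  have hRe : range (b * a) = range b ⊓ ker a := Submodule.eq_of_le_of_finrank_le hR (by omega)
  have hrange : range u = range (a * b) ⊔ range (b * a) :=
    Submodule.eq_of_le_of_finrank_le hule (by omega)
  have hinf : range (a * b) ⊓ range (b * a) = ⊥ := Submodule.finrank_eq_zero.mp (by omega)
  have hurk : Module.finrank k (range u) = d := by omega
  -- kernels
  have hkab : ker b ⊔ range a ≤ ker (a * b) :=
    sup_le (ker_le_ker_mul a b) (mem_of_mul_eq_zero h1)
  have hkba : ker a ⊔ range b ≤ ker (b * a) :=
    sup_le (ker_le_ker_mul b a) (mem_of_mul_eq_zero h2)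
  have hsA := Submodule.finrank_sup_add_finrank_inf_eq (ker b) (range a)
  have hsB := Submodule.finrank_sup_add_finrank_inf_eq (ker a) (range b)
  rw [inf_comm (ker b)] at hsA
  rw [inf_comm (ker a)] at hsB
  have nab := (a * b).finrank_range_add_finrank_ker
  have nba := (b * a).finrank_range_add_finrank_ker
  have na := a.finrank_range_add_finrank_ker
  have nb := b.finrank_range_add_finrank_ker
  have nu := u.finrank_range_add_finrank_ker
  unfold endRank at hdb
  have hd' : Module.finrank k (range a) = d := rfl
  have kL : ker (a * b) = ker b ⊔ range a := (Submodule.eq_of_le_of_finrank_le hkab (by omega)).symm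
  have kR : ker (b * a) = ker a ⊔ range b := (Submodule.eq_of_le_of_finrank_le hkba (by omega)).symm
  have hkle : ker (a * b) ⊓ ker (b * a) ≤ ker u := fun m hm => by
    rw [LinearMap.mem_ker, hu, LinearMap.sub_apply, LinearMap.mem_ker.mp hm.1,
      LinearMap.mem_ker.mp hm.2, sub_zero]
  have hkdim := Submodule.finrank_sup_add_finrank_inf_eq (ker (a * b)) (ker (b * a))
  have hktop := Submodule.finrank_le (ker (a * b) ⊔ ker (b * a))
  have hku : ker u = ker (a * b) ⊓ ker (b * a) :=
    (Submodule.eq_of_le_of_finrank_le hkle (by omega)).symm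
  have e1 : a * (b * a) = 0 := by rw [← mul_assoc]; exact h1
  have e2 : b * (a * b) = 0 := by rw [← mul_assoc]; exact h2
  refine ⟨⟨hline, hne, fun w hw hw0 => ?_⟩, hLe, hRe, by rw [hrange, hLe, hRe], by rw [← hLe, ← hRe, hinf],
    kL, kR, by rw [hku, kL, kR], ?_, ?_, ?_, ?_⟩
  · show Module.finrank k (range u) ≤ _
    rw [hurk]; exact ha.2.2 w hw hw0
  · rw [mul_sub, ← mul_assoc a a b, ha.sq, zero_mul, e1, sub_zero]
  · rw [sub_mul, h1, mul_assoc b a a, ha.sq, mul_zero, sub_zero]
  · rw [mul_sub, ← mul_assoc b b a, hb.sq, zero_mul, e2, sub_zero]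
  · rw [sub_mul, h2, mul_assoc a b b, hb.sq, mul_zero, sub_zero]

/-- All brackets of two classes lie in one class. -/
lemma BracketData.same (hD : BracketData G a b) (hD' : BracketData G a' b') (hA : SameAction a a')
    (hB : SameAction b b') : SameAction (a * b - b * a) (a' * b' - b' * a') :=
  ⟨by rw [hD'.range_eq, hD.range_eq, hA.1, hA.2, hB.1, hB.2],
    by rw [hD'.ker_eq, hD.ker_eq, hA.1, hA.2, hB.1, hB.2]⟩

variable (h2 : (2 : k) ≠ 0) (h3 : Nat.card k ≠ 3)

include h2 h3 in
lemma triple_symm (ha : IsMinLine G a) (hb : IsMinLine G b) (h : a * b * a = 0) : b * a * b = 0 := by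
  rcases dichotomy h2 h3 ha hb with h' | h'
  · exact h'.2
  · exact absurd h h'.1

include h2 h3 in
/-- Vanishing of the triple product only depends on the classes. -/
lemma triple_class (ha : IsMinLine G a) (hb : IsMinLine G b) (ha' : IsMinLine G a') (hb' : IsMinLine G b')
    (hA : SameAction a a') (hB : SameAction b b') (h : a * b * a = 0) : a' * b' * a' = 0 :=
  hA.triple_eq_zero (triple_symm h2 h3 hb' ha (hB.triple_eq_zero (triple_symm h2 h3 ha hb h)))

include h2 h3 in
/-- If one pair of members of two classes commutes, all pairs do. -/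
theorem comm_of_comm (ha : IsMinLine G a) (hb : IsMinLine G b) (ha' : IsMinLine G a')
    (hA : SameAction a a') (hab : a * b = b * a) : a' * b = b * a' := by
  have h1 : a * b * a = 0 := by rw [hab, mul_assoc, ha.sq, mul_zero]
  have h1' : a' * b * a' = 0 := hA.triple_eq_zero h1
  by_contra hne
  have D := bracketData ha' hb h1' (triple_symm h2 h3 ha' hb h1') (sub_ne_zero.mpr hne)
  have hr : range (b * a') = range (b * a) := by
    show range (b.comp a') = range (b.comp a)
    rw [LinearMap.range_comp, LinearMap.range_comp, hA.1]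
  have hba : b * a = 0 := by
    rw [← LinearMap.range_eq_bot, eq_bot_iff, ← D.disj]
    refine le_inf ?_ (by rw [← D.rangeR, hr])
    refine le_inf ?_ (mem_of_mul_eq_zero (by rw [← mul_assoc, hb.sq, zero_mul]))
    rw [hA.1, ← hab]
    exact range_mul_le a b
  have hba' : b * a' = 0 := hA.mul_eq_zero_right hba
  have hab' : a' * b = 0 := hA.mul_eq_zero_left (hab.trans hba)
  exact hne (hab'.trans hba'.symm)

include h2 h3 in
/-- Two different members of the classes, both arguments varying. -/
theorem comm_of_comm' (ha : IsMinLine G a) (hb : IsMinLine G b) (ha' : IsMinLine G a')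
    (hb' : IsMinLine G b') (hA : SameAction a a') (hB : SameAction b b') (hab : a * b = b * a) :
    a' * b' = b' * a' :=
  (comm_of_comm h2 h3 hb ha' hb' hB (comm_of_comm h2 h3 ha hb ha' hA hab).symm).symm

end CfsgLib.Transpositions
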