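import Cfsg.Agent.Lib.Transpositions.SigmaStructure

/-!
A group generated by lines is a central product of quasisimple groups.
-/
set_option autoImplicit false

open Cfsg
open scoped commutatorElement Pointwise
open Relation (ReflTransGen)

namespace CfsgLib.Transpositions

variable {k : Type*} [Field k] {M : Type*} [AddCommGroup M] [Module k M] [FiniteDimensional k M]
variable {G H : Subgroup (LinearMap.GeneralLinearGroup k M)} {x y : Module.End k M}

open LinearMap (range ker)

lemma exists_isMinLine (hx : IsLine k G x) (hx0 : x ≠ 0) : ∃ a, IsMinLine G a := by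
  classical
  have hne : ∃ n, ∃ y, IsLine k G y ∧ y ≠ 0 ∧ endRank y = n := ⟨_, x, hx, hx0, rfl⟩
  obtain ⟨y, hy, hy0, hn⟩ := Nat.find_spec hne
  exact ⟨y, hy, hy0, fun w hw hw0 => hn ▸ Nat.find_min' hne ⟨w, hw, hw0, rfl⟩⟩

lemma mul_eq_zero_of_range_ker (hx : x * x = 0) {p q : Module.End k M} (hp : ker x ≤ ker p)
    (hq : range q ≤ range x) : p * q = 0 := by
  ext m
  exact LinearMap.mem_ker.mp (hp (mem_of_mul_eq_zero hx (hq (LinearMap.mem_range_self q m))))

lemma isLine_sum {ι : Type*} (hx : x * x = 0) (s : Finset ι) (y : ι → Module.End k M) {P : Subgroup (Module.End k M)ˣ}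
    (hy : ∀ i ∈ s, IsLine k P (y i)) (hr : ∀ i ∈ s, range (y i) ≤ range x) (hk : ∀ i ∈ s, ker x ≤ ker (y i)) :
    IsLine k P (∑ i ∈ s, y i) ∧ range (∑ i ∈ s, y i) ≤ range x ∧ ker x ≤ ker (∑ i ∈ s, y i) := by
  classical
  induction s using Finset.induction_on with
  | empty => simp [isLine_zero]
  | insert i s hi ih =>
    obtain ⟨l, r, c⟩ := ih (fun j hj => hy j (Finset.mem_insert_of_mem hj))
      (fun j hj => hr j (Finset.mem_insert_of_mem hj)) (fun j hj => hk j (Finset.mem_insert_of_mem hj))
    have hi' := Finset.mem_insert_self i s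
    rw [Finset.sum_insert hi]
    refine ⟨(hy i hi').add l (mul_eq_zero_of_range_ker hx (hk i hi') r) (mul_eq_zero_of_range_ker hx c (hr i hi')), ?_, ?_⟩
    · rintro - ⟨m, rfl⟩
      exact add_mem (hr i hi' (LinearMap.mem_range_self _ m)) (r (LinearMap.mem_range_self _ m))
    · intro m hm
      rw [LinearMap.mem_ker, LinearMap.add_apply, LinearMap.mem_ker.mp (hk i hi' hm), LinearMap.mem_ker.mp (c hm),
        add_zero]

/-- A line centralised by a group without unipotent normal subgroups, and lying in it, vanishes. -/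
lemma line_eq_zero_of_central (hN : NoUnip H) (hx : IsLine k H x)
    (hc : ∀ g ∈ H, Commute (g : Module.End k M) x) : x = 0 := by
  have hu : IsUnipGroup k (lineGroup k x hx.1) := by
    refine IsUnipGroup.of_le_span (I := Submodule.span k {x}) (n := 2) two_pos ?_ ?_
    · rw [pow_two, Submodule.span_mul_span, Submodule.span_eq_bot]
      rintro - ⟨p, rfl, q, rfl, rfl⟩; exact hx.1
    · rw [augSpan, Submodule.span_le]
      rintro - ⟨g, ⟨t, ht⟩, rfl⟩
      rw [ht, add_sub_cancel_left]
      exact Submodule.smul_mem _ t (Submodule.mem_span_singleton_self x)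
  have h0 := hN _ (lineGroup_le hx) hu fun g hg => ?_
  · obtain ⟨g, hg, e⟩ := (isLine_lineGroup (k := k) hx.1).exists_one
    rw [h0, Subgroup.mem_bot] at hg
    simpa [hg] using e
  refine Subgroup.centralizer_le_normalizer _ fun l ⟨t, ht⟩ => Units.ext ?_
  rw [Units.val_mul, Units.val_mul, ht, add_mul, mul_add, one_mul, mul_one, smul_mul_assoc, mul_smul_comm,
    (hc g hg).eq]

lemma commute_of_mem_line {P Q : Subgroup (Module.End k M)ˣ} (hy : IsLine k Q y) (h : ⁅P, Q⁆ = ⊥) {g : (Module.End k M)ˣ}
    (hg : g ∈ P) : Commute (g : Module.End k M) y := by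
  obtain ⟨u, hu, eu⟩ := hy.exists_one
  have := congrArg (fun z : (Module.End k M)ˣ => (z : Module.End k M))
    (Subgroup.mem_centralizer_iff.mp (Subgroup.commutator_eq_bot_iff_le_centralizer.mp h hg) u hu)
  simp only [Units.val_mul, eu, add_mul, mul_add, one_mul, mul_one] at this
  exact (add_left_cancel this).symm

/-- Components: finitely many representatives. -/
lemma exists_reps (h2 : (2 : k) ≠ 0) (h3 : Nat.card k ≠ 3) (hN : NoUnip G) :
    ∃ (n : ℕ) (A : Fin n → Subgroup (LinearMap.GeneralLinearGroup k M)),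
      (∀ i, A i ∈ Cfsg.quadraticRootSubgroups G) ∧ (∀ i j, i ≠ j → ¬ Reach G (A i) (A j)) ∧
      ∀ B ∈ Cfsg.quadraticRootSubgroups G, ∃ i, Reach G (A i) B := by
  set T := (part G) '' Cfsg.quadraticRootSubgroups G
  have : Finite ↥T := (finite_parts h2 h3 hN).to_subtype
  let e : Fin (Nat.card ↥T) ≃ ↥T := (Finite.equivFin ↥T).symm
  choose A hA hAe using fun i => (e i).2
  refine ⟨_, A, hA, fun i j hij h => hij (e.injective (Subtype.ext ?_)), fun B hB => ?_⟩
  · rw [← hAe i, ← hAe j, part_eq_of_reach h]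
  · refine ⟨e.symm ⟨_, B, hB, rfl⟩, ?_⟩
    have := hAe (e.symm ⟨_, B, hB, rfl⟩)
    rw [Equiv.apply_symm_apply] at this
    have hB' : B ∈ part G (A (e.symm ⟨_, B, hB, rfl⟩)) := this ▸ ⟨hB, ReflTransGen.refl⟩
    exact hB'.2

/-- A family of quasisimple commuting subgroups into which all lines decompose. -/
def HasLineFactors (H : Subgroup (LinearMap.GeneralLinearGroup k M)) : Prop :=
  ∃ (n : ℕ) (Q : Fin n → Subgroup (LinearMap.GeneralLinearGroup k M)),
    (∀ i, Q i ≤ H) ∧ (∀ i, Cfsg.IsQuasisimple ↥(Q i)) ∧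
    (∀ i, Subgroup.closure {g | g ∈ Q i ∧ g ≠ 1 ∧ IsLine k H ((g : Module.End k M) - 1)} = Q i) ∧
    (∀ i j, i ≠ j → ⁅Q i, Q j⁆ = ⊥) ∧
    ∀ x, IsLine k H x → ∃ y : Fin n → Module.End k M, x = ∑ i, y i ∧
      ∀ i, IsLine k (Q i) (y i) ∧ range (y i) ≤ range x ∧ ker x ≤ ker (y i)

theorem hasLineFactors (h2 : (2 : k) ≠ 0) (h3 : Nat.card k ≠ 3) :
    ∀ H : Subgroup (LinearMap.GeneralLinearGroup k M), NoUnip H → HasLineFactors H := by
  intro H
  induction hd : Module.finrank k (augSpan k H) using Nat.strong_induction_on generalizing H with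
  | _ d IH =>
  intro hN
  by_cases hex : ∀ x, IsLine k H x → x = 0
  · exact ⟨0, Fin.elim0, fun i => i.elim0, fun i => i.elim0, fun i => i.elim0, fun i => i.elim0,
      fun x hx => ⟨fun i => i.elim0, by simp [hex x hx], fun i => i.elim0⟩⟩
  push Not at hex
  obtain ⟨x, hx, hx0⟩ := hex
  obtain ⟨a, ha⟩ := exists_isMinLine hx hx0
  set G₀ := sigmaGroup H with hG₀
  have hle : G₀ ≤ H := sigmaGroup_le
  have hn : H ≤ Subgroup.normalizer (G₀ : Set (LinearMap.GeneralLinearGroup k M)) := sigmaGroup_normal
  have hN₀ : NoUnip G₀ := hN.of_normal hle hn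
  set S : Set (LinearMap.GeneralLinearGroup k M) :=
    {g | ∃ x, IsLine k H x ∧ (∀ q ∈ G₀, Commute (q : Module.End k M) x) ∧ (g : Module.End k M) = 1 + x} with hS
  set C := Subgroup.closure S with hC
  have hCH : C ≤ H := by
    refine (Subgroup.closure_le H).mpr ?_
    rintro g ⟨x, hx, -, e⟩
    obtain ⟨h, hh, e'⟩ := hx.exists_one
    exact (Units.ext (e'.trans e.symm) : h = g) ▸ hh
  have hSconj : ∀ g ∈ H, ∀ s ∈ S, g * s * g⁻¹ ∈ S := by
    rintro g hg s ⟨x, hx, hc, e⟩
    refine ⟨(g : Module.End k M) * x * (g⁻¹ : (Module.End k M)ˣ), hx.conj_mem hg, fun q hq => ?_, ?_⟩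
    · have hq' : g⁻¹ * q * g ∈ G₀ := by
        have := (Subgroup.mem_normalizer_iff.mp (hn (inv_mem hg)) q).mp hq
        simpa using this
      have := congrArg (fun w => (g : Module.End k M) * w * (g⁻¹ : (Module.End k M)ˣ)) (hc _ hq').eq
      simp only [Units.val_mul, mul_assoc, Units.mul_inv_cancel_left, Units.mul_inv, mul_one] at this
      show _ = _
      simp only [mul_assoc]
      exact this
    · simp [e, mul_add, add_mul]
  have hCn : H ≤ Subgroup.normalizer (C : Set (LinearMap.GeneralLinearGroup k M)) := by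
    have key : ∀ g ∈ H, ∀ c ∈ C, g * c * g⁻¹ ∈ C := by
      intro g hg c hc
      have : g * c * g⁻¹ ∈ C.map (MulAut.conj g).toMonoidHom := ⟨c, hc, rfl⟩
      refine (?_ : _ ≤ C) this
      rw [hC, MonoidHom.map_closure]
      refine Subgroup.closure_mono ?_
      rintro - ⟨s, hs, rfl⟩; exact hSconj g hg s hs
    exact fun g hg => Subgroup.mem_normalizer_iff.mpr fun c => ⟨key g hg c, fun h => by
      simpa [mul_assoc] using key g⁻¹ (inv_mem hg) _ h⟩
  have hCG₀ : ⁅G₀, C⁆ = ⊥ := by
    rw [Subgroup.commutator_eq_bot_iff_le_centralizer, Subgroup.le_centralizer_iff, hC, Subgroup.closure_le]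
    rintro g ⟨x, -, hc, e⟩ q hq
    refine Units.ext ?_
    rw [Units.val_mul, Units.val_mul, e, mul_add, add_mul, mul_one, one_mul, (hc q hq).eq]
  have hlt : Module.finrank k (augSpan k C) < d := by
    subst hd
    refine lt_of_le_of_ne (Submodule.finrank_mono (augSpan_mono hCH)) fun he => ?_
    have hEq := Submodule.eq_of_le_of_finrank_le (augSpan_mono hCH) he.symm.le
    obtain ⟨c, hc⟩ := exists_partner h2 h3 hN ha
    obtain ⟨g, hg, eg⟩ := exists_line_mem_classGroup ha
    obtain ⟨f, hf, ef⟩ := exists_line_mem_classGroup hc.2.1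
    have hgG : g ∈ G₀ := le_iSup₂ (f := fun B _ => B) (classGroup ha) (classGroup_mem ha) hg
    have hfG : f ∈ G₀ := le_iSup₂ (f := fun B _ => B) (classGroup hc.2.1) (classGroup_mem hc.2.1) hf
    have hcomm : augSpan k C ≤ LinearMap.ker
        (LinearMap.mulLeft k ((g : Module.End k M)) - LinearMap.mulRight k ((g : Module.End k M))) := by
      rw [augSpan, Submodule.span_le]
      rintro - ⟨u, hu, rfl⟩
      have := congrArg (fun z : (Module.End k M)ˣ => (z : Module.End k M))
        (Subgroup.mem_centralizer_iff.mp (Subgroup.commutator_eq_bot_iff_le_centralizer.mp hCG₀ hgG) u hu)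
      simp only [Units.val_mul] at this
      simp [mul_sub, sub_mul, this]
    have := hcomm (hEq ▸ sub_one_mem_augSpan (hle hfG))
    simp only [LinearMap.mem_ker, LinearMap.sub_apply, LinearMap.mulLeft_apply, LinearMap.mulRight_apply, sub_eq_zero,
      eg, ef, add_sub_cancel_left, add_mul, mul_add, one_mul, mul_one] at this
    exact hc.not_comm (add_left_cancel this)
  obtain ⟨m, R, hRC, hRq, hRgen, hRcomm, hRdec⟩ := IH _ hlt C rfl (hN.of_normal hCH hCn)
  obtain ⟨n, A, hA, hAsep, hAall⟩ := exists_reps h2 h3 hN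
  set P : Fin n → Subgroup (LinearMap.GeneralLinearGroup k M) := fun i => partGroup H (A i) with hP
  have hPle : ∀ i, P i ≤ G₀ := fun i => partGroup_le _
  have hPn : ∀ i, G₀ ≤ Subgroup.normalizer (P i : Set (LinearMap.GeneralLinearGroup k M)) := by
    intro i
    refine iSup₂_le fun B hB => ?_
    obtain ⟨j, hj⟩ := hAall B hB
    by_cases hij : j = i
    · subst hij
      exact (le_iSup₂ (f := fun B _ => B) B ⟨hB, hj⟩).trans Subgroup.le_normalizer
    · refine le_trans ?_ (Subgroup.centralizer_le_normalizer _)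
      rw [← Subgroup.commutator_eq_bot_iff_le_centralizer]
      refine le_bot_iff.mp ((Subgroup.commutator_mono ?_ le_rfl).trans
        (commutator_partGroup h2 h3 hN (hAsep j i hij)).le)
      exact le_iSup₂ (f := fun B _ => B) B ⟨hB, hj⟩
  have hdec₀ : ∀ x, IsLine k G₀ x → ∀ s : Finset (Fin n), ∃ (y : Fin n → Module.End k M) (r : Module.End k M),
      x = (∑ i ∈ s, y i) + r ∧ (∀ i ∈ s, IsLine k (P i) (y i) ∧ range (y i) ≤ range x ∧ ker x ≤ ker (y i)) ∧
        IsLine k G₀ r ∧ range r ≤ range x ∧ ker x ≤ ker r ∧ ∀ i ∈ s, ∀ g ∈ P i, Commute (g : Module.End k M) r := by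
    classical
    intro x hx s
    induction s using Finset.induction_on with
    | empty => exact ⟨0, x, by simp, by simp, hx, le_rfl, le_rfl, by simp⟩
    | insert j s hj ih =>
      obtain ⟨y, r, e, hy, hr, rr, kr, hc⟩ := ih
      obtain ⟨z, r', e', hz, hr', rz, kz, rr', kr', hc'⟩ :=
        line_decomp h2 h3 hN₀ (hPle j) (hPn j) r hr
      refine ⟨Function.update y j z, r', ?_, ?_, hr', rr'.trans rr, kr.trans kr', ?_⟩
      · rw [Finset.sum_insert hj, Function.update_self, Finset.sum_congr rfl fun i hi =>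
          Function.update_of_ne (fun h => hj (h ▸ hi) : i ≠ j) z y, e, e']
        abel
      · intro i hi
        rcases Finset.mem_insert.mp hi with rfl | hi
        · rw [Function.update_self]; exact ⟨hz, rz.trans rr, kr.trans kz⟩
        · rw [Function.update_of_ne (fun h => hj (h ▸ hi) : i ≠ j)]; exact hy i hi
      · intro i hi g hg
        rcases Finset.mem_insert.mp hi with rfl | hi
        · exact hc' g hg
        · have hij : i ≠ j := fun h => hj (h ▸ hi)
          have h1 := commute_of_mem_line hz (commutator_partGroup h2 h3 hN (hAsep i j hij)) hg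
          have h3' := hc i hi g hg
          rw [e'] at h3'
          simpa using h3'.sub_right h1
  refine ⟨n + m, Fin.append P R, ?_, ?_, ?_, ?_, ?_⟩
  · refine Fin.addCases (fun i => ?_) fun i => ?_
    · rw [Fin.append_left]; exact (hPle i).trans hle
    · rw [Fin.append_right]; exact (hRC i).trans hCH
  · refine Fin.addCases (fun i => ?_) fun i => ?_
    · rw [Fin.append_left]; exact part_quasisimple h2 h3 hN (hA i)
    · rw [Fin.append_right]; exact hRq i
  · refine Fin.addCases (fun i => ?_) fun i => ?_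
    · rw [Fin.append_left]
      refine le_antisymm ((Subgroup.closure_le _).mpr fun g hg => hg.1) (iSup₂_le fun B hB g hg => ?_)
      rcases eq_or_ne g 1 with rfl | hg1
      · exact one_mem _
      obtain ⟨b, hb, rfl⟩ := mem_quadraticRootSubgroups_iff.mp hB.1
      exact Subgroup.subset_closure ⟨le_iSup₂ (f := fun B _ => B) _ hB hg, hg1, (classGroup_min hg hg1).1.1⟩
    · rw [Fin.append_right]
      refine le_antisymm ((Subgroup.closure_le _).mpr fun g hg => hg.1) ?_
      conv_lhs => rw [← hRgen i]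
      exact Subgroup.closure_mono fun g hg => ⟨hg.1, hg.2.1, hg.2.2.mono hCH⟩
  · have cross : ∀ i j, ⁅P i, R j⁆ = ⊥ := fun i j =>
      le_bot_iff.mp ((Subgroup.commutator_mono (hPle i) (hRC j)).trans hCG₀.le)
    refine Fin.addCases (fun i => ?_) fun i => ?_ <;> refine Fin.addCases (fun j => ?_) fun j => ?_ <;>
      intro hij <;> simp only [Fin.append_left, Fin.append_right]
    · exact commutator_partGroup h2 h3 hN (hAsep i j fun h => hij (by rw [h]))
    · exact cross i j
    · rw [Subgroup.commutator_comm]; exact cross j i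
    · exact hRcomm i j fun h => hij (by rw [h])
  · intro x hx
    obtain ⟨x₁, x₀, e, l₁, l₀, r₁, k₁, r₀, k₀, hc⟩ := line_decomp h2 h3 hN hle hn x hx
    obtain ⟨y, r, ey, hy, hr, -, -, hcr⟩ := hdec₀ x₁ l₁ Finset.univ
    have hr0 : r = 0 := by
      refine line_eq_zero_of_central hN₀ hr fun g hg => ?_
      rw [hG₀, show sigmaGroup H = Subgroup.closure (⋃ B ∈ Cfsg.quadraticRootSubgroups H, (B : Set (LinearMap.GeneralLinearGroup k M))) by
        simp only [sigmaGroup, Subgroup.closure_iUnion, Subgroup.closure_eq]] at hg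
      induction hg using Subgroup.closure_induction with
      | mem g hg =>
        simp only [Set.mem_iUnion] at hg
        obtain ⟨B, hB, hgB⟩ := hg
        obtain ⟨i, hi⟩ := hAall B hB
        exact hcr i (Finset.mem_univ i) g (le_iSup₂ (f := fun B _ => B) B ⟨hB, hi⟩ hgB)
      | one => exact Commute.one_left r
      | inv g _ ih => exact ih.units_inv_left
      | mul g g' _ _ ih ih' => exact ih.mul_left ih'
    rw [hr0, add_zero] at ey
    have lC : IsLine k C x₀ := by
      refine ⟨l₀.1, fun t => ⟨sqUnit (t • x₀) (smul_sq l₀.1 t t), Subgroup.subset_closure ?_, rfl⟩⟩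
      exact ⟨t • x₀, l₀.smul t, fun q hq => (hc q hq).smul_right t, rfl⟩
    obtain ⟨z, ez, hz⟩ := hRdec x₀ lC
    refine ⟨Fin.append y z, ?_, ?_⟩
    · rw [Fin.sum_univ_add]
      simp only [Fin.append_left, Fin.append_right]
      rw [← ey, ← ez, e]
    · refine Fin.addCases (fun i => ?_) fun i => ?_ <;> simp only [Fin.append_left, Fin.append_right]
      · obtain ⟨a1, a2, a3⟩ := hy i (Finset.mem_univ i)
        exact ⟨a1, a2.trans r₁, k₁.trans a3⟩
      · obtain ⟨a1, a2, a3⟩ := hz i
        exact ⟨a1, a2.trans r₀, k₀.trans a3⟩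

/-- In an irreducible group two commuting factors do not share a line. -/
lemma factor_piece_unique (hirr : Cfsg.IsIrreducibleFor G)
    {Q R : Subgroup (LinearMap.GeneralLinearGroup k M)} (hQ : Cfsg.IsQuasisimple ↥Q) (hNQ : NoUnip Q) (hQR : ⁅Q, R⁆ = ⊥)
    (hQn : G ≤ Subgroup.normalizer (Q : Set (LinearMap.GeneralLinearGroup k M)))
    {p q : Module.End k M} (hp : IsLine k Q p) (hq : IsLine k R q) (hpq : p * q = 0) (hp0 : p ≠ 0) : q = 0 := by
  by_contra hq0
  obtain ⟨u, hu, eu⟩ := hp.exists_one
  let N : Subgroup ↥Q := Subgroup.normalClosure {(⟨u, hu⟩ : ↥Q)}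
  have hNn : N.Normal := Subgroup.normalClosure_normal
  rcases CfsgLib.Cores.normal_eq_top_or_le_center hQ N with htop | hcent
  · have hfix : ∀ g : ↥Q, ((g : LinearMap.GeneralLinearGroup k M) : Module.End k M) * q = q := by
      intro g
      have hg : g ∈ N := htop ▸ Subgroup.mem_top g
      induction hg using Subgroup.closure_induction with
      | mem g hg =>
        obtain ⟨w, hw, hconj⟩ := Group.mem_conjugatesOfSet_iff.mp hg
        rw [Set.mem_singleton_iff] at hw
        subst hw
        obtain ⟨t, rfl⟩ := isConj_iff.mp hconj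
        have hc := commute_of_mem_line hq hQR (t⁻¹).2
        simp only [Subgroup.coe_mul, Units.val_mul, Subgroup.coe_inv] at hc ⊢
        rw [mul_assoc, hc.eq, ← mul_assoc, mul_assoc (t : LinearMap.GeneralLinearGroup k M).val, eu, add_mul 1 p q, one_mul, hpq,
          add_zero, (commute_of_mem_line hq hQR t.2).eq, mul_assoc, Units.mul_inv, mul_one]
      | one => simp
      | inv g _ ih =>
        rw [Subgroup.coe_inv]
        conv_lhs => rw [← ih]
        rw [← mul_assoc, Units.inv_mul, one_mul]
      | mul g g' _ _ ih ih' => rw [Subgroup.coe_mul, Units.val_mul, mul_assoc, ih', ih]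
    have hinv : ∀ g ∈ G, ∀ w ∈ Cfsg.fixedSubmodule Q, (g : Module.End k M) w ∈ Cfsg.fixedSubmodule Q := by
      intro g hg w hw
      simp only [Cfsg.fixedSubmodule, Submodule.mem_iInf, LinearMap.mem_ker] at hw ⊢
      intro h hh
      have hh' : g⁻¹ * h * g ∈ Q := by
        have := (Subgroup.mem_normalizer_iff.mp (inv_mem (hQn hg)) h).mp hh
        simpa using this
      have := hw _ hh'
      rw [LinearMap.sub_apply, sub_eq_zero] at this ⊢
      have h' := congrArg (g : Module.End k M) this
      simpa [mul_assoc, ← Module.End.mul_apply, Units.mul_inv_cancel_left] using h'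
    rcases hirr.2 (Cfsg.fixedSubmodule Q) hinv with hbot | htop'
    · apply hq0
      ext m
      have : q m ∈ Cfsg.fixedSubmodule Q := by
        simp only [Cfsg.fixedSubmodule, Submodule.mem_iInf, LinearMap.mem_ker]
        intro g hg
        rw [← Module.End.mul_apply]
        rw [sub_mul, one_mul]
        show ((g : Module.End k M) * q - q) m = 0
        rw [hfix ⟨g, hg⟩, sub_self]; rfl
      rw [hbot, Submodule.mem_bot] at this
      exact this
    · apply hp0
      ext m
      have : m ∈ Cfsg.fixedSubmodule Q := htop' ▸ Submodule.mem_top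
      simp only [Cfsg.fixedSubmodule, Submodule.mem_iInf, LinearMap.mem_ker] at this
      have h := this u hu
      rwa [show ((u : Module.End k M)) - 1 = p by rw [eu, add_sub_cancel_left]] at h
  · refine hp0 (line_eq_zero_of_central hNQ hp fun g hg => ?_)
    have := congrArg (fun z : ↥Q => ((z : LinearMap.GeneralLinearGroup k M) : Module.End k M))
      (Subgroup.mem_center_iff.mp (hcent (Subgroup.subset_normalClosure rfl)) ⟨g, hg⟩)
    simp only [Subgroup.coe_mul, Units.val_mul, eu, mul_add, add_mul, mul_one, one_mul] at this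
    exact add_left_cancel this

end CfsgLib.Transpositions
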