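import Mathlib

/-!
Unipotent groups of units of an algebra: augmentation span, nilpotency, and the Kolchin–Baer criterion.
-/
set_option autoImplicit false

open scoped Pointwise commutatorElement

namespace CfsgLib.Transpositions

variable (k : Type*) [Field k] {A : Type*} [Ring A] [Algebra k A]

/-- The span of the elements `g - 1`, `g ∈ H`. -/
def augSpan (H : Subgroup Aˣ) : Submodule k A := Submodule.span k {x | ∃ g ∈ H, x = (g : A) - 1}

/-- Some power of the augmentation span vanishes. -/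
def IsUnipGroup (H : Subgroup Aˣ) : Prop := ∃ n : ℕ, 0 < n ∧ augSpan k H ^ n = ⊥

variable {k} {H K : Subgroup Aˣ}

lemma sub_one_mem_augSpan {g : Aˣ} (hg : g ∈ H) : (g : A) - 1 ∈ augSpan k H :=
  Submodule.subset_span ⟨g, hg, rfl⟩

lemma augSpan_mono (h : H ≤ K) : augSpan k H ≤ augSpan k K := by
  apply Submodule.span_mono
  rintro x ⟨g, hg, rfl⟩
  exact ⟨g, h hg, rfl⟩

lemma augSpan_mul_le : augSpan k H * augSpan k H ≤ augSpan k H := by
  rw [augSpan, Submodule.span_mul_span, Submodule.span_le]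
  rintro x ⟨a, ⟨g, hg, rfl⟩, b, ⟨h, hh, rfl⟩, rfl⟩
  have : ((g : A) - 1) * ((h : A) - 1) = (((g * h : Aˣ) : A) - 1) - ((g : A) - 1) - ((h : A) - 1) := by
    simp [sub_mul, mul_sub]; abel
  change ((g : A) - 1) * ((h : A) - 1) ∈ Submodule.span k _
  rw [this]
  exact sub_mem (sub_mem (sub_one_mem_augSpan (H.mul_mem hg hh)) (sub_one_mem_augSpan hg))
    (sub_one_mem_augSpan hh)

lemma augSpan_pow_succ_le {i : ℕ} (hi : 0 < i) : augSpan k H ^ (i + 1) ≤ augSpan k H ^ i := by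
  obtain ⟨j, rfl⟩ : ∃ j, i = j + 1 := ⟨i - 1, by omega⟩
  calc augSpan k H ^ (j + 1 + 1) = augSpan k H ^ j * (augSpan k H * augSpan k H) := by
        rw [pow_succ, pow_succ, mul_assoc]
    _ ≤ augSpan k H ^ j * augSpan k H := mul_le_mul' le_rfl augSpan_mul_le
    _ = _ := (pow_succ _ _).symm

/-- Criterion: generators whose deviations lie in a multiplicatively closed subspace. -/
lemma augSpan_closure_le {S : Set Aˣ} {I : Submodule k A} (hI : I * I ≤ I)
    (h : ∀ g ∈ S, (g : A) - 1 ∈ I ∧ ((g⁻¹ : Aˣ) : A) - 1 ∈ I) :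
    augSpan k (Subgroup.closure S) ≤ I := by
  rw [augSpan, Submodule.span_le]
  rintro x ⟨g, hg, rfl⟩
  suffices (g : A) - 1 ∈ I ∧ ((g⁻¹ : Aˣ) : A) - 1 ∈ I from this.1
  induction hg using Subgroup.closure_induction with
  | mem g hg => exact h g hg
  | one => simp
  | inv g _ hg => exact ⟨hg.2, by simpa using hg.1⟩
  | mul g g' _ _ hg hg' =>
    refine ⟨?_, ?_⟩
    · have : ((g * g' : Aˣ) : A) - 1 = ((g : A) - 1) * ((g' : A) - 1) + ((g : A) - 1) + ((g' : A) - 1) := by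
        simp [sub_mul, mul_sub]
      rw [this]
      exact add_mem (add_mem (hI (Submodule.mul_mem_mul hg.1 hg'.1)) hg.1) hg'.1
    · have : (((g * g')⁻¹ : Aˣ) : A) - 1 =
          (((g'⁻¹ : Aˣ) : A) - 1) * (((g⁻¹ : Aˣ) : A) - 1) + (((g'⁻¹ : Aˣ) : A) - 1)
            + (((g⁻¹ : Aˣ) : A) - 1) := by
        simp [mul_inv_rev, sub_mul, mul_sub]
      rw [this]
      exact add_mem (add_mem (hI (Submodule.mul_mem_mul hg'.2 hg.2)) hg'.2) hg.2

lemma IsUnipGroup.of_le_span {I : Submodule k A} {n : ℕ} (hn : 0 < n) (hIn : I ^ n = ⊥)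
    (h : augSpan k H ≤ I) : IsUnipGroup k H :=
  ⟨n, hn, le_bot_iff.mp (hIn ▸ pow_le_pow_left' h n)⟩

lemma IsUnipGroup.mono (hK : IsUnipGroup k K) (h : H ≤ K) : IsUnipGroup k H := by
  obtain ⟨n, hn, hn'⟩ := hK
  exact .of_le_span hn hn' (augSpan_mono h)

lemma isUnipGroup_bot : IsUnipGroup k (⊥ : Subgroup Aˣ) :=
  ⟨1, one_pos, by simp [augSpan]⟩

/-- The subgroup of elements of `H` congruent to one modulo the `i`-th power. -/
def augLevel (k : Type*) [Field k] [Algebra k A] (H : Subgroup Aˣ) (i : ℕ) : Subgroup Aˣ where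
  carrier := {g | g ∈ H ∧ (g : A) - 1 ∈ augSpan k H ^ (i + 1)}
  one_mem' := ⟨H.one_mem, by simp⟩
  mul_mem' := by
    rintro g h ⟨hg, hg'⟩ ⟨hh, hh'⟩
    refine ⟨H.mul_mem hg hh, ?_⟩
    have : ((g * h : Aˣ) : A) - 1 = ((g : A) - 1) * ((h : A) - 1) + ((g : A) - 1) + ((h : A) - 1) := by
      simp [sub_mul, mul_sub]
    rw [this]
    refine add_mem (add_mem (augSpan_pow_succ_le i.succ_pos ?_) hg') hh'
    rw [pow_succ]
    exact Submodule.mul_mem_mul hg' (sub_one_mem_augSpan hh)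
  inv_mem' := by
    rintro g ⟨hg, hg'⟩
    refine ⟨H.inv_mem hg, ?_⟩
    have : ((g⁻¹ : Aˣ) : A) - 1 = -((((g⁻¹ : Aˣ) : A) - 1) * ((g : A) - 1)) - ((g : A) - 1) := by
      simp [sub_mul, mul_sub]; abel
    rw [this]
    refine sub_mem (neg_mem (augSpan_pow_succ_le i.succ_pos ?_)) hg'
    rw [pow_succ']
    exact Submodule.mul_mem_mul (sub_one_mem_augSpan (H.inv_mem hg)) hg'

lemma IsUnipGroup.isNilpotent (hH : IsUnipGroup k H) : Group.IsNilpotent H := by
  obtain ⟨n, hn, hn'⟩ := hH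
  rw [Subgroup.isNilpotent_iff_lowerCentralSeries]
  refine ⟨n, ?_⟩
  have key : ∀ i, H.lowerCentralSeries i ≤ augLevel k H i := by
    intro i
    induction i with
    | zero =>
      intro g hg
      exact ⟨hg, by simpa using sub_one_mem_augSpan hg⟩
    | succ i ih =>
      rw [Subgroup.lowerCentralSeries_succ, Subgroup.commutator_le]
      intro g hg h hh
      obtain ⟨hg, hg'⟩ := ih hg
      refine ⟨H.mul_mem (H.mul_mem (H.mul_mem hg hh) (H.inv_mem hg)) (H.inv_mem hh), ?_⟩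
      have hx : ((g : A) - 1) * ((h : A) - 1) - ((h : A) - 1) * ((g : A) - 1) ∈
          augSpan k H ^ (i + 1 + 1) := by
        refine sub_mem ?_ ?_
        · rw [pow_succ]; exact Submodule.mul_mem_mul hg' (sub_one_mem_augSpan hh)
        · rw [pow_succ']; exact Submodule.mul_mem_mul (sub_one_mem_augSpan hh) hg'
      set x := ((g : A) - 1) * ((h : A) - 1) - ((h : A) - 1) * ((g : A) - 1) with hxdef
      set w : Aˣ := g⁻¹ * h⁻¹ with hw
      have hwH : w ∈ H := H.mul_mem (H.inv_mem hg) (H.inv_mem hh)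
      have : ((⁅g, h⁆ : Aˣ) : A) - 1 = x * ((w : A) - 1) + x := by
        have e : (h : A) * g * (w : A) = 1 := by
          rw [hw, Units.val_mul]; simp [mul_assoc]
        have : x = (g : A) * h - h * g := by simp [hxdef, sub_mul, mul_sub]; abel
        rw [this, mul_sub, mul_one, sub_add_cancel, sub_mul, e]
        simp [hw, commutatorElement_def, mul_assoc]
      rw [this]
      refine add_mem (augSpan_pow_succ_le (i + 1).succ_pos ?_) hx
      rw [pow_succ _ (i + 1 + 1)]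
      exact Submodule.mul_mem_mul hx (sub_one_mem_augSpan hwH)
  refine (Subgroup.eq_bot_iff_forall _).mpr fun g hg => ?_
  obtain ⟨-, hg'⟩ := key n hg
  have : augSpan k H ^ (n + 1) = ⊥ := by rw [pow_succ, hn', Submodule.bot_mul]
  rw [this, Submodule.mem_bot, sub_eq_zero] at hg'
  exact Units.ext hg'

/-- A unipotent group normalised by a unipotent group: the product is unipotent. -/
lemma IsUnipGroup.sup (hH : IsUnipGroup k H) (hK : IsUnipGroup k K)
    (hn : H ≤ Subgroup.normalizer (K : Set Aˣ)) : IsUnipGroup k (H ⊔ K) := by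
  obtain ⟨m, hm, hm'⟩ := hH
  obtain ⟨n, hn0, hn'⟩ := hK
  set a := augSpan k H with ha
  set b := augSpan k K with hb
  set S : Submodule k A := 1 + a with hS
  have h1S : (1 : A) ∈ S := Submodule.mem_sup_left (Submodule.one_le.mp le_rfl)
  set I : Submodule k A := b * S with hI
  have hab : a * b ≤ b * S := by
    rw [ha, hb, augSpan, augSpan, Submodule.span_mul_span, Submodule.span_le]
    rintro x ⟨-, ⟨g, hg, rfl⟩, -, ⟨h, hh, rfl⟩, rfl⟩
    have hh' : g * h * g⁻¹ ∈ K := (Subgroup.mem_normalizer_iff.mp (hn hg) h).mp hh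
    have : ((g : A) - 1) * ((h : A) - 1) =
        (((g * h * g⁻¹ : Aˣ) : A) - 1) * ((g : A) - 1) + (((g * h * g⁻¹ : Aˣ) : A) - 1)
          - ((h : A) - 1) := by
      simp [sub_mul, mul_sub]; abel
    change ((g : A) - 1) * ((h : A) - 1) ∈ b * S
    rw [this]
    refine sub_mem (add_mem (Submodule.mul_mem_mul (sub_one_mem_augSpan hh') ?_) ?_) ?_
    · exact Submodule.mem_sup_right (sub_one_mem_augSpan hg)
    · simpa using Submodule.mul_mem_mul (sub_one_mem_augSpan (k := k) hh')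
        h1S
    · simpa using Submodule.mul_mem_mul (sub_one_mem_augSpan (k := k) hh)
        h1S
  have hSS : S * S ≤ S := by
    rw [hS]
    simp only [add_mul, mul_add, one_mul, mul_one]
    refine sup_le le_rfl (sup_le ?_ ?_)
    · exact le_sup_right
    · exact augSpan_mul_le.trans le_sup_right
  have hbI : b ≤ I := by
    intro x hx
    simpa using Submodule.mul_mem_mul hx
      h1S
  have hSb : S * b ≤ b * S := by
    rw [hS, add_mul, one_mul]
    exact sup_le hbI hab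
  have hpow : ∀ i, S * b ^ i ≤ b ^ i * S := by
    intro i
    induction i with
    | zero => simp
    | succ i ih =>
      calc S * b ^ (i + 1) = (S * b ^ i) * b := by rw [pow_succ, mul_assoc]
        _ ≤ b ^ i * S * b := mul_le_mul' ih le_rfl
        _ = b ^ i * (S * b) := mul_assoc _ _ _
        _ ≤ b ^ i * (b * S) := mul_le_mul' le_rfl hSb
        _ = _ := by rw [pow_succ, mul_assoc]
  have hIpow : ∀ i, I ^ (i + 1) ≤ b ^ (i + 1) * S := by
    intro i
    induction i with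
    | zero => simp [hI]
    | succ i ih =>
      calc I ^ (i + 1 + 1) = I ^ (i + 1) * I := pow_succ _ _
        _ ≤ b ^ (i + 1) * S * (b * S) := mul_le_mul' ih le_rfl
        _ = b ^ (i + 1) * (S * b) * S := by simp only [mul_assoc]
        _ ≤ b ^ (i + 1) * (b * S) * S := mul_le_mul' (mul_le_mul' le_rfl hSb) le_rfl
        _ = b ^ (i + 1 + 1) * (S * S) := by rw [pow_succ _ (i + 1)]; simp only [mul_assoc]
        _ ≤ _ := mul_le_mul' le_rfl hSS
  have hIn : I ^ n = ⊥ := by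
    obtain ⟨i, rfl⟩ : ∃ i, n = i + 1 := ⟨n - 1, by omega⟩
    exact le_bot_iff.mp ((hIpow i).trans (by rw [hn', Submodule.bot_mul]))
  have hII : I * I ≤ I := by
    calc b * S * (b * S) = b * (S * b) * S := by simp only [mul_assoc]
      _ ≤ b * (b * S) * S := mul_le_mul' (mul_le_mul' le_rfl hSb) le_rfl
      _ = b * b * (S * S) := by simp only [mul_assoc]
      _ ≤ b * S := mul_le_mul' augSpan_mul_le hSS
  have haI : a * I ≤ I := by
    calc a * (b * S) ≤ S * b * S := by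
          rw [← mul_assoc]; exact mul_le_mul' (mul_le_mul' le_sup_right le_rfl) le_rfl
      _ ≤ b * S * S := mul_le_mul' hSb le_rfl
      _ = b * (S * S) := mul_assoc _ _ _
      _ ≤ b * S := mul_le_mul' le_rfl hSS
  have hIa : I * a ≤ I := by
    calc b * S * a ≤ b * (S * S) := by
          rw [mul_assoc]; exact mul_le_mul' le_rfl (mul_le_mul' le_rfl le_sup_right)
      _ ≤ b * S := mul_le_mul' le_rfl hSS
  have hTT : (a + I) * (a + I) ≤ a + I := by
    rw [add_mul, mul_add, mul_add]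
    exact sup_le (sup_le (augSpan_mul_le.trans le_sup_left) (haI.trans le_sup_right))
      (sup_le (hIa.trans le_sup_right) (hII.trans le_sup_right))
  have hT : augSpan k (H ⊔ K) ≤ a + I := by
    rw [Subgroup.sup_eq_closure]
    refine augSpan_closure_le hTT ?_
    rintro g (hg | hg)
    · exact ⟨Submodule.mem_sup_left (sub_one_mem_augSpan hg),
        Submodule.mem_sup_left (sub_one_mem_augSpan (H.inv_mem hg))⟩
    · exact ⟨Submodule.mem_sup_right (hbI (sub_one_mem_augSpan hg)),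
        Submodule.mem_sup_right (hbI (sub_one_mem_augSpan (K.inv_mem hg)))⟩
  have hTpow : ∀ i, (a + I) ^ (i + 1) ≤ a ^ (i + 1) + I := by
    intro i
    induction i with
    | zero => simp
    | succ i ih =>
      calc (a + I) ^ (i + 1 + 1) ≤ (a ^ (i + 1) + I) * (a + I) := by
            rw [pow_succ]; exact mul_le_mul' ih le_rfl
        _ ≤ _ := by
          rw [add_mul, mul_add, mul_add, ← pow_succ]
          refine sup_le (sup_le le_sup_left ?_) (sup_le (hIa.trans le_sup_right) (hII.trans le_sup_right))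
          refine le_trans ?_ le_sup_right
          calc a ^ (i + 1) * I ≤ a * I := mul_le_mul' ?_ le_rfl
            _ ≤ I := haI
          clear hTT hT ih
          induction i with
          | zero => simp
          | succ i ih => exact (augSpan_pow_succ_le i.succ_pos).trans ih
  have hmI : (a + I) ^ m ≤ I := by
    obtain ⟨i, rfl⟩ : ∃ i, m = i + 1 := ⟨m - 1, by omega⟩
    exact (hTpow i).trans (by rw [hm']; exact sup_le bot_le le_rfl)
  refine ⟨m * n, Nat.mul_pos hm hn0, le_bot_iff.mp ?_⟩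
  calc augSpan k (H ⊔ K) ^ (m * n) ≤ ((a + I) ^ m) ^ n := by
        rw [← pow_mul]; exact pow_le_pow_left' hT _
    _ ≤ I ^ n := pow_le_pow_left' hmI _
    _ = ⊥ := hIn

lemma conjUnits_val (g x : Aˣ) :
    ((g * x * g⁻¹ : Aˣ) : A) - 1 = (g : A) * ((x : A) - 1) * (g⁻¹ : Aˣ) := by
  simp [mul_sub, sub_mul]

lemma map_conj_le_unipClosure {J : Submodule k A} (hJ : J * J ≤ J) {B : Subgroup Aˣ} {g : Aˣ}
    (hB : augSpan k B ≤ J) (hg : (g : A) - 1 ∈ J) (hg' : ((g⁻¹ : Aˣ) : A) - 1 ∈ J) :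
    augSpan k (B.map (MulAut.conj g).toMonoidHom) ≤ J := by
  rw [augSpan, Submodule.span_le]
  rintro - ⟨-, ⟨x, hx, rfl⟩, rfl⟩
  have hy := hB (sub_one_mem_augSpan hx)
  have e : ∀ y z w : A, (1 + z) * y * (1 + w) = y + z * y + y * w + z * y * w := by
    intro y z w; simp [add_mul, mul_add]; abel
  have h1 : (g : A) = 1 + ((g : A) - 1) := by abel
  have h2 : ((g⁻¹ : Aˣ) : A) = 1 + (((g⁻¹ : Aˣ) : A) - 1) := by abel
  simp only [MulEquiv.coe_toMonoidHom, MulAut.conj_apply, conjUnits_val, SetLike.mem_coe]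
  rw [h1, h2, e]
  have hzy := hJ (Submodule.mul_mem_mul hg hy)
  exact add_mem (add_mem (add_mem hy hzy) (hJ (Submodule.mul_mem_mul hy hg')))
    (hJ (Submodule.mul_mem_mul hzy hg'))

/-- Kolchin–Baer: a conjugation-invariant family of subgroups with pairwise unipotent joins
generates a unipotent group. -/
theorem isUnipGroup_iSup_of_pairwise [FiniteDimensional k A] (W : Set (Subgroup Aˣ))
    (hconj : ∀ B ∈ W, ∀ C ∈ W, ∀ g ∈ C, B.map (MulAut.conj g).toMonoidHom ∈ W)
    (hpair : ∀ B ∈ W, ∀ C ∈ W, IsUnipGroup k (B ⊔ C)) : IsUnipGroup k (⨆ B ∈ W, B) := by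
  classical
  let sup' : Set (Subgroup Aˣ) → Subgroup Aˣ := fun U => ⨆ B ∈ U, B
  let J : Set (Subgroup Aˣ) → Submodule k A := fun U => augSpan k (sup' U)
  have le_sup' : ∀ {U : Set (Subgroup Aˣ)} {B}, B ∈ U → B ≤ sup' U := fun hB =>
    le_iSup₂ (f := fun B _ => B) _ hB
  have hJmono : ∀ {U V : Set (Subgroup Aˣ)}, U ⊆ V → J U ≤ J V := fun h =>
    augSpan_mono (biSup_mono h)
  have hmemJ : ∀ {U : Set (Subgroup Aˣ)} {B}, B ∈ U → augSpan k B ≤ J U := fun hB =>
    augSpan_mono (le_sup' hB)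
  let sat : Set (Subgroup Aˣ) → Set (Subgroup Aˣ) := fun U => {B | B ∈ W ∧ augSpan k B ≤ J U}
  have hsub : ∀ {U}, U ⊆ W → U ⊆ sat U := fun hU B hB => ⟨hU hB, hmemJ hB⟩
  have hJsat : ∀ U, J (sat U) ≤ J U := by
    intro U
    have : sup' (sat U) = Subgroup.closure (⋃ B ∈ sat U, (B : Set Aˣ)) := by
      simp only [sup', Subgroup.closure_iUnion, Subgroup.closure_eq]
    rw [show J (sat U) = augSpan k (sup' (sat U)) from rfl, this]
    refine augSpan_closure_le augSpan_mul_le fun g hg => ?_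
    simp only [Set.mem_iUnion] at hg
    obtain ⟨B, hB, hgB⟩ := hg
    exact ⟨hB.2 (sub_one_mem_augSpan hgB), hB.2 (sub_one_mem_augSpan (inv_mem hgB))⟩
  let Unip : Set (Set (Subgroup Aˣ)) := {U | U ⊆ W ∧ IsUnipGroup k (sup' U)}
  have hsatUnip : ∀ U ∈ Unip, sat U ∈ Unip := by
    rintro U ⟨-, n, hn, hn'⟩
    exact ⟨fun B hB => hB.1, IsUnipGroup.of_le_span hn hn' (hJsat U)⟩
  let dimJ : Set (Subgroup Aˣ) → ℕ := fun U => Module.finrank k (J U)
  have hbound : ∀ U, dimJ U ≤ Module.finrank k A := fun U => Submodule.finrank_le _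
  have hmax : ∀ S : Set (Set (Subgroup Aˣ)), S.Nonempty → ∃ U ∈ S, ∀ V ∈ S, dimJ V ≤ dimJ U := by
    intro S hS
    obtain ⟨m, ⟨U, hU, rfl⟩, hm⟩ := Set.Finite.exists_maximal
      ((Set.finite_Iic (Module.finrank k A)).subset (by rintro - ⟨U, -, rfl⟩; exact hbound U))
      (hS.image dimJ)
    exact ⟨U, hU, fun V hV => (le_total (dimJ V) (dimJ U)).elim id (hm ⟨V, hV, rfl⟩)⟩
  let Max : Set (Set (Subgroup Aˣ)) :=
    {U | U ∈ Unip ∧ sat U ⊆ U ∧ ∀ V ∈ Unip, U ⊆ V → V ⊆ U}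
  have hExt : ∀ U ∈ Unip, ∃ V ∈ Max, U ⊆ V := by
    intro U hU
    obtain ⟨V, ⟨hV, hUV⟩, hVmax⟩ := hmax {V | V ∈ Unip ∧ U ⊆ V} ⟨U, hU, subset_rfl⟩
    refine ⟨sat V, ⟨hsatUnip V hV, fun B hB => ⟨hB.1, hB.2.trans (hJsat V)⟩, ?_⟩,
      hUV.trans (hsub hV.1)⟩
    intro T hT hVT B hB
    have hVT' : V ⊆ T := (hsub hV.1).trans hVT
    have : J T = J V := (Submodule.eq_of_le_of_finrank_le (hJmono hVT') (hVmax T ⟨hT, hUV.trans hVT'⟩)).symm
    exact ⟨hT.1 hB, this ▸ hmemJ hB⟩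
  rcases W.eq_empty_or_nonempty with hW | ⟨B₀, hB₀⟩
  · subst hW; simpa using isUnipGroup_bot
  obtain ⟨U₀, hU₀, hBU₀⟩ := hExt {B₀} ⟨by simpa using hB₀, by
    simpa [sup'] using hpair B₀ hB₀ B₀ hB₀⟩
  by_cases hall : W ⊆ U₀
  · exact hU₀.1.2.mono (biSup_mono hall)
  exfalso
  obtain ⟨B₁, hB₁, hB₁'⟩ := Set.not_subset.mp hall
  obtain ⟨U₁, hU₁, hBU₁⟩ := hExt {B₁} ⟨by simpa using hB₁, by
    simpa [sup'] using hpair B₁ hB₁ B₁ hB₁⟩
  let P : Set (Set (Subgroup Aˣ)) := {D | ∃ U ∈ Max, ∃ V ∈ Max, U ≠ V ∧ D = U ∩ V}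
  obtain ⟨D, ⟨U, hU, V, hV, hne, rfl⟩, hDmax⟩ :=
    hmax P ⟨_, U₀, hU₀, U₁, hU₁, fun h => hB₁' (h ▸ hBU₁ rfl), rfl⟩
  have hDsat : sat (U ∩ V) ⊆ U ∩ V := fun B hB =>
    ⟨hU.2.1 ⟨hB.1, hB.2.trans (hJmono Set.inter_subset_left)⟩,
      hV.2.1 ⟨hB.1, hB.2.trans (hJmono Set.inter_subset_right)⟩⟩
  have step : ∀ T ∈ Max, U ∩ V ⊆ T → ¬ T ⊆ U ∩ V →
      ∃ B ∈ T, B ∉ U ∩ V ∧ B ≤ Subgroup.normalizer (sup' (U ∩ V) : Set Aˣ) := by
    intro T hT hDT hTD
    by_contra hcon
    push Not at hcon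
    have hnorm : ∀ B ∈ T, B ≤ Subgroup.normalizer (sup' (U ∩ V) : Set Aˣ) → B ∈ U ∩ V :=
      fun B hB h => by_contra fun hB' => hcon B hB hB' h
    set H := sup' (U ∩ V) with hH
    set N := (Subgroup.normalizer (H : Set Aˣ)) ⊓ sup' T with hN
    have hHT : H ≤ sup' T := biSup_mono hDT
    have := hT.1.2.isNilpotent
    have hNC := Group.normalizerCondition_of_isNilpotent (G := ↥(sup' T))
    rw [normalizerCondition_iff_only_full_group_self_normalizing] at hNC
    have key : ∀ x ∈ sup' T, ∀ C ∈ W, C.map (MulAut.conj x).toMonoidHom ∈ W ∧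
        C.map (MulAut.conj x⁻¹).toMonoidHom ∈ W := by
      intro x hx
      rw [show sup' T = Subgroup.closure (⋃ B ∈ T, (B : Set Aˣ)) by
        simp only [sup', Subgroup.closure_iUnion, Subgroup.closure_eq]] at hx
      induction hx using Subgroup.closure_induction with
      | mem x hx =>
        simp only [Set.mem_iUnion] at hx
        obtain ⟨B', hB', hxB⟩ := hx
        exact fun C hC => ⟨hconj C hC B' (hT.1.1 hB') x hxB,
          hconj C hC B' (hT.1.1 hB') _ (inv_mem hxB)⟩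
      | one =>
          intro C hC
          have e : (MulAut.conj (1 : Aˣ)).toMonoidHom = MonoidHom.id _ := by ext; simp
          simp only [inv_one, e, Subgroup.map_id]
          exact ⟨hC, hC⟩
      | inv x _ hx => intro C hC; exact ⟨(hx C hC).2, by simpa using (hx C hC).1⟩
      | mul x y _ _ hx hy =>
        intro C hC
        constructor
        · have := (hx _ (hy C hC).1).1
          rwa [Subgroup.map_map, show ((MulAut.conj x).toMonoidHom.comp (MulAut.conj y).toMonoidHom)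
            = (MulAut.conj (x * y)).toMonoidHom by ext; simp [mul_assoc]] at this
        · have := (hy _ (hx C hC).2).2
          rwa [Subgroup.map_map, show ((MulAut.conj y⁻¹).toMonoidHom.comp (MulAut.conj x⁻¹).toMonoidHom)
            = (MulAut.conj (x * y)⁻¹).toMonoidHom by ext; simp [mul_assoc]] at this
    have hle : ∀ g : sup' T, g ∈ Subgroup.normalizer (N.subgroupOf (sup' T) : Set (sup' T)) →
        H.map (MulAut.conj (g : Aˣ)).toMonoidHom ≤ H := by
      intro g hg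
      simp only [hH, sup', Subgroup.map_iSup, iSup_le_iff]
      intro B hB
      have hBT : B.map (MulAut.conj (g : Aˣ)).toMonoidHom ∈ T :=
        hT.2.1 ⟨(key g g.2 B (hU.1.1 hB.1)).1, map_conj_le_unipClosure augSpan_mul_le (hmemJ (hDT hB))
          (sub_one_mem_augSpan g.2) (sub_one_mem_augSpan (inv_mem g.2))⟩
      refine le_sup' (U := U ∩ V) (hnorm _ hBT ?_)
      rintro - ⟨x, hx, rfl⟩
      have hxN : (⟨x, hHT (le_sup' hB hx)⟩ : sup' T) ∈ N.subgroupOf (sup' T) :=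
        ⟨Subgroup.le_normalizer (le_sup' hB hx), hHT (le_sup' hB hx)⟩
      exact ((Subgroup.mem_normalizer_iff.mp hg _).mp hxN).1
    have hNtop : N.subgroupOf (sup' T) = ⊤ := by
      apply hNC
      refine le_antisymm (fun g hg => ?_) Subgroup.le_normalizer
      refine ⟨?_, g.2⟩
      show (g : Aˣ) ∈ Subgroup.normalizer (H : Set Aˣ)
      refine Subgroup.mem_normalizer_iff.mpr fun y =>
        ⟨fun hy => hle g hg ⟨y, hy, rfl⟩, fun hy => ?_⟩
      have := hle g⁻¹ (inv_mem hg) ⟨_, hy, rfl⟩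
      simpa [mul_assoc] using this
    refine hTD fun B hB => hnorm B hB fun x hx => ?_
    have : (⟨x, le_sup' hB hx⟩ : sup' T) ∈ N.subgroupOf (sup' T) := hNtop ▸ trivial
    exact this.1
  have hUV : ¬ U ⊆ V := fun h => hne (Set.Subset.antisymm h (hU.2.2 V hV.1 h))
  have hVU : ¬ V ⊆ U := fun h => hne (Set.Subset.antisymm (hV.2.2 U hU.1 h) h)
  obtain ⟨A', hA', hA'D, hA'n⟩ :=
    step U hU Set.inter_subset_left fun h => hUV (h.trans Set.inter_subset_right)
  obtain ⟨B', hB', hB'D, hB'n⟩ :=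
    step V hV Set.inter_subset_right fun h => hVU (h.trans Set.inter_subset_left)
  let S : Set (Subgroup Aˣ) := insert A' (insert B' (U ∩ V))
  have hS : S ∈ Unip := by
    refine ⟨Set.insert_subset (hU.1.1 hA') (Set.insert_subset (hV.1.1 hB') fun B hB => hU.1.1 hB.1), ?_⟩
    have hu := (hpair A' (hU.1.1 hA') B' (hV.1.1 hB')).sup
      (hU.1.2.mono (biSup_mono Set.inter_subset_left) : IsUnipGroup k (sup' (U ∩ V)))
      (sup_le hA'n hB'n)
    show IsUnipGroup k (⨆ B ∈ insert A' (insert B' (U ∩ V)), B)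
    rw [iSup_insert, iSup_insert, ← sup_assoc]
    exact hu
  obtain ⟨Wm, hWm, hSW⟩ := hExt S hS
  have hWU : ∀ T ∈ Max, U ∩ V ⊆ T → (∃ B ∈ T ∩ Wm, B ∉ U ∩ V) → Wm = T := by
    rintro T hT hDT ⟨B, hB, hBD⟩
    by_contra hne'
    have hsub' : U ∩ V ⊆ T ∩ Wm := fun C hC =>
      ⟨hDT hC, hSW (Set.mem_insert_of_mem _ (Set.mem_insert_of_mem _ hC))⟩
    have hd := hDmax _ ⟨T, hT, Wm, hWm, fun h => hne' h.symm, rfl⟩
    have hJeq : J (U ∩ V) = J (T ∩ Wm) :=
      Submodule.eq_of_le_of_finrank_le (hJmono hsub') hd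
    exact hBD (hDsat ⟨hT.1.1 hB.1, hJeq ▸ hmemJ hB⟩)
  have h1 := hWU U hU Set.inter_subset_left ⟨A', ⟨hA', hSW (Set.mem_insert _ _)⟩, hA'D⟩
  have h2 := hWU V hV Set.inter_subset_right
    ⟨B', ⟨hB', hSW (Set.mem_insert_of_mem _ (Set.mem_insert _ _))⟩, hB'D⟩
  exact hne (h1.symm.trans h2)

end CfsgLib.Transpositions
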