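import Cfsg.Prelude.Def_RootSubgroups
import Cfsg.Agent.Lib.Transpositions.Unipotent
import Cfsg.Agent.Lib.Transpositions.Lines

/-!
Bridge between the definitions of quadratic pairs and the algebraic language of lines.
-/
set_option autoImplicit false

open scoped Pointwise
open Cfsg

namespace CfsgLib.Transpositions

variable {k : Type*} [Field k] {M : Type*} [AddCommGroup M] [Module k M]

lemma isUnipotentOn_iff (H : Subgroup (LinearMap.GeneralLinearGroup k M)) :
    Cfsg.IsUnipotentOn H ↔ IsUnipGroup k H := by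
  set S : Set (Module.End k M) := {x | ∃ g ∈ H, x = (g : Module.End k M) - 1} with hS
  have hspan : augSpan k H = Submodule.span k S := rfl
  constructor
  · rintro ⟨n, hn⟩
    refine ⟨n + 1, n.succ_pos, ?_⟩
    rw [hspan, Submodule.span_pow, Submodule.span_eq_bot]
    intro x hx
    obtain ⟨y, hy, z, -, rfl⟩ := (pow_succ S n).symm ▸ hx
    obtain ⟨f, rfl⟩ := Set.mem_pow.mp hy
    choose g hg hgf using fun i => (f i).2
    have := hn (List.ofFn g) (fun x hx => by
      obtain ⟨i, rfl⟩ := List.mem_ofFn.mp hx; exact hg i) (List.length_ofFn ..)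
    simp only [bind_pure_comp, List.map_eq_map, List.map_ofFn] at this
    have he : (fun i => ((f i : Module.End k M))) =
        (fun x : Module.End k M => x - 1) ∘ (fun g : LinearMap.GeneralLinearGroup k M => (g : Module.End k M)) ∘ g :=
      funext hgf
    simp only [he]
    show _ * z = 0
    erw [this, zero_mul]
  · rintro ⟨n, -, hn⟩
    refine ⟨n, fun l hl hlen => ?_⟩
    subst hlen
    rw [← Submodule.mem_bot k, ← hn]
    clear hn
    induction l with
    | nil => simp only [bind_pure_comp, List.map_eq_map, List.map_nil, List.prod_nil,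
        List.length_nil, pow_zero]; exact Submodule.one_le.mp le_rfl
    | cons a l ih =>
      simp only [bind_pure_comp, List.map_eq_map] at ih ⊢
      rw [List.map_cons, List.map_cons, List.prod_cons, List.length_cons, pow_succ']
      exact Submodule.mul_mem_mul (sub_one_mem_augSpan (hl a List.mem_cons_self))
        (ih fun g hg => hl g (List.mem_cons_of_mem _ hg))

lemma mem_quadraticElements_iff {G : Subgroup (LinearMap.GeneralLinearGroup k M)}
    {σ : LinearMap.GeneralLinearGroup k M} :
    σ ∈ Cfsg.quadraticElements G ↔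
      IsLine k G ((σ : Module.End k M) - 1) ∧ (σ : Module.End k M) - 1 ≠ 0 := by
  constructor
  · rintro ⟨-, ⟨hsq, hne⟩, hfam⟩
    refine ⟨⟨hsq, fun c => ?_⟩, hne⟩
    refine ⟨sqUnit (c • ((σ : Module.End k M) - 1)) (smul_sq hsq c c), hfam ⟨c, rfl⟩, rfl⟩
  · rintro ⟨hl, hne⟩
    obtain ⟨g, hg, hgx⟩ := hl.exists_one
    have : g = σ := Units.ext (by simpa using hgx)
    refine ⟨this ▸ hg, ⟨hl.1, hne⟩, ?_⟩
    rintro τ ⟨c, hc⟩
    obtain ⟨h, hh, hhx⟩ := hl.2 c
    have : h = τ := Units.ext (by rw [hhx]; exact hc.symm)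
    exact this ▸ hh

end CfsgLib.Transpositions
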