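import Cfsg.Agent.Lib.Transpositions.RootGroup
import Cfsg.Agent.Lib.Transpositions.QuadPrelude

/-!
Quadratic pairs in the language of minimal lines and class groups.
-/
set_option autoImplicit false

open Cfsg
open scoped Pointwise

namespace CfsgLib.Transpositions

variable {k : Type*} [Field k] {M : Type*} [AddCommGroup M] [Module k M]
variable {G : Subgroup (LinearMap.GeneralLinearGroup k M)} {σ : LinearMap.GeneralLinearGroup k M}

lemma two_ne_zero_of_ringChar (h : ringChar k ≠ 2) : (2 : k) ≠ 0 := Ring.two_ne_zero h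

lemma mem_minimalQuadraticElements_iff :
    σ ∈ Cfsg.minimalQuadraticElements G ↔ IsMinLine G ((σ : Module.End k M) - 1) := by
  constructor
  · rintro ⟨hσ, hmin⟩
    obtain ⟨hl, hne⟩ := mem_quadraticElements_iff.mp hσ
    refine ⟨hl, hne, fun y hy hy0 => ?_⟩
    obtain ⟨g, -, hgy⟩ := hy.exists_one
    have hgy' : (g : Module.End k M) - 1 = y := by rw [hgy, add_sub_cancel_left]
    have := hmin g (mem_quadraticElements_iff.mpr ⟨hgy'.symm ▸ hy, hgy'.symm ▸ hy0⟩)
    rw [← hgy']
    exact this
  · rintro ⟨hl, hne, hmin⟩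
    refine ⟨mem_quadraticElements_iff.mpr ⟨hl, hne⟩, fun τ hτ => ?_⟩
    obtain ⟨hl', hne'⟩ := mem_quadraticElements_iff.mp hτ
    exact hmin _ hl' hne'

/-- The minimal line of a member of `𝒬_d`. -/
lemma minLine_of_mem (hσ : σ ∈ Cfsg.minimalQuadraticElements G) :
    IsMinLine G ((σ : Module.End k M) - 1) :=
  mem_minimalQuadraticElements_iff.mp hσ

/-- Irreducibility forbids normal unipotent subgroups. -/
theorem noUnip_of_irreducible (hirr : Cfsg.IsIrreducibleFor G) : NoUnip G := by
  intro U hUG hU hn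
  obtain ⟨n, hn0, hn'⟩ := hU
  let W : Submodule k M := Cfsg.fixedSubmodule U
  have hmemW : ∀ m, m ∈ W ↔ ∀ g ∈ U, (g : Module.End k M) m = m := fun m => by
    simp [W, Cfsg.fixedSubmodule, LinearMap.mem_ker, sub_eq_zero]
  have hinv : ∀ g ∈ G, ∀ w ∈ W, (g : Module.End k M) w ∈ W := by
    intro g hg w hw
    rw [hmemW] at hw ⊢
    intro u hu
    have hu' : g⁻¹ * u * g ∈ U := by
      have := (Subgroup.mem_normalizer_iff.mp (inv_mem (hn hg)) u).mp hu
      simpa using this
    calc (u : Module.End k M) ((g : Module.End k M) w)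
        = ((g * (g⁻¹ * u * g) : (Module.End k M)ˣ) : Module.End k M) w := by simp [mul_assoc]
      _ = (g : Module.End k M) w := by rw [Units.val_mul, Module.End.mul_apply, hw _ hu']
  rcases hirr.2 W hinv with hbot | htop
  · exfalso
    obtain ⟨m, hm⟩ := hirr.1
    have key : ∀ i, augSpan k U ^ i = ⊥ → ∀ m ≠ (0 : M), ∃ w ∈ W, w ≠ 0 := by
      intro i
      induction i with
      | zero =>
        intro h m hm
        rw [pow_zero] at h
        have : (1 : Module.End k M) ∈ (⊥ : Submodule k (Module.End k M)) := h ▸ Submodule.one_le.mp le_rfl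
        exact absurd (LinearMap.congr_fun ((Submodule.mem_bot k).mp this) m) hm
      | succ i ih =>
        intro h m hm
        by_cases h0 : ∀ x ∈ augSpan k U ^ i, x m = 0
        · rcases Nat.eq_zero_or_pos i with rfl | hi
          · exact absurd (h0 1 (by rw [pow_zero]; exact Submodule.one_le.mp le_rfl)) hm
          by_cases hW : m ∈ W
          · exact ⟨m, hW, hm⟩
          · rw [hmemW] at hW
            push Not at hW
            obtain ⟨g, hg, hgm⟩ := hW
            by_cases hall : augSpan k U ^ i = ⊥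
            · exact ih hall m hm
            obtain ⟨x, hx, hx0⟩ := Submodule.exists_mem_ne_zero_of_ne_bot hall
            obtain ⟨m', hm'⟩ : ∃ m', x m' ≠ 0 := by
              by_contra hc; push Not at hc; exact hx0 (LinearMap.ext hc)
            refine ⟨x m', (hmemW _).mpr fun g hg => ?_, hm'⟩
            have hgx : ((g : Module.End k M) - 1) * x ∈ augSpan k U ^ (i + 1) := by
              rw [pow_succ']; exact Submodule.mul_mem_mul (sub_one_mem_augSpan hg) hx
            rw [h, Submodule.mem_bot, sub_mul, one_mul, sub_eq_zero] at hgx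
            exact LinearMap.congr_fun hgx m'
        · push Not at h0
          obtain ⟨x, hx, hxm⟩ := h0
          refine ⟨x m, (hmemW _).mpr fun g hg => ?_, hxm⟩
          have hgx : ((g : Module.End k M) - 1) * x ∈ augSpan k U ^ (i + 1) := by
            rw [pow_succ']; exact Submodule.mul_mem_mul (sub_one_mem_augSpan hg) hx
          rw [h, Submodule.mem_bot, sub_mul, one_mul, sub_eq_zero] at hgx
          exact LinearMap.congr_fun hgx m
    obtain ⟨w, hw, hw0⟩ := key n hn' m hm
    rw [hbot, Submodule.mem_bot] at hw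
    exact hw0 hw
  · refine (Subgroup.eq_bot_iff_forall _).mpr fun g hg => Units.ext (LinearMap.ext fun m => ?_)
    exact (hmemW m).mp (htop ▸ Submodule.mem_top) g hg

variable [FiniteDimensional k M]

lemma sameActionClass_eq (ha : IsMinLine G ((σ : Module.End k M) - 1)) :
    Cfsg.sameActionClass G σ = {g | g ∈ classGroup ha ∧ g ≠ 1} := by
  ext g
  constructor
  · rintro ⟨hg, hk, hr⟩
    have hmin := minLine_of_mem hg
    exact ⟨Or.inr ⟨hmin, hr, hk⟩, fun h => hmin.2.1 (by simp [h])⟩
  · rintro ⟨hg, hg1⟩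
    rcases hg with h0 | ⟨hmin, hr, hk⟩
    · exact absurd (Units.ext (sub_eq_zero.mp h0)) hg1
    · exact ⟨mem_minimalQuadraticElements_iff.mpr hmin, hk, hr⟩

lemma sameActionSubgroup_eq (ha : IsMinLine G ((σ : Module.End k M) - 1)) :
    Cfsg.sameActionSubgroup G σ = classGroup ha := by
  rw [Cfsg.sameActionSubgroup, sameActionClass_eq ha]
  refine le_antisymm ((Subgroup.closure_le _).mpr fun g hg => hg.1) fun g hg => ?_
  rcases eq_or_ne g 1 with rfl | hg1
  exacts [one_mem _, Subgroup.subset_closure ⟨hg, hg1⟩]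

lemma mem_quadraticRootSubgroups_iff {A : Subgroup (LinearMap.GeneralLinearGroup k M)} :
    A ∈ Cfsg.quadraticRootSubgroups G ↔ ∃ (a : Module.End k M) (ha : IsMinLine G a), A = classGroup ha := by
  constructor
  · rintro ⟨σ, hσ, rfl⟩
    exact ⟨_, minLine_of_mem hσ, sameActionSubgroup_eq (minLine_of_mem hσ)⟩
  · rintro ⟨a, ha, rfl⟩
    obtain ⟨g, -, hg⟩ := exists_line_mem_classGroup ha
    have hga : (g : Module.End k M) - 1 = a := by rw [hg, add_sub_cancel_left]
    subst hga
    exact ⟨g, mem_minimalQuadraticElements_iff.mpr ha, (sameActionSubgroup_eq ha).symm⟩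

lemma classGroup_mem {a : Module.End k M} (ha : IsMinLine G a) :
    classGroup ha ∈ Cfsg.quadraticRootSubgroups G :=
  mem_quadraticRootSubgroups_iff.mpr ⟨a, ha, rfl⟩

lemma fixedSubmodule_classGroup {a : Module.End k M} (ha : IsMinLine G a) :
    Cfsg.fixedSubmodule (classGroup ha) = LinearMap.ker a := by
  refine le_antisymm ?_ ?_
  · obtain ⟨g, hg, e⟩ := exists_line_mem_classGroup ha
    refine (iInf₂_le g hg).trans (le_of_eq ?_)
    rw [show ((g : Module.End k M)) - 1 = a by rw [e, add_sub_cancel_left]]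
  · refine le_iInf₂ fun g hg => ?_
    rcases hg with h0 | ⟨-, h⟩
    · rw [h0]; simp
    · exact h.2.ge

lemma commutatorSubmodule_classGroup {a : Module.End k M} (ha : IsMinLine G a) :
    Cfsg.commutatorSubmodule (classGroup ha) = LinearMap.range a := by
  refine le_antisymm ?_ ?_
  · refine iSup₂_le fun g hg => ?_
    rcases hg with h0 | ⟨-, h⟩
    · rw [h0]; simp
    · exact h.1.le
  · obtain ⟨g, hg, e⟩ := exists_line_mem_classGroup ha
    refine le_trans (le_of_eq ?_) (le_iSup₂ (f := fun (g : (Module.End k M)ˣ) (_ : g ∈ classGroup ha) =>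
      LinearMap.range ((g : Module.End k M) - 1)) g hg)
    rw [show ((g : Module.End k M)) - 1 = a by rw [e, add_sub_cancel_left]]

end CfsgLib.Transpositions
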