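import Cfsg.Agent.Lib.Transpositions.LineDecomp
import Cfsg.Agent.Lib.Transpositions.QuadBridge

/-!
Connected components of the graph of opposite classes.
-/
set_option autoImplicit false

open Cfsg
open scoped commutatorElement Pointwise
open Relation (ReflTransGen)

namespace CfsgLib.Transpositions

variable {k : Type*} [Field k] {M : Type*} [AddCommGroup M] [Module k M] [FiniteDimensional k M]
variable {G : Subgroup (LinearMap.GeneralLinearGroup k M)} {a b c : Module.End k M}

open LinearMap (range ker)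

/-- Reachability in the graph of rank one pairs. -/
abbrev Reach (G : Subgroup (LinearMap.GeneralLinearGroup k M)) :
    Subgroup (LinearMap.GeneralLinearGroup k M) → Subgroup (LinearMap.GeneralLinearGroup k M) → Prop :=
  ReflTransGen (Cfsg.FAdj (Cfsg.quadraticRootSubgroups G))

lemma Reach.symm {A B : Subgroup (LinearMap.GeneralLinearGroup k M)} (h : Reach G A B) : Reach G B A :=
  by
  induction h with
  | refl => exact ReflTransGen.refl
  | tail _ h ih => exact ih.head ⟨h.2.1, h.1, Cfsg.RankOnePair_symm h.2.2⟩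

lemma Reach.mem {A B : Subgroup (LinearMap.GeneralLinearGroup k M)} (h : Reach G A B)
    (hA : A ∈ Cfsg.quadraticRootSubgroups G) : B ∈ Cfsg.quadraticRootSubgroups G := by
  induction h with
  | refl => exact hA
  | tail _ h _ => exact h.2.1

lemma IsPartner.adj (h2 : (2 : k) ≠ 0) (h3 : Nat.card k ≠ 3) (h : IsPartner G a c) :
    Cfsg.FAdj (Cfsg.quadraticRootSubgroups G) (classGroup h.1) (classGroup h.2.1) :=
  ⟨classGroup_mem _, classGroup_mem _, (h.isSpecial h2 h3).1⟩

lemma adj_of_triple (h2 : (2 : k) ≠ 0) (h3 : Nat.card k ≠ 3) (ha : IsMinLine G a) (hb : IsMinLine G b)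
    (h : a * b * a ≠ 0) : Cfsg.FAdj (Cfsg.quadraticRootSubgroups G) (classGroup ha) (classGroup hb) := by
  rcases dichotomy h2 h3 ha hb with h' | ⟨-, c, hbc, hc⟩
  · exact absurd h'.1 h
  · rw [classGroup_congr hb hc.2.1 hbc]; exact hc.adj h2 h3

/-- Rank one pairs come from opposite classes. -/
lemma triple_ne_zero_of_rankOne (h2 : (2 : k) ≠ 0) (h3 : Nat.card k ≠ 3) (ha : IsMinLine G a) (hb : IsMinLine G b)
    (h : Cfsg.IsRankOnePair (classGroup ha) (classGroup hb)) : a * b * a ≠ 0 := by
  intro ht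
  obtain ⟨e, he, ee⟩ := exists_line_mem_classGroup ha
  have he1 : e ≠ 1 := fun h1 => ha.2.1 (by simpa [h1] using ee)
  obtain ⟨f, hf, hf1, heq⟩ := h.cond_left e he he1
  obtain ⟨hy, hby⟩ := classGroup_min hf hf1
  have hee : (e : Module.End k M) = 1 + a := ee
  set y := (f : Module.End k M) - 1 with hydef
  have hff : (f : Module.End k M) = 1 + y := by rw [hydef]; abel
  have n1 := Subgroup.le_normalizer (inv_mem (classGroup_le hb hf))
  have n2 := Subgroup.le_normalizer (inv_mem (classGroup_le ha he))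
  simp only [Cfsg.conjBy] at heq
  rw [classGroup_conj ha n1, classGroup_conj hb n2] at heq
  have hs := sameAction_of_classGroup_eq _ _ heq
  rw [inv_inv, inv_inv, line_inv_val hff hy.sq, line_inv_val hee ha.sq, hff, hee] at hs
  have t1 : y * a * y = 0 := hby.triple_eq_zero (triple_symm h2 h3 ha hb ht)
  have e1 : (1 - y) * a * (1 + y) = a + (a * y - y * a) := by
    simp only [sub_mul, one_mul, mul_add, mul_one, t1]; abel
  have e2 : (1 - a) * b * (1 + a) = b + (b * a - a * b) := by
    simp only [sub_mul, one_mul, mul_add, mul_one, ht]; abel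
  rw [e1, e2] at hs
  -- both products of the shifted members vanish
  have sq1 : ((1 - y) * a * (1 + y)) * ((1 - y) * a * (1 + y)) = 0 := by
    have := (ha.conj n1).sq
    rwa [inv_inv, line_inv_val hff hy.sq, hff] at this
  rw [e1] at sq1
  have z1 : (a + (a * y - y * a)) * (b + (b * a - a * b)) = 0 := hs.mul_eq_zero_right sq1
  have z2 : (b + (b * a - a * b)) * (a + (a * y - y * a)) = 0 := hs.mul_eq_zero_left sq1
  have hab : a * b = b * a := by
    by_contra hne
    have D := bracketData ha hb ht (triple_symm h2 h3 ha hb ht) (sub_ne_zero.mpr hne)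
    have hu' := D.bracket_mem h2 h3 ha hb (self_mem_classSpace ha) (Or.inr ⟨hy, hby⟩)
    have w1 : ∀ p, p * (a * b - b * a) = 0 → p * (a * y - y * a) = 0 := fun p hp => classSpace.mul_right hu' hp
    have w2 : ∀ p, (a * b - b * a) * p = 0 → (a * y - y * a) * p = 0 := fun p hp => classSpace.mul_left hu' hp
    have hu : b * a - a * b = -(a * b - b * a) := by abel
    rw [hu] at z1 z2
    have c1 : (a * y - y * a) * (a * b - b * a) = 0 := classSpace.mul_eq_zero hu' (self_mem_classSpace D.min)
    have c2 : (a * b - b * a) * (a * y - y * a) = 0 := classSpace.mul_eq_zero (self_mem_classSpace D.min) hu'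
    rw [add_mul, mul_add, mul_add, mul_neg, mul_neg, D.a_mul, w2 b D.mul_b, c1, neg_zero, add_zero,
      add_zero, add_zero] at z1
    rw [add_mul, mul_add, mul_add, neg_mul, neg_mul, D.mul_a, w1 b D.b_mul, c2, neg_zero, add_zero,
      add_zero, add_zero] at z2
    exact hne (z1.trans z2.symm)
  have hn : conjBy (classGroup ha) f⁻¹ = classGroup ha := by
    refine Subgroup.ext fun x => ?_
    have hc := Subgroup.commutator_eq_bot_iff_le_centralizer.mp (commutator_eq_bot h2 h3 ha hb hab)
    constructor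
    · rintro ⟨g, hg, rfl⟩
      have := Subgroup.mem_centralizer_iff.mp (hc hg) _ (inv_mem hf)
      show f⁻¹ * g * f⁻¹⁻¹ ∈ _
      rwa [this, mul_inv_cancel_right]
    · intro hx
      have := Subgroup.mem_centralizer_iff.mp (hc hx) _ (inv_mem hf)
      exact ⟨x, hx, by show f⁻¹ * x * f⁻¹⁻¹ = x; rw [this, mul_inv_cancel_right]⟩
  have hn' : conjBy (classGroup hb) e⁻¹ = classGroup hb := by
    refine Subgroup.ext fun x => ?_
    have hc := Subgroup.commutator_eq_bot_iff_le_centralizer.mp (commutator_eq_bot h2 h3 ha hb hab)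
    constructor
    · rintro ⟨g, hg, rfl⟩
      have := Subgroup.mem_centralizer_iff.mp (hc (inv_mem he)) _ hg
      show e⁻¹ * g * e⁻¹⁻¹ ∈ _
      rwa [← this, mul_inv_cancel_right]
    · intro hx
      have := Subgroup.mem_centralizer_iff.mp (hc (inv_mem he)) _ hx
      exact ⟨x, hx, by show e⁻¹ * x * e⁻¹⁻¹ = x; rw [← this, mul_inv_cancel_right]⟩
  simp only [Cfsg.conjBy] at hn hn'
  have heq' := (classGroup_conj ha n1).trans (heq.trans (classGroup_conj hb n2).symm)
  exact h.ne (hn.symm.trans (heq'.trans hn'))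

lemma BracketData.bac (D : BracketData G a b) (hc : IsPartner G (a * b - b * a) c) :
    b * a * c * (a * b) = 0 ∧ a * b * c * (b * a) = 0 ∧ b * a * c * (b * a) = -(b * a) ∧ a * b * c * (a * b) = a * b := by
  have bot : ∀ {q : M}, q ∈ range (a * b) → q ∈ range (b * a) → q = 0 := fun h h' => by
    rw [D.rangeL] at h; rw [D.rangeR] at h'
    have : _ ∈ (range a ⊓ ker b) ⊓ (range b ⊓ ker a) := ⟨h, h'⟩
    rwa [D.disj, Submodule.mem_bot] at this
  have hP : ∀ {q}, q ∈ range (a * b - b * a) → (a * b - b * a) (c q) = q := by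
    rintro - ⟨n, rfl⟩; exact LinearMap.congr_fun hc.2.2.1 n
  have hLu : range (a * b) ≤ range (a * b - b * a) := by
    rw [D.range_eq, D.rangeL]; exact le_sup_left
  have h1 : ∀ m, (b * a) (c ((a * b) m)) = 0 := fun m => by
    have := hP (hLu (LinearMap.mem_range_self _ m))
    rw [LinearMap.sub_apply, sub_eq_iff_eq_add] at this
    refine bot ?_ (LinearMap.mem_range_self _ _)
    rw [show (b * a) (c ((a * b) m)) = (a * b) (c ((a * b) m)) - (a * b) m by rw [this]; abel]
    exact sub_mem (LinearMap.mem_range_self _ _) (LinearMap.mem_range_self _ _)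
  have h1' : ∀ m, (a * b) (c ((b * a) m)) = 0 := fun m => by
    have := hP (D.range_le_right (LinearMap.mem_range_self _ m))
    rw [LinearMap.sub_apply, sub_eq_iff_eq_add] at this
    refine bot (LinearMap.mem_range_self _ _) ?_
    rw [this]
    exact add_mem (LinearMap.mem_range_self _ _) (LinearMap.mem_range_self _ _)
  refine ⟨LinearMap.ext h1, LinearMap.ext h1', LinearMap.ext fun m => ?_, LinearMap.ext fun m => ?_⟩
  · have := hP (D.range_le_right (LinearMap.mem_range_self _ m))
    rw [LinearMap.sub_apply, h1', zero_sub] at this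
    show (b * a) (c ((b * a) m)) = -(b * a) m
    rw [eq_neg_iff_add_eq_zero]; rw [neg_eq_iff_eq_neg] at this; rw [this]; simp
  · have := hP (hLu (LinearMap.mem_range_self _ m))
    rw [LinearMap.sub_apply, h1, sub_zero] at this
    exact this

/-- A bracket pair lies in the component of its bracket. -/
lemma BracketData.reach_right (h2 : (2 : k) ≠ 0) (h3 : Nat.card k ≠ 3) (hN : NoUnip G) (D : BracketData G a b)
    (ha : IsMinLine G a) (hb : IsMinLine G b) : Reach G (classGroup hb) (classGroup D.min) := by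
  obtain ⟨c, hc⟩ := exists_partner h2 h3 hN D.min
  obtain ⟨g, hg, eg⟩ := ha.1.exists_one
  have eg' := line_inv_val eg ha.sq
  have aua : a * (a * b - b * a) = 0 ∧ (a * b - b * a) * a = 0 := ⟨D.a_mul, D.mul_a⟩
  have partner : ∀ (p : Module.End k M) (h : (Module.End k M)ˣ), h ∈ G → (h : Module.End k M) = 1 + p →
      ((h⁻¹ : (Module.End k M)ˣ) : Module.End k M) = 1 - p → (a * b - b * a) * p = 0 → p * (a * b - b * a) = 0 →
      IsPartner G (a * b - b * a) ((1 + p) * c * (1 - p)) := by
    intro p h hh e1 e2 up pu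
    have hm := hc.2.1.conj (Subgroup.le_normalizer hh)
    rw [e1, e2] at hm
    refine ⟨D.min, hm, ?_, ?_⟩
    · set u := a * b - b * a
      calc u * ((1 + p) * c * (1 - p)) * u = (u * (1 + p)) * c * ((1 - p) * u) := by simp only [mul_assoc]
        _ = u := by
          rw [show u * (1 + p) = u by rw [mul_add, up, mul_one, add_zero],
            show (1 - p) * u = u by rw [sub_mul 1 p u, pu, one_mul, sub_zero], hc.2.2.1]
    · set u := a * b - b * a
      calc (1 + p) * c * (1 - p) * u * ((1 + p) * c * (1 - p)) =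
          (1 + p) * (c * (((1 - p) * u) * (1 + p)) * c) * (1 - p) := by simp only [mul_assoc]
        _ = _ := by
          rw [show (1 - p) * u = u by rw [sub_mul 1 p u, pu, one_mul, sub_zero],
            show u * (1 + p) = u by rw [mul_add, up, mul_one, add_zero], hc.2.2.2]
  have p1 := partner a g hg eg eg' D.mul_a D.a_mul
  have p2 := partner (-a) g⁻¹ (inv_mem hg) (by rw [eg', sub_eq_add_neg]) (by rw [inv_inv, eg, sub_neg_eq_add])
    (by rw [mul_neg, D.mul_a, neg_zero]) (by rw [neg_mul, D.a_mul, neg_zero])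
  suffices ∃ X, IsPartner G (a * b - b * a) X ∧ b * X * b ≠ 0 by
    obtain ⟨X, hX, hbX⟩ := this
    exact (ReflTransGen.single (adj_of_triple h2 h3 hb hX.2.1 hbX)).trans
      (Reach.symm (ReflTransGen.single (hX.adj h2 h3)))
  by_contra hcon
  push Not at hcon
  have q1 := hcon _ p1
  have q2 := hcon _ p2
  obtain ⟨b1, b2, b3, b4⟩ := D.bac hc
  have e : b * ((1 + a) * c * (1 - a)) * b - b * ((1 + -a) * c * (1 - -a)) * b =
      (2 : k) • (b * a * c * b - b * c * a * b) := by
    simp only [two_smul, add_mul, mul_add, sub_mul, mul_sub, one_mul, mul_one, neg_mul, mul_neg, ← mul_assoc]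
    abel
  rw [q1, q2, sub_zero] at e
  have h0 : b * a * c * b = b * c * a * b := by
    rcases smul_eq_zero.mp e.symm with h | h
    exacts [absurd h h2, sub_eq_zero.mp h]
  have t : a * b * a = 0 := D.triple ha.sq
  have hba : b * a = 0 := by
    rw [← neg_eq_zero, ← b3]
    calc b * a * c * (b * a) = (b * a * c * b) * a := by simp only [mul_assoc]
      _ = b * c * (a * b * a) := by rw [h0]; simp only [mul_assoc]
      _ = 0 := by rw [t, mul_zero]
  have hab : a * b = 0 := by
    rw [← b4]
    calc a * b * c * (a * b) = a * (b * c * a * b) := by simp only [mul_assoc]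
      _ = a * (b * a * c * b) := by rw [h0]
      _ = 0 := by simp [hba]
  exact D.min.2.1 (by rw [hab, hba, sub_self])

lemma BracketData.reach_left (h2 : (2 : k) ≠ 0) (h3 : Nat.card k ≠ 3) (hN : NoUnip G) (D : BracketData G a b)
    (ha : IsMinLine G a) (hb : IsMinLine G b) : Reach G (classGroup ha) (classGroup D.min) := by
  have := D.symm.reach_right h2 h3 hN hb ha
  rwa [classGroup_congr D.symm.min D.min (by
    have := (D.min.smul (neg_ne_zero.mpr (one_ne_zero (α := k)))).2
    rw [neg_one_smul, neg_sub] at this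
    exact this.symm)] at this

/-- Non-commuting classes lie in one component. -/
theorem reach_of_not_comm (h2 : (2 : k) ≠ 0) (h3 : Nat.card k ≠ 3) (hN : NoUnip G) (ha : IsMinLine G a)
    (hb : IsMinLine G b) (hab : a * b ≠ b * a) : Reach G (classGroup ha) (classGroup hb) := by
  by_cases h : a * b * a = 0
  · have D := bracketData ha hb h (triple_symm h2 h3 ha hb h) (sub_ne_zero.mpr hab)
    exact (D.reach_left h2 h3 hN ha hb).trans (D.reach_right h2 h3 hN ha hb).symm
  · exact ReflTransGen.single (adj_of_triple h2 h3 ha hb h)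

theorem commutator_eq_bot_of_not_reach (h2 : (2 : k) ≠ 0) (h3 : Nat.card k ≠ 3) (hN : NoUnip G)
    {A B : Subgroup (LinearMap.GeneralLinearGroup k M)} (hA : A ∈ Cfsg.quadraticRootSubgroups G)
    (hB : B ∈ Cfsg.quadraticRootSubgroups G) (h : ¬ Reach G A B) : ⁅A, B⁆ = ⊥ := by
  obtain ⟨a, ha, rfl⟩ := mem_quadraticRootSubgroups_iff.mp hA
  obtain ⟨b, hb, rfl⟩ := mem_quadraticRootSubgroups_iff.mp hB
  exact commutator_eq_bot h2 h3 ha hb (by_contra fun hab => h (reach_of_not_comm h2 h3 hN ha hb hab))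

lemma conjBy_mem_roots {A : Subgroup (LinearMap.GeneralLinearGroup k M)} (hA : A ∈ Cfsg.quadraticRootSubgroups G)
    {g : LinearMap.GeneralLinearGroup k M} (hg : g ∈ G) : Cfsg.conjBy A g ∈ Cfsg.quadraticRootSubgroups G := by
  obtain ⟨a, ha, rfl⟩ := mem_quadraticRootSubgroups_iff.mp hA
  rw [Cfsg.conjBy, classGroup_conj ha (Subgroup.le_normalizer hg)]
  exact classGroup_mem _

lemma roots_le {A : Subgroup (LinearMap.GeneralLinearGroup k M)} (hA : A ∈ Cfsg.quadraticRootSubgroups G) :
    A ≤ G := by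
  obtain ⟨a, ha, rfl⟩ := mem_quadraticRootSubgroups_iff.mp hA
  exact classGroup_le ha

lemma FAdj.conjugate {A B : Subgroup (LinearMap.GeneralLinearGroup k M)}
    (h : Cfsg.FAdj (Cfsg.quadraticRootSubgroups G) A B) : ∃ g ∈ A ⊔ B, B = Cfsg.conjBy A g := by
  obtain ⟨a, ha, rfl⟩ := mem_quadraticRootSubgroups_iff.mp h.1
  obtain ⟨e, he, ee⟩ := exists_line_mem_classGroup ha
  obtain ⟨f, hf, -, heq⟩ := h.2.2.cond_left e he (fun h1 => ha.2.1 (by simpa [h1] using ee))
  refine ⟨e * f⁻¹, mul_mem (Subgroup.mem_sup_left he) (Subgroup.mem_sup_right (inv_mem hf)), ?_⟩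
  have := congrArg (fun S : Subgroup (LinearMap.GeneralLinearGroup k M) => S.map (MulAut.conj e).toMonoidHom) heq
  simp only [Cfsg.conjBy, Subgroup.map_map] at this ⊢
  have e1 : (MulAut.conj e).toMonoidHom.comp (MulAut.conj e⁻¹).toMonoidHom =
      MonoidHom.id (LinearMap.GeneralLinearGroup k M) := by ext x : 1; simp [mul_assoc]
  have e2 : (MulAut.conj e).toMonoidHom.comp (MulAut.conj f⁻¹).toMonoidHom =
      (MulAut.conj (e * f⁻¹)).toMonoidHom := by ext x : 1; simp [mul_assoc]
  rw [e1, e2, Subgroup.map_id] at this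
  exact this.symm

lemma Reach.conj (h2 : (2 : k) ≠ 0) (h3 : Nat.card k ≠ 3) {A B : Subgroup (LinearMap.GeneralLinearGroup k M)}
    (h : Reach G A B) {g : LinearMap.GeneralLinearGroup k M} (hgG : g ∈ G) :
    Reach G (Cfsg.conjBy A g) (Cfsg.conjBy B g) := by
  induction h with
  | refl => exact ReflTransGen.refl
  | tail _ h ih =>
    refine ih.tail ⟨conjBy_mem_roots h.1 hgG, conjBy_mem_roots h.2.1 hgG, ?_⟩
    obtain ⟨b, hb, rfl⟩ := mem_quadraticRootSubgroups_iff.mp h.1
    obtain ⟨d, hd, rfl⟩ := mem_quadraticRootSubgroups_iff.mp h.2.1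
    have hne := triple_ne_zero_of_rankOne h2 h3 hb hd h.2.2
    simp only [Cfsg.conjBy, classGroup_conj _ (Subgroup.le_normalizer hgG)]
    refine (adj_of_triple h2 h3 _ _ fun h0 => hne ?_).2.2
    rw [conj_val_mul, conj_val_mul] at h0
    simpa [mul_assoc] using congrArg
      (fun w => ((g⁻¹ : (Module.End k M)ˣ) : Module.End k M) * w * (g : Module.End k M)) h0

/-- The component does not change under conjugation by root elements. -/
theorem reach_conjBy (h2 : (2 : k) ≠ 0) (h3 : Nat.card k ≠ 3) (hN : NoUnip G)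
    {A : Subgroup (LinearMap.GeneralLinearGroup k M)} (hA : A ∈ Cfsg.quadraticRootSubgroups G)
    {g : LinearMap.GeneralLinearGroup k M} (hg : g ∈ ⨆ B ∈ Cfsg.quadraticRootSubgroups G, B) :
    Reach G A (Cfsg.conjBy A g) := by
  have key : ∀ B ∈ Cfsg.quadraticRootSubgroups G, ∀ g ∈ B, ∀ A ∈ Cfsg.quadraticRootSubgroups G,
      Reach G A (Cfsg.conjBy A g) := by
    intro B hB g hg A hA
    by_cases hcomm : ⁅A, B⁆ = ⊥
    · have : Cfsg.conjBy A g = A := by
        refine Subgroup.ext fun x => ?_
        have hc := Subgroup.commutator_eq_bot_iff_le_centralizer.mp hcomm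
        constructor
        · rintro ⟨y, hy, rfl⟩
          show g * y * g⁻¹ ∈ A
          rwa [Subgroup.mem_centralizer_iff.mp (hc hy) _ hg, mul_inv_cancel_right]
        · intro hx
          exact ⟨x, hx, by show g * x * g⁻¹ = x; rw [Subgroup.mem_centralizer_iff.mp (hc hx) _ hg, mul_inv_cancel_right]⟩
      rw [this]
    · have hAB : Reach G A B := by
        by_contra h
        exact hcomm (commutator_eq_bot_of_not_reach h2 h3 hN hA hB h)
      have hgG := roots_le hB hg
      have h2' : Reach G (Cfsg.conjBy A g) (Cfsg.conjBy B g) := hAB.conj h2 h3 hgG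
      have hB' : Cfsg.conjBy B g = B := by
        refine Subgroup.ext fun x => ⟨?_, fun hx => ⟨g⁻¹ * x * g, mul_mem (mul_mem (inv_mem hg) hx) hg, by simp [mul_assoc]⟩⟩
        rintro ⟨y, hy, rfl⟩; exact mul_mem (mul_mem hg hy) (inv_mem hg)
      rw [hB'] at h2'
      exact hAB.trans h2'.symm
  rw [show (⨆ B ∈ Cfsg.quadraticRootSubgroups G, B) =
      Subgroup.closure (⋃ B ∈ Cfsg.quadraticRootSubgroups G, (B : Set (LinearMap.GeneralLinearGroup k M))) by
    simp only [Subgroup.closure_iUnion, Subgroup.closure_eq]] at hg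
  have hG : ∀ {x}, x ∈ Subgroup.closure (⋃ B ∈ Cfsg.quadraticRootSubgroups G, (B : Set (LinearMap.GeneralLinearGroup k M))) → x ∈ G := by
    intro x hx
    refine (Subgroup.closure_le G).mpr ?_ hx
    simp only [Set.iUnion_subset_iff]
    exact fun B hB => roots_le hB
  have hcomp : ∀ (A : Subgroup (LinearMap.GeneralLinearGroup k M)) (x y : LinearMap.GeneralLinearGroup k M),
      Cfsg.conjBy (Cfsg.conjBy A y) x = Cfsg.conjBy A (x * y) := fun A x y => by
    simp only [Cfsg.conjBy, Subgroup.map_map]; congr 1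
  suffices ∀ A ∈ Cfsg.quadraticRootSubgroups G, Reach G A (Cfsg.conjBy A g) ∧ Reach G A (Cfsg.conjBy A g⁻¹) from
    (this A hA).1
  clear hA A
  induction hg using Subgroup.closure_induction with
  | mem g hg =>
    simp only [Set.mem_iUnion] at hg
    obtain ⟨B, hB, hgB⟩ := hg
    exact fun A hA => ⟨key B hB g hgB A hA, key B hB _ (inv_mem hgB) A hA⟩
  | one =>
    intro A _
    have : Cfsg.conjBy A (1 : LinearMap.GeneralLinearGroup k M) = A := by
      simp only [Cfsg.conjBy, map_one]; exact Subgroup.map_id _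
    rw [inv_one, this]; exact ⟨ReflTransGen.refl, ReflTransGen.refl⟩
  | inv g _ ih => exact fun A hA => ⟨(ih A hA).2, by rw [inv_inv]; exact (ih A hA).1⟩
  | mul x y hx hy ih ih' =>
    intro A hA
    refine ⟨?_, ?_⟩
    · rw [← hcomp]; exact (ih' A hA).1.trans (ih _ ((ih' A hA).1.mem hA)).1
    · rw [mul_inv_rev, ← hcomp]; exact (ih A hA).2.trans (ih' _ ((ih A hA).2.mem hA)).2

end CfsgLib.Transpositions
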