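import Cfsg.Agent.Lib.Transpositions.RankOne

/-!
Splitting a line along a normal subgroup: one part inside, one part centralising.
-/
set_option autoImplicit false

open scoped commutatorElement Pointwise

namespace CfsgLib.Transpositions

variable {k : Type*} [Field k] {M : Type*} [AddCommGroup M] [Module k M]
variable {G H N : Subgroup (Module.End k M)ˣ} {a : Module.End k M}

open LinearMap (range ker)
open Polynomial (aeval)

/-- The group `1 + k a`. -/
def lineGroup (k : Type*) [Field k] [Module k M] (a : Module.End k M) (ha : a * a = 0) :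
    Subgroup (Module.End k M)ˣ where
  carrier := {g | ∃ t : k, (g : Module.End k M) = 1 + t • a}
  one_mem' := ⟨0, by simp⟩
  mul_mem' := by
    rintro g h ⟨s, hs⟩ ⟨t, ht⟩
    refine ⟨s + t, ?_⟩
    rw [Units.val_mul, hs, ht, add_mul, one_mul, mul_add, mul_one, smul_sq ha s t, add_zero, add_smul]
    abel
  inv_mem' := by
    rintro g ⟨s, hs⟩
    refine ⟨-s, ?_⟩
    refine Units.inv_eq_of_mul_eq_one_right ?_
    rw [hs, add_mul, one_mul, mul_add, mul_one, smul_sq ha s (-s), add_zero, neg_smul]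
    abel

lemma mem_lineGroup {ha : a * a = 0} {g : (Module.End k M)ˣ} :
    g ∈ lineGroup k a ha ↔ ∃ t : k, (g : Module.End k M) = 1 + t • a := Iff.rfl

lemma lineGroup_le (hl : IsLine k G a) : lineGroup k a hl.1 ≤ G := by
  rintro g ⟨t, ht⟩
  obtain ⟨h, hh, hhx⟩ := hl.2 t
  exact (Units.ext (hhx.trans ht.symm) : h = g) ▸ hh

lemma isLine_lineGroup (ha : a * a = 0) : IsLine k (lineGroup k a ha) a :=
  ⟨ha, fun t => ⟨sqUnit (t • a) (smul_sq ha t t), ⟨t, rfl⟩, rfl⟩⟩

lemma lineGroup_comm {ha : a * a = 0} {g h : (Module.End k M)ˣ} (hg : g ∈ lineGroup k a ha)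
    (hh : h ∈ lineGroup k a ha) : g * h = h * g := by
  obtain ⟨s, hs⟩ := hg
  obtain ⟨t, ht⟩ := hh
  refine Units.ext ?_
  simp only [Units.val_mul, hs, ht, add_mul, mul_add, one_mul, mul_one, smul_sq ha s t, smul_sq ha t s]
  abel

variable [FiniteDimensional k M]

/-- The absence of unipotent normal subgroups passes to normal subgroups. -/
lemma NoUnip.of_normal (hN : NoUnip G) (hHG : H ≤ G)
    (hn : G ≤ Subgroup.normalizer (H : Set (Module.End k M)ˣ)) : NoUnip H := by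
  intro U hUH hU hUn
  let W : Set (Subgroup (Module.End k M)ˣ) := {B | ∃ g ∈ G, B = U.map (MulAut.conj g).toMonoidHom}
  have hWH : ∀ B ∈ W, B ≤ H := by
    rintro B ⟨g, hg, rfl⟩ - ⟨x, hx, rfl⟩
    exact (Subgroup.mem_normalizer_iff.mp (hn hg) x).mp (hUH hx)
  have hWn : ∀ B ∈ W, H ≤ Subgroup.normalizer (B : Set (Module.End k M)ˣ) := by
    rintro B ⟨g, hg, rfl⟩ h hh
    have h1 : g⁻¹ * h * g ∈ H := by
      have := (Subgroup.mem_normalizer_iff.mp (hn (inv_mem hg)) h).mp hh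
      simpa using this
    refine Subgroup.mem_normalizer_iff.mpr fun y => ⟨?_, ?_⟩
    · rintro ⟨x, hx, rfl⟩
      exact ⟨_, (Subgroup.mem_normalizer_iff.mp (hUn h1) x).mp hx, by simp [mul_assoc]⟩
    · rintro ⟨x, hx, e⟩
      refine ⟨_, (Subgroup.mem_normalizer_iff.mp (hUn (inv_mem h1)) x).mp hx, ?_⟩
      simp only [MulEquiv.coe_toMonoidHom, MulAut.conj_apply] at e ⊢
      calc g * ((g⁻¹ * h * g)⁻¹ * x * ((g⁻¹ * h * g)⁻¹)⁻¹) * g⁻¹ = h⁻¹ * (g * x * g⁻¹) * h := by group
        _ = y := by rw [e]; group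
  have hWu : ∀ B ∈ W, IsUnipGroup k B := by
    rintro B ⟨g, -, rfl⟩
    obtain ⟨n, hn0, hn'⟩ := hU
    refine ⟨n, hn0, ?_⟩
    have hle : augSpan k (U.map (MulAut.conj g).toMonoidHom) ≤
        (augSpan k U).map ((LinearMap.mulRight k ((g⁻¹ : (Module.End k M)ˣ) : Module.End k M)).comp
          (LinearMap.mulLeft k (g : Module.End k M))) := by
      rw [augSpan, Submodule.span_le]
      rintro - ⟨-, ⟨x, hx, rfl⟩, rfl⟩
      refine ⟨(x : Module.End k M) - 1, sub_one_mem_augSpan hx, ?_⟩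
      simp [mul_sub, sub_mul]
    have hpow : ∀ i, ((augSpan k U).map ((LinearMap.mulRight k ((g⁻¹ : (Module.End k M)ˣ) : Module.End k M)).comp
        (LinearMap.mulLeft k (g : Module.End k M)))) ^ (i + 1) ≤
        (augSpan k U ^ (i + 1)).map ((LinearMap.mulRight k ((g⁻¹ : (Module.End k M)ˣ) : Module.End k M)).comp
          (LinearMap.mulLeft k (g : Module.End k M))) := by
      intro i
      induction i with
      | zero => simp
      | succ i ih =>
        rw [pow_succ, pow_succ (augSpan k U) (i + 1)]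
        refine (mul_le_mul' ih le_rfl).trans (Submodule.mul_le.mpr ?_)
        rintro - ⟨x, hx, rfl⟩ - ⟨y, hy, rfl⟩
        exact ⟨x * y, Submodule.mul_mem_mul hx hy, by simp [mul_assoc]⟩
    obtain ⟨i, rfl⟩ : ∃ i, n = i + 1 := ⟨n - 1, by omega⟩
    rw [← le_bot_iff]
    refine (pow_le_pow_left' hle _).trans ((hpow i).trans ?_)
    rw [hn', Submodule.map_bot]
  have hbig := isUnipGroup_iSup_of_pairwise W ?_ fun B hB C hC =>
    (hWu B hB).sup (hWu C hC) ((hWH B hB).trans (hWn C hC))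
  · have h0 := hN (⨆ B ∈ W, B) (iSup₂_le fun B hB => (hWH B hB).trans hHG) hbig ?_
    · refine le_bot_iff.mp (h0 ▸ ?_)
      refine le_iSup₂ (f := fun B _ => B) _ (show U ∈ W from ⟨1, one_mem G, ?_⟩)
      rw [map_one]; exact (Subgroup.map_id _).symm
    have key : ∀ g ∈ G, ∀ x ∈ (⨆ B ∈ W, B : Subgroup (Module.End k M)ˣ), g * x * g⁻¹ ∈ ⨆ B ∈ W, B := by
      intro g hg x hx
      have : g * x * g⁻¹ ∈ (⨆ B ∈ W, B : Subgroup (Module.End k M)ˣ).map (MulAut.conj g).toMonoidHom :=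
        ⟨x, hx, rfl⟩
      refine (?_ : _ ≤ ⨆ B ∈ W, B) this
      simp only [Subgroup.map_iSup, iSup_le_iff]
      rintro B ⟨h, hh, rfl⟩
      refine le_iSup₂ (f := fun B _ => B) _ (show _ ∈ W from ⟨g * h, mul_mem hg hh, ?_⟩)
      rw [Subgroup.map_map]; congr 1
    intro g hg
    exact Subgroup.mem_normalizer_iff.mpr fun x => ⟨key g hg x,
      fun h => by simpa [mul_assoc] using key g⁻¹ (inv_mem hg) _ h⟩
  · rintro B ⟨h, hh, rfl⟩ C hC g hg
    refine ⟨g * h, mul_mem (hHG (hWH C hC hg)) hh, ?_⟩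
    rw [Subgroup.map_map]; congr 1

omit [FiniteDimensional k M] in
lemma conj_pair_pow (g : (Module.End k M)ˣ) (x y : Module.End k M) : ∀ n : ℕ,
    ((g : Module.End k M) * x * (g⁻¹ : (Module.End k M)ˣ) * ((g : Module.End k M) * y * (g⁻¹ : (Module.End k M)ˣ)) +
      (g : Module.End k M) * y * (g⁻¹ : (Module.End k M)ˣ) * ((g : Module.End k M) * x * (g⁻¹ : (Module.End k M)ˣ))) ^ n =
      (g : Module.End k M) * (x * y + y * x) ^ n * (g⁻¹ : (Module.End k M)ˣ) := by
  intro n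
  induction n with
  | zero => simp
  | succ n ih =>
    rw [pow_succ, pow_succ (x * y + y * x), ih, conj_val_mul, conj_val_mul, ← add_mul, ← mul_add, conj_val_mul]

/-- A line is the sum of a line inside a normal subgroup and a line centralising it. -/
theorem line_decomp (h2 : (2 : k) ≠ 0) (h3 : Nat.card k ≠ 3) (hG : NoUnip G) (hNG : N ≤ G)
    (hn : G ≤ Subgroup.normalizer (N : Set (Module.End k M)ˣ)) : ∀ a, IsLine k G a →
    ∃ a₁ a₀, a = a₁ + a₀ ∧ IsLine k N a₁ ∧ IsLine k G a₀ ∧ range a₁ ≤ range a ∧ ker a ≤ ker a₁ ∧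
      range a₀ ≤ range a ∧ ker a ≤ ker a₀ ∧ ∀ g ∈ N, Commute (g : Module.End k M) a₀ := by
  intro a
  induction hr : endRank a using Nat.strong_induction_on generalizing a with
  | _ r IH =>
  intro ha
  set L := lineGroup k a ha.1 with hL
  have hLG : L ≤ G := lineGroup_le ha
  have hLn : ∀ l ∈ L, ∀ n, n ∈ N ↔ l * n * l⁻¹ ∈ N := fun l hl n => Subgroup.mem_normalizer_iff.mp (hn (hLG hl)) n
  by_cases hcase : ∃ g ∈ N, ∀ n : ℕ, (a * ((g : Module.End k M) * a * (g⁻¹ : (Module.End k M)ˣ)) +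
      (g : Module.End k M) * a * (g⁻¹ : (Module.End k M)ˣ) * a) ^ n * a ≠ 0
  · obtain ⟨g, hg, hnn⟩ := hcase
    set b := (g : Module.End k M) * a * (g⁻¹ : (Module.End k M)ˣ) with hb
    set H := N ⊔ L with hH
    have hHn : L ≤ Subgroup.normalizer (N : Set (Module.End k M)ˣ) := hLG.trans hn
    have hla : IsLine k H a := (isLine_lineGroup ha.1).mono le_sup_right
    have hlb : IsLine k H b := hla.conj_mem (le_sup_left (b := L) hg)
    obtain ⟨E, -, hεε, hlines, n, hna, -⟩ := split_pair h2 h3 hla hlb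
    set z := a * b + b * a with hz
    set ε := aeval z E with hε
    have hca : Commute ε a := commute_aeval (commute_pairZ_left ha.1) E
    have hεa : ε * a ≠ 0 := fun h0 => hnn n (by rw [h0, sub_zero] at hna; exact hna)
    have hcomm : ⁅H, H⁆ ≤ N := by
      rw [Subgroup.commutator_le]
      intro x hx y hy
      rw [hH, ← SetLike.mem_coe, Subgroup.coe_mul_of_right_le_normalizer_left N L hHn] at hx hy
      obtain ⟨n₁, hn₁, l₁, hl₁, rfl⟩ := hx
      obtain ⟨n₂, hn₂, l₂, hl₂, rfl⟩ := hy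
      have hc : l₂ * l₁⁻¹ = l₁⁻¹ * l₂ := lineGroup_comm hl₂ (inv_mem hl₁)
      have e : ⁅n₁ * l₁, n₂ * l₂⁆ = n₁ * (l₁ * n₂ * l₁⁻¹) * (l₂ * n₁⁻¹ * l₂⁻¹) * n₂⁻¹ := by
        calc ⁅n₁ * l₁, n₂ * l₂⁆ = n₁ * l₁ * n₂ * (l₂ * l₁⁻¹) * n₁⁻¹ * l₂⁻¹ * n₂⁻¹ := by
              rw [commutatorElement_def]; group
          _ = _ := by rw [hc]; group
      rw [e]
      exact mul_mem (mul_mem (mul_mem hn₁ ((hLn _ hl₁ _).mp hn₂)) ((hLn _ hl₂ _).mp (inv_mem hn₁))) (inv_mem hn₂)
    have hεl : IsLine k N (ε * a) := by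
      have := ((hlines 1).1).mono hcomm
      simpa using this
    have hεr : range (ε * a) ≤ range a := by rw [hca.eq]; exact range_mul_le _ _
    have hεk : ker a ≤ ker (ε * a) := ker_le_ker_mul _ _
    have hprod : ∀ x y : Module.End k M, ker a ≤ ker x → range y ≤ range a → x * y = 0 := by
      intro x y hx hy
      ext m
      exact LinearMap.mem_ker.mp (hx (mem_of_mul_eq_zero ha.1 (hy (LinearMap.mem_range_self y m))))
    set a' := a - ε * a with ha'
    have ha'l : IsLine k G a' :=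
      ha.sub (hεl.mono hNG) (hprod _ _ le_rfl hεr) (hprod _ _ hεk le_rfl)
    have ha'r : range a' ≤ range a := by
      rintro - ⟨m, rfl⟩
      exact sub_mem (LinearMap.mem_range_self a m) (hεr (LinearMap.mem_range_self _ m))
    have ha'k : ker a ≤ ker a' := fun m hm => by
      rw [LinearMap.mem_ker, ha', LinearMap.sub_apply, LinearMap.mem_ker.mp hm, LinearMap.mem_ker.mp (hεk hm),
        sub_zero]
    have hlt : endRank a' < r := by
      rw [← hr]
      refine lt_of_le_of_ne (Submodule.finrank_mono ha'r) fun he => hεa ?_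
      have he' := Submodule.eq_of_le_of_finrank_le ha'r (le_of_eq he.symm)
      ext m
      obtain ⟨n, hn'⟩ : a m ∈ range a' := he' ▸ LinearMap.mem_range_self a m
      rw [Module.End.mul_apply, ← hn', ← Module.End.mul_apply, ha', mul_sub, ← mul_assoc, hεε, sub_self]
      rfl
    obtain ⟨a₁, a₀, e, h₁, h₀, r₁, k₁, r₀, k₀, hc⟩ := IH _ hlt a' rfl ha'l
    refine ⟨ε * a + a₁, a₀, by rw [add_assoc, ← e, ha', add_sub_cancel], ?_, h₀, ?_, ?_, r₀.trans ha'r,
      ha'k.trans k₀, hc⟩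
    · exact hεl.add h₁ (hprod _ _ hεk (r₁.trans ha'r)) (hprod _ _ (ha'k.trans k₁) hεr)
    · rintro - ⟨m, rfl⟩
      exact add_mem (hεr (LinearMap.mem_range_self _ m)) (ha'r (r₁ (LinearMap.mem_range_self _ m)))
    · intro m hm
      rw [LinearMap.mem_ker, LinearMap.add_apply, LinearMap.mem_ker.mp (hεk hm),
        LinearMap.mem_ker.mp (k₁ (ha'k hm)), add_zero]
  · refine ⟨0, a, (zero_add a).symm, isLine_zero, ha, by simp, by simp, le_rfl, le_rfl, ?_⟩
    push Not at hcase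
    -- all conjugates are unipotent with each other
    let W : Set (Subgroup (Module.End k M)ˣ) := {B | ∃ g ∈ N, B = L.map (MulAut.conj g).toMonoidHom}
    have hWn : ∀ g ∈ N, ∀ B ∈ W, B.map (MulAut.conj g).toMonoidHom ∈ W := by
      rintro g hg B ⟨h, hh, rfl⟩
      refine ⟨g * h, mul_mem hg hh, ?_⟩
      rw [Subgroup.map_map]; congr 1
    have hWG : ∀ B ∈ W, B ≤ G := by
      rintro B ⟨g, hg, rfl⟩ - ⟨l, hl, rfl⟩
      exact mul_mem (mul_mem (hNG hg) (hLG hl)) (inv_mem (hNG hg))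
    have hconj : ∀ B ∈ W, ∀ C ∈ W, ∀ x ∈ C, B.map (MulAut.conj x).toMonoidHom ∈ W := by
      rintro - ⟨g, hg, rfl⟩ - ⟨h, hh, rfl⟩ - ⟨l, hl, rfl⟩
      have hmem : h * l * h⁻¹ * g * l⁻¹ ∈ N := by
        rw [show h * l * h⁻¹ * g * l⁻¹ = h * (l * (h⁻¹ * g) * l⁻¹) by group]
        exact mul_mem hh ((hLn l hl _).mp (mul_mem (inv_mem hh) hg))
      refine ⟨_, hmem, ?_⟩
      have hfix : L.map (MulAut.conj l).toMonoidHom = L := by
        refine le_antisymm ?_ fun y hy => ⟨y, hy, ?_⟩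
        · rintro - ⟨y, hy, rfl⟩
          show l * y * l⁻¹ ∈ L
          rwa [lineGroup_comm hl hy, mul_inv_cancel_right]
        · show l * y * l⁻¹ = y
          rw [lineGroup_comm hl hy, mul_inv_cancel_right]
      conv_rhs => rw [← hfix]
      rw [Subgroup.map_map, Subgroup.map_map]
      congr 1
      ext x : 1
      simp [mul_assoc]
    have hpair : ∀ B ∈ W, ∀ C ∈ W, IsUnipGroup k (B ⊔ C) := by
      rintro - ⟨g, hg, rfl⟩ - ⟨h, hh, rfl⟩
      obtain ⟨n, hn'⟩ := hcase (g⁻¹ * h) (mul_mem (inv_mem hg) hh)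
      set b := ((g⁻¹ * h : (Module.End k M)ˣ) : Module.End k M) * a * ((g⁻¹ * h)⁻¹ : (Module.End k M)ˣ) with hb
      have hbb : b * b = 0 := by rw [hb, conj_val_mul, ha.1]; simp
      set z := a * b + b * a with hz
      have hzb : z ^ (n + 1) * b = 0 := by
        rw [pow_succ, mul_assoc, show z * b = b * (a * b) by
          rw [hz, add_mul, mul_assoc a b b, hbb, mul_zero, zero_add, mul_assoc], ← mul_assoc,
          ((commute_pairZ_right (a := a) hbb).pow_left n).eq, mul_assoc, ← mul_assoc (z ^ n), hn']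
        simp
      have hza : z ^ (n + 1) * a = 0 := by rw [pow_succ', mul_assoc, hn', mul_zero]
      set c := (g : Module.End k M) * a * (g⁻¹ : (Module.End k M)ˣ) with hc
      set d := (h : Module.End k M) * a * (h⁻¹ : (Module.End k M)ˣ) with hd
      have hd' : d = (g : Module.End k M) * b * (g⁻¹ : (Module.End k M)ˣ) := by
        rw [hd, hb]; simp [mul_assoc]
      refine isUnip_of_nilpotent (c := c) (d := d) (N := n + 1) (by rw [hc, conj_val_mul, ha.1]; simp)
        (by rw [hd, conj_val_mul, ha.1]; simp)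
        (by rw [hd', hc, conj_pair_pow, ← hz, conj_val_mul, hza]; simp)
        (by rw [hd', hc, conj_pair_pow, ← hz, conj_val_mul, hzb]; simp)
        (H := L.map (MulAut.conj g).toMonoidHom ⊔ L.map (MulAut.conj h).toMonoidHom)
        (S := (L.map (MulAut.conj g).toMonoidHom : Set (Module.End k M)ˣ) ∪ L.map (MulAut.conj h).toMonoidHom) ?_ ?_
      · rw [Subgroup.closure_union, Subgroup.closure_eq, Subgroup.closure_eq]
      · rintro x (⟨l, ⟨t, ht⟩, rfl⟩ | ⟨l, ⟨t, ht⟩, rfl⟩)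
        · exact ⟨t, Or.inl (by simp [ht, hc, mul_add, add_mul])⟩
        · exact ⟨t, Or.inr (by simp [ht, hd, mul_add, add_mul])⟩
    set U := ⨆ B ∈ W, B with hU
    have hUu : IsUnipGroup k U := isUnipGroup_iSup_of_pairwise W hconj hpair
    have hUG : U ≤ G := iSup₂_le hWG
    have hUN : ∀ g ∈ N, ∀ x ∈ U, g * x * g⁻¹ ∈ U := by
      intro g hg x hx
      have : g * x * g⁻¹ ∈ U.map (MulAut.conj g).toMonoidHom := ⟨x, hx, rfl⟩
      refine (?_ : _ ≤ U) this
      simp only [hU, Subgroup.map_iSup, iSup_le_iff]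
      exact fun B hB => le_iSup₂ (f := fun B _ => B) _ (hWn g hg B hB)
    have hbot : U ⊓ N = ⊥ := by
      refine hG.of_normal hNG hn (U ⊓ N) inf_le_right (hUu.mono inf_le_left) fun g hg => ?_
      refine Subgroup.mem_normalizer_iff.mpr fun x => ⟨fun hx => ⟨hUN g hg x hx.1, N.mul_mem (N.mul_mem hg hx.2) (N.inv_mem hg)⟩,
        fun hx => ⟨?_, ?_⟩⟩
      · simpa [mul_assoc] using hUN g⁻¹ (inv_mem hg) _ hx.1
      · simpa [mul_assoc] using mul_mem (mul_mem (inv_mem hg) hx.2) hg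
    intro g hg
    obtain ⟨l, hl, el⟩ := (isLine_lineGroup ha.1).exists_one (k := k) (x := a)
    have hlU : l ∈ U := by
      refine le_iSup₂ (f := fun B _ => B) _ (show L ∈ W from ⟨1, one_mem N, ?_⟩) hl
      rw [map_one]; exact (Subgroup.map_id _).symm
    have hmem : g * l * g⁻¹ * l⁻¹ ∈ U ⊓ N := by
      refine ⟨U.mul_mem (hUN g hg l hlU) (U.inv_mem hlU), ?_⟩
      rw [show g * l * g⁻¹ * l⁻¹ = g * (l * g⁻¹ * l⁻¹) by group]
      exact mul_mem hg ((hLn l hl _).mp (inv_mem hg))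
    rw [hbot, Subgroup.mem_bot, mul_inv_eq_one, mul_inv_eq_iff_eq_mul] at hmem
    have := congrArg (fun u : (Module.End k M)ˣ => (u : Module.End k M)) hmem
    simp only [Units.val_mul, el, mul_add, add_mul, mul_one, one_mul] at this
    exact add_left_cancel this

end CfsgLib.Transpositions
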