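import Cfsg.Agent.Lib.Transpositions.Split

/-!
Lines of minimal rank in a linear group: classes, the dichotomy for two of them, partners and tori.
-/
set_option autoImplicit false

open Polynomial
open scoped Pointwise commutatorElement

namespace CfsgLib.Transpositions

variable {k : Type*} [Field k] {M : Type*} [AddCommGroup M] [Module k M]

/-- The rank of an endomorphism. -/
noncomputable def endRank (x : Module.End k M) : ℕ := Module.finrank k (LinearMap.range x)

/-- A non-zero line of least rank. -/
def IsMinLine (G : Subgroup (Module.End k M)ˣ) (x : Module.End k M) : Prop :=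
  IsLine k G x ∧ x ≠ 0 ∧ ∀ y, IsLine k G y → y ≠ 0 → endRank x ≤ endRank y

/-- Same range and same kernel. -/
def SameAction (x y : Module.End k M) : Prop :=
  LinearMap.range y = LinearMap.range x ∧ LinearMap.ker y = LinearMap.ker x

/-- `c` is a normalised opposite of `a`. -/
def IsPartner (G : Subgroup (Module.End k M)ˣ) (a c : Module.End k M) : Prop :=
  IsMinLine G a ∧ IsMinLine G c ∧ a * c * a = a ∧ c * a * c = c

variable {G : Subgroup (Module.End k M)ˣ} {a b c x y : Module.End k M}

lemma SameAction.refl (x : Module.End k M) : SameAction x x := ⟨rfl, rfl⟩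

lemma SameAction.symm (h : SameAction x y) : SameAction y x := ⟨h.1.symm, h.2.symm⟩

lemma SameAction.trans {w : Module.End k M} (h : SameAction x y) (h' : SameAction y w) :
    SameAction x w :=
  ⟨h'.1.trans h.1, h'.2.trans h.2⟩

lemma SameAction.mul_eq_zero_left (h : SameAction x y) {w : Module.End k M} (hw : x * w = 0) :
    y * w = 0 := by
  ext m
  have : w m ∈ LinearMap.ker x := LinearMap.mem_ker.mpr (LinearMap.congr_fun hw m)
  rw [← h.2] at this
  exact LinearMap.mem_ker.mp this

lemma SameAction.mul_eq_zero_right (h : SameAction x y) {w : Module.End k M} (hw : w * x = 0) :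
    w * y = 0 := by
  ext m
  have : y m ∈ LinearMap.range x := h.1 ▸ LinearMap.mem_range_self y m
  obtain ⟨n, hn⟩ := this
  rw [Module.End.mul_apply, ← hn]
  exact LinearMap.congr_fun hw n

/-- The triple product vanishes for all members of a class once it does for one. -/
lemma SameAction.triple_eq_zero (h : SameAction x y) (hb : x * b * x = 0) : y * b * y = 0 :=
  h.mul_eq_zero_right (by rw [mul_assoc]; exact h.mul_eq_zero_left (by rw [← mul_assoc, hb]))

lemma range_mul_le (x y : Module.End k M) : LinearMap.range (x * y) ≤ LinearMap.range x :=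
  LinearMap.range_comp_le_range y x

lemma ker_le_ker_mul (x y : Module.End k M) : LinearMap.ker y ≤ LinearMap.ker (x * y) :=
  LinearMap.ker_le_ker_comp y x

variable [FiniteDimensional k M]

lemma endRank_mul_le_left (x y : Module.End k M) : endRank (x * y) ≤ endRank x :=
  Submodule.finrank_mono (range_mul_le x y)

lemma endRank_mul_le_right (x y : Module.End k M) : endRank (x * y) ≤ endRank y := by
  show Module.finrank k (LinearMap.range (x.comp y)) ≤ _
  rw [LinearMap.range_comp]
  exact Submodule.finrank_map_le _ _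

lemma endRank_eq_zero_iff : endRank x = 0 ↔ x = 0 := by
  rw [endRank, Submodule.finrank_eq_zero, LinearMap.range_eq_bot]

lemma finrank_ker_eq (x : Module.End k M) :
    Module.finrank k (LinearMap.ker x) = Module.finrank k M - endRank x := by
  have := x.finrank_range_add_finrank_ker
  unfold endRank; omega

lemma sameAction_of_le (hr : endRank x ≤ endRank y) (h1 : LinearMap.range y ≤ LinearMap.range x)
    (h2 : LinearMap.ker x ≤ LinearMap.ker y) : SameAction x y := by
  refine ⟨Submodule.eq_of_le_of_finrank_le h1 hr, (Submodule.eq_of_le_of_finrank_le h2 ?_).symm⟩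
  rw [finrank_ker_eq, finrank_ker_eq]; omega

lemma SameAction.endRank_eq (h : SameAction x y) : endRank y = endRank x := by rw [endRank, h.1]; rfl

/-- A line contained in range and kernel of a minimal one is minimal of the same class. -/
lemma IsMinLine.of_le (hx : IsMinLine G x) (hy : IsLine k G y) (hy0 : y ≠ 0)
    (h1 : LinearMap.range y ≤ LinearMap.range x) (h2 : LinearMap.ker x ≤ LinearMap.ker y) :
    IsMinLine G y ∧ SameAction x y :=
  ⟨⟨hy, hy0, fun _ hw hw0 => (Submodule.finrank_mono h1).trans (hx.2.2 _ hw hw0)⟩,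
    sameAction_of_le (hx.2.2 _ hy hy0) h1 h2⟩

omit [FiniteDimensional k M] in
lemma IsMinLine.sq (hx : IsMinLine G x) : x * x = 0 := hx.1.1

lemma IsMinLine.smul (hx : IsMinLine G x) {t : k} (ht : t ≠ 0) :
    IsMinLine G (t • x) ∧ SameAction x (t • x) :=
  hx.of_le (hx.1.smul t) (smul_ne_zero ht hx.2.1)
    (by rintro - ⟨m, rfl⟩; exact Submodule.smul_mem _ t (LinearMap.mem_range_self x m))
    fun m hm => by simp [LinearMap.mem_ker.mp hm]

lemma IsMinLine.add (hx : IsMinLine G x) (hy : IsMinLine G y) (h : SameAction x y) (h0 : x + y ≠ 0) :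
    IsMinLine G (x + y) ∧ SameAction x (x + y) := by
  refine hx.of_le (hx.1.add hy.1 (h.mul_eq_zero_right hx.sq) (h.mul_eq_zero_left hx.sq)) h0 ?_ ?_
  · rintro - ⟨m, rfl⟩
    exact Submodule.add_mem _ (LinearMap.mem_range_self x m) (h.1 ▸ LinearMap.mem_range_self y m)
  · intro m hm
    have : m ∈ LinearMap.ker y := h.2.symm ▸ hm
    simp [LinearMap.mem_ker.mp hm, LinearMap.mem_ker.mp this]

/-- The elements of the class of `a`, with zero. -/
def classSpace (G : Subgroup (Module.End k M)ˣ) (ha : IsMinLine G a) : Submodule k (Module.End k M) where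
  carrier := {x | x = 0 ∨ (IsMinLine G x ∧ SameAction a x)}
  zero_mem' := Or.inl rfl
  add_mem' := by
    rintro x y (rfl | ⟨hx, hax⟩) hy
    · simpa using hy
    rcases hy with rfl | ⟨hy, hay⟩
    · simpa using Or.inr ⟨hx, hax⟩
    rcases eq_or_ne (x + y) 0 with h0 | h0
    · exact Or.inl h0
    obtain ⟨h1, h2⟩ := hx.add hy (hax.symm.trans hay) h0
    exact Or.inr ⟨h1, hax.trans h2⟩
  smul_mem' := by
    rintro t x (rfl | ⟨hx, hax⟩)
    · exact Or.inl (smul_zero t)
    rcases eq_or_ne t 0 with rfl | ht
    · exact Or.inl (zero_smul k x)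
    exact Or.inr ⟨(hx.smul ht).1, hax.trans (hx.smul ht).2⟩

omit [FiniteDimensional k M] in
lemma IsMinLine.conj (hx : IsMinLine G x) {g : (Module.End k M)ˣ}
    (hg : g ∈ Subgroup.normalizer (G : Set (Module.End k M)ˣ)) :
    IsMinLine G ((g : Module.End k M) * x * (g⁻¹ : (Module.End k M)ˣ)) := by
  refine ⟨hx.1.conj hg, fun h => hx.2.1 ?_, fun y hy hy0 => ?_⟩
  · simpa [mul_assoc] using congrArg
      (fun w => ((g⁻¹ : (Module.End k M)ˣ) : Module.End k M) * w * (g : Module.End k M)) h
  · refine le_trans (le_of_eq ?_) (hx.2.2 y hy hy0)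
    show Module.finrank k (LinearMap.range (_ * _ : Module.End k M)) = _
    have hsurj : Function.Surjective ⇑((g⁻¹ : (Module.End k M)ˣ) : Module.End k M) := fun m =>
      ⟨(g : Module.End k M) m, by rw [← Module.End.mul_apply, Units.inv_mul]; rfl⟩
    have hinj : Function.Injective ⇑(g : Module.End k M) := fun m m' h => by
      simpa [← Module.End.mul_apply] using
        congrArg ((g⁻¹ : (Module.End k M)ˣ) : Module.End k M) h
    erw [LinearMap.range_comp_of_range_eq_top _ (LinearMap.range_eq_top.mpr hsurj), LinearMap.range_comp]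
    exact (Submodule.equivMapOfInjective _ hinj _).finrank_eq.symm

omit [FiniteDimensional k M] in
lemma SameAction.conj (h : SameAction x y) (g : (Module.End k M)ˣ) :
    SameAction ((g : Module.End k M) * x * ((g⁻¹ : (Module.End k M)ˣ) : Module.End k M))
      ((g : Module.End k M) * y * ((g⁻¹ : (Module.End k M)ˣ) : Module.End k M)) := by
  have hsurj : Function.Surjective ⇑((g⁻¹ : (Module.End k M)ˣ) : Module.End k M) := fun m =>
    ⟨(g : Module.End k M) m, by rw [← Module.End.mul_apply, Units.inv_mul]; rfl⟩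
  have hinj : Function.Injective ⇑(g : Module.End k M) := fun m m' h => by
    simpa [← Module.End.mul_apply] using congrArg ((g⁻¹ : (Module.End k M)ˣ) : Module.End k M) h
  have hr : ∀ w : Module.End k M, LinearMap.range ((g : Module.End k M) * w * ((g⁻¹ : (Module.End k M)ˣ) : Module.End k M)) =
      (LinearMap.range w).map (g : Module.End k M) := fun w => by
    erw [LinearMap.range_comp_of_range_eq_top _ (LinearMap.range_eq_top.mpr hsurj), LinearMap.range_comp]
  have hk : ∀ w : Module.End k M, LinearMap.ker ((g : Module.End k M) * w * ((g⁻¹ : (Module.End k M)ˣ) : Module.End k M)) =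
      (LinearMap.ker w).comap ((g⁻¹ : (Module.End k M)ˣ) : Module.End k M) := fun w => by
    rw [mul_assoc]
    erw [LinearMap.ker_comp_of_ker_eq_bot _ (LinearMap.ker_eq_bot.mpr hinj), LinearMap.ker_comp]
  exact ⟨by rw [hr, hr, h.1], by rw [hk, hk, h.2]⟩

variable (h2 : (2 : k) ≠ 0) (h3 : Nat.card k ≠ 3)

omit [FiniteDimensional k M] in
/-- If `(ab+ba)^2 a = 0` then `aba` is again a line. -/
lemma isLine_triple (h2 : (2 : k) ≠ 0) (ha : IsLine k G a) (hb : IsLine k G b)
    (h : a * b * a * b * a = 0) : IsLine k G (a * b * a) := by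
  obtain ⟨g, hg, hgb⟩ := hb.exists_one
  have hginv : ((g⁻¹ : (Module.End k M)ˣ) : Module.End k M) = 1 - b :=
    Units.inv_eq_of_mul_eq_one_right (by rw [hgb, add_mul, one_mul, mul_sub, mul_one, hb.1]; abel)
  have hg' : IsLine k G ((g : Module.End k M) * a * (g⁻¹ : (Module.End k M)ˣ)) := ha.conj_mem hg
  have hg'' : IsLine k G (((g⁻¹ : (Module.End k M)ˣ) : Module.End k M) * a * (g : Module.End k M)) := by
    simpa using ha.conj_mem (inv_mem hg)
  rw [hgb, hginv] at hg' hg''
  set a₁ := (1 + b) * a * (1 - b) with ha₁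
  set a₂ := (1 - b) * a * (1 + b) with ha₂
  have h' : ∀ w : Module.End k M, a * (b * (a * (b * (a * w)))) = 0 := fun w => by
    rw [← zero_mul w, ← h]; simp only [mul_assoc]
  have aa : ∀ w : Module.End k M, a * (a * w) = 0 := fun w => by rw [← mul_assoc, ha.1, zero_mul]
  have bb : ∀ w : Module.End k M, b * (b * w) = 0 := fun w => by rw [← mul_assoc, hb.1, zero_mul]
  have h0 : a * (b * (a * (b * a))) = 0 := by rw [← h]; simp only [mul_assoc]
  have tri₁ : a * a₁ * a = 0 ∧ a₁ * a * a₁ = 0 := by
    constructor <;>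
      simp [ha₁, add_mul, mul_add, sub_mul, mul_sub, mul_assoc, h', h0, aa, bb, ha.1, hb.1]
  have tri₂ : a * a₂ * a = 0 ∧ a₂ * a * a₂ = 0 := by
    constructor <;>
      simp [ha₂, add_mul, mul_add, sub_mul, mul_sub, mul_assoc, h', h0, aa, bb, ha.1, hb.1]
  have l₁ := ha.bracket hg' tri₁.1 tri₁.2
  have l₂ := ha.bracket hg'' tri₂.1 tri₂.2
  have e₁ : a * a₁ - a₁ * a = (2 : k) • (a * b * a) + (b * a * b * a - a * b * a * b) := by
    simp [ha₁, add_mul, mul_add, sub_mul, mul_sub, mul_assoc, aa, ha.1, two_smul]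
    abel
  have e₂ : a * a₂ - a₂ * a = -((2 : k) • (a * b * a)) + (b * a * b * a - a * b * a * b) := by
    simp [ha₂, add_mul, mul_add, sub_mul, mul_sub, mul_assoc, aa, ha.1, two_smul]
    abel
  rw [e₁] at l₁
  rw [e₂] at l₂
  have h4 := l₁.sub l₂ (by
    simp [add_mul, mul_add, sub_mul, mul_sub, mul_assoc, h', h0, aa, bb, ha.1, hb.1])
    (by simp [add_mul, mul_add, sub_mul, mul_sub, mul_assoc, h', h0, aa, bb, ha.1, hb.1])
  rw [add_sub_add_right_eq_sub, sub_neg_eq_add, ← add_smul] at h4
  have h40 : (2 : k) + 2 ≠ 0 := by rw [← two_mul]; exact mul_ne_zero h2 h2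
  simpa [smul_smul, h40] using h4.smul ((2 : k) + 2)⁻¹

include h2 in
/-- If `z` is nilpotent on the minimal line `a`, it annihilates it. -/
lemma triple_eq_zero_of_nilpotent (ha : IsMinLine G a) : ∀ (N : ℕ) (b : Module.End k M),
    IsLine k G b → (a * b + b * a) ^ N * a = 0 → a * b * a = 0 := by
  intro N
  induction N using Nat.strong_induction_on with
  | _ N IH =>
    intro b hb hN
    have hza : (a * b + b * a) * a = a * b * a := by rw [add_mul, mul_assoc b a a, ha.sq]; simp
    have hsq2 : a * b * a * b * a = (a * b + b * a) ^ 2 * a := by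
      have hc := (commute_pairZ_left (b := b) ha.sq).eq
      rw [pow_two, mul_assoc (a * b + b * a) (a * b + b * a) a, hza, mul_assoc a b a, ← mul_assoc (a * b + b * a) a, hza]
      simp only [mul_assoc]
    rcases lt_or_ge N 3 with hN3 | hN3
    · have h5 : a * b * a * b * a = 0 := by
        rw [hsq2]
        obtain ⟨d, hd⟩ : ∃ d, 2 = d + N := ⟨2 - N, by omega⟩
        rw [hd, pow_add, mul_assoc, hN, mul_zero]
      by_contra hne
      have hline := isLine_triple h2 ha.1 hb h5
      obtain ⟨-, hrng⟩ := sameAction_of_le (ha.2.2 _ hline hne)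
        (by rw [mul_assoc]; exact range_mul_le _ _) (ker_le_ker_mul _ _)
      have hr : LinearMap.range (a * b * a) = LinearMap.range a :=
        (sameAction_of_le (ha.2.2 _ hline hne)
          (by rw [mul_assoc]; exact range_mul_le _ _) (ker_le_ker_mul _ _)).1
      refine hne (LinearMap.ext fun m => ?_)
      obtain ⟨m', hm'⟩ : a m ∈ LinearMap.range (a * b * a) := hr ▸ LinearMap.mem_range_self a m
      rw [show (a * b * a) m = (a * b) (a m) from rfl, ← hm']
      exact LinearMap.congr_fun (show a * b * (a * b * a) = 0 by rw [← h5]; simp only [mul_assoc]) m'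
    · have h5 : a * b * a * b * a = 0 := by
        obtain ⟨g, hg, hgb⟩ := hb.exists_one
        have hginv : ((g⁻¹ : (Module.End k M)ˣ) : Module.End k M) = 1 - b :=
          Units.inv_eq_of_mul_eq_one_right (by rw [hgb, add_mul, one_mul, mul_sub, mul_one, hb.1]; abel)
        have hb' : IsLine k G ((1 + b) * a * (1 - b)) := by
          have := ha.1.conj_mem hg; rwa [hgb, hginv] at this
        set b' := (1 + b) * a * (1 - b) with hb'def
        have aa : ∀ w : Module.End k M, a * (a * w) = 0 := fun w => by rw [← mul_assoc, ha.sq, zero_mul]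
        have hz' : a * b' + b' * a = -((a * b + b * a) ^ 2) := by
          simp [hb'def, pow_two, add_mul, mul_add, sub_mul, mul_sub, mul_assoc, aa, ha.sq, hb.1,
            show ∀ w : Module.End k M, b * (b * w) = 0 from fun w => by rw [← mul_assoc, hb.1, zero_mul]]
          abel
        have hlt : (N + 1) / 2 < N := by omega
        have h := IH _ hlt b' hb' (by
          rw [hz', neg_pow, ← pow_mul, mul_assoc]
          obtain ⟨d, hd⟩ : ∃ d, 2 * ((N + 1) / 2) = d + N := ⟨2 * ((N + 1) / 2) - N, by omega⟩
          rw [hd, pow_add, mul_assoc ((a * b + b * a) ^ d), hN, mul_zero, mul_zero])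
        have e : a * b' * a = -(a * b * a * b * a) := by
          simp [hb'def, add_mul, mul_add, sub_mul, mul_sub, mul_assoc, aa, ha.sq]
        rw [h] at e
        exact neg_eq_zero.mp e.symm
      exact IH 2 (by omega) b hb (by rw [← hsq2, h5])

include h2 h3 in
/-- Dichotomy for two lines of minimal rank. -/
theorem dichotomy (ha : IsMinLine G a) (hb : IsMinLine G b) :
    (a * b * a = 0 ∧ b * a * b = 0) ∨
      (a * b * a ≠ 0 ∧ ∃ c, SameAction b c ∧ IsPartner G a c) := by
  obtain ⟨E, hE0, hεε, hlines, N, hNa, hNb⟩ := split_pair h2 h3 ha.1 hb.1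
  set z := a * b + b * a with hz
  set ε := aeval z E with hε
  have hza : z * a = a * b * a := by rw [hz, add_mul, mul_assoc b a a, ha.sq, mul_zero, add_zero]
  have hzb : z * b = b * a * b := by rw [hz, add_mul, mul_assoc a b b, hb.sq, mul_zero, zero_add]
  have hca : Commute ε a := commute_aeval (commute_pairZ_left ha.sq) E
  have hcb : Commute ε b := commute_aeval (commute_pairZ_right hb.sq) E
  have hG : ⁅G, G⁆ ≤ G := Subgroup.commutator_le_self G
  have fix : ∀ c : Module.End k M, IsMinLine G c → Commute ε c → IsLine k G (ε * c) → ε * c ≠ 0 →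
      ε * c = c := by
    intro c hc hcc hline hne
    have hr := (sameAction_of_le (hc.2.2 _ hline hne) (by rw [hcc.eq]; exact range_mul_le _ _)
      (ker_le_ker_mul _ _)).1
    ext m
    obtain ⟨m', hm'⟩ : c m ∈ LinearMap.range (ε * c) := hr ▸ LinearMap.mem_range_self c m
    rw [Module.End.mul_apply, ← hm', ← Module.End.mul_apply, ← mul_assoc, hεε]
  by_cases hεa : ε * a = 0
  · left
    rw [hεa, sub_zero] at hNa
    have haba := triple_eq_zero_of_nilpotent h2 ha N b hb.1 hNa
    refine ⟨haba, triple_eq_zero_of_nilpotent h2 hb (N + 1) a ha.1 ?_⟩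
    rw [add_comm (b * a), ← hz, pow_succ, mul_assoc, hzb, ← mul_assoc, ← mul_assoc,
      ((commute_pairZ_right hb.sq).pow_left N).eq, mul_assoc b, hNa]
    simp
  · right
    have hea := fix a ha hca (by simpa using ((hlines 1).1).mono hG) hεa
    obtain ⟨Q, hQ⟩ := X_dvd_iff.mpr hE0
    set w := aeval z Q with hw
    have hεw : ε = w * z := by rw [hε, hQ, map_mul, aeval_X, ← (commute_aeval (Commute.refl z) Q).eq]
    have hwz : ∀ x, ε * x = x → w * (z * x) = x := fun x hx => by rw [← mul_assoc, ← hεw, hx]
    have hεb : ε * b ≠ 0 := by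
      intro h0
      rw [h0, sub_zero] at hNb
      have hεpow : ∀ i, ε ^ (i + 1) = ε := by
        intro i
        induction i with
        | zero => simp
        | succ i ih => rw [pow_succ, ih, hεε]
      apply hεa
      rw [← hεpow N, hεw, (commute_aeval (Commute.refl z) Q).mul_pow, mul_assoc, pow_succ z,
        mul_assoc, hza, ← mul_assoc (z ^ N), ← mul_assoc (z ^ N) a b,
        ((commute_pairZ_left (b := b) ha.sq).pow_left N).eq, mul_assoc a (z ^ N) b, hNb]
      simp
    have heb := fix b hb hcb (by simpa using ((hlines 1).2).mono hG) hεb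
    refine ⟨fun h0 => ha.2.1 ?_, w * b, ?_⟩
    · rw [← hwz a hea, hza, h0, mul_zero]
    have hline : IsLine k G (w * b) := by
      have := ((hlines Q).2).mono hG; rwa [heb] at this
    have hwa := (commute_aeval (commute_pairZ_left (b := b) ha.sq) Q).eq
    have hwb := (commute_aeval (commute_pairZ_right (a := a) hb.sq) Q).eq
    have haca : a * (w * b) * a = a := by
      rw [← mul_assoc, ← hwa, mul_assoc w a b, mul_assoc, ← hza, hwz a hea]
    have hne : w * b ≠ 0 := fun h0 => ha.2.1 (by rw [← haca, h0, mul_zero, zero_mul])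
    obtain ⟨hmin, hsame⟩ := hb.of_le hline hne (by rw [hwb]; exact range_mul_le _ _)
      (ker_le_ker_mul _ _)
    refine ⟨hsame, ha, hmin, haca, ?_⟩
    rw [mul_assoc w b a, mul_assoc w (b * a), ← mul_assoc (b * a), mul_assoc b a w, ← hwa,
      ← mul_assoc b, ← hwb, mul_assoc (w : Module.End k M) b a, mul_assoc w (b * a) b, ← hzb, hwz b heb]

end CfsgLib.Transpositions
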