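import Cfsg.Agent.Lib.Transpositions.SL2Main
import Cfsg.Agent.Lib.Transpositions.Lines
import Cfsg.Agent.Lib.Transpositions.Unipotent

/-!
Two square-zero lines `a`, `b`: the group they generate and `z = ab + ba`.
-/
set_option autoImplicit false

open Polynomial
open scoped Pointwise commutatorElement

namespace CfsgLib.Transpositions

variable {k A : Type*} [Field k] [Ring A] [Algebra k A]

section Algebraic

variable {a b : A}

lemma commute_pairZ_left (ha : a * a = 0) : Commute (a * b + b * a) a := by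
  show (a * b + b * a) * a = a * (a * b + b * a)
  rw [add_mul, mul_add, mul_assoc b a a, ha, mul_zero, ← mul_assoc a a b, ha, zero_mul, add_zero,
    zero_add, mul_assoc]

lemma commute_pairZ_right (hb : b * b = 0) : Commute (a * b + b * a) b := by
  rw [add_comm]; exact commute_pairZ_left hb

lemma commute_aeval {z c : A} (h : Commute z c) (P : k[X]) : Commute (aeval z P) c := by
  induction P using Polynomial.induction_on' with
  | add p q hp hq => rw [map_add]; exact hp.add_left hq
  | monomial n r =>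
    rw [aeval_monomial]
    exact (Algebra.commute_algebraMap_left r c).mul_left (h.pow_left n)

lemma aeval_mul_mul {z c d : A} (h : Commute z c) (P Q : k[X]) :
    aeval z P * c * (aeval z Q * d) = aeval z (P * Q) * (c * d) := by
  rw [map_mul, mul_assoc, ← mul_assoc c, ← (commute_aeval h Q).eq, mul_assoc (aeval z Q), ← mul_assoc]

variable (a b) in
/-- A polynomial `W` with `X W ≡ 1` modulo `m`. -/
noncomputable def invPoly (m : k[X]) : k[X] := -(C (m.coeff 0)⁻¹ * m.divX)

lemma X_mul_invPoly {m : k[X]} (h0 : m.coeff 0 ≠ 0) :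
    X * invPoly m = 1 - C (m.coeff 0)⁻¹ * m := by
  have h := X_mul_divX_add m
  have hC : C (m.coeff 0)⁻¹ * C (m.coeff 0) = 1 := by rw [← map_mul, inv_mul_cancel₀ h0, map_one]
  rw [invPoly]
  linear_combination (-C (m.coeff 0)⁻¹) * h + hC

/-- Evaluation on the quotient by `m`, multiplied by an element killed by `m`. -/
noncomputable def evalTimes {m : k[X]} (hm : m.Monic) (z c : A) : AdjoinRoot m →ₗ[k] A :=
  (LinearMap.mulRight k c).comp ((aeval z).toLinearMap.comp (AdjoinRoot.modByMonicHom hm))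

lemma evalTimes_mk {m : k[X]} (hm : m.Monic) {z c : A} (hc : aeval z m * c = 0) (P : k[X]) :
    evalTimes hm z c (AdjoinRoot.mk m P) = aeval z P * c := by
  show aeval z (AdjoinRoot.modByMonicHom hm (AdjoinRoot.mk m P)) * c = aeval z P * c
  rw [AdjoinRoot.modByMonicHom_mk]
  conv_rhs => rw [← modByMonic_add_div P m, map_add, mul_comm m, map_mul, add_mul, mul_assoc, hc,
    mul_zero, add_zero]

/-- Data: two square-zero elements annihilated by `m(z)`, `m` monic with non-zero constant term. -/
structure CornerData (k : Type*) [Field k] [Algebra k A] (a b : A) where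
  poly : k[X]
  monic : poly.Monic
  coeff0 : poly.coeff 0 ≠ 0
  sq_a : a * a = 0
  sq_b : b * b = 0
  kill_a : aeval (a * b + b * a) poly * a = 0
  kill_b : aeval (a * b + b * a) poly * b = 0

namespace CornerData

variable (D : CornerData k a b)

/-- The ring `k[X]/(m)`. -/
abbrev Ring' := AdjoinRoot D.poly

/-- `w`, an inverse of `z` on the corner. -/
noncomputable def w : A := aeval (a * b + b * a) (invPoly D.poly)

lemma w_comm {c : A} (h : Commute (a * b + b * a) c) : Commute D.w c := commute_aeval h _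

lemma zw_mul {c : A} (hc : aeval (a * b + b * a) D.poly * c = 0) :
    (a * b + b * a) * D.w * c = c := by
  have h := congrArg (aeval (a * b + b * a)) (X_mul_invPoly D.coeff0)
  rw [map_mul, aeval_X] at h
  rw [w, h, map_sub, map_one, map_mul, sub_mul, one_mul, mul_assoc, hc, mul_zero, sub_zero]

lemma wz_mul {c : A} (hc : aeval (a * b + b * a) D.poly * c = 0) :
    D.w * (a * b + b * a) * c = c := by
  rw [show D.w * (a * b + b * a) = (a * b + b * a) * D.w from
    (commute_aeval (Commute.refl (a * b + b * a)) (invPoly D.poly)).eq]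
  exact D.zw_mul hc

/-- The four matrix units. -/
noncomputable def unit' : Fin 2 → Fin 2 → A
  | 0, 0 => D.w * (a * b)
  | 0, 1 => a
  | 1, 0 => D.w * b
  | 1, 1 => D.w * (b * a)

lemma kill_unit : ∀ i j, aeval (a * b + b * a) D.poly * D.unit' i j = 0 := by
  have hc := commute_aeval (k := k) (Commute.refl (a * b + b * a)) D.poly
  have hw : Commute (aeval (a * b + b * a) D.poly) D.w := (commute_aeval hc.symm (invPoly D.poly)).symm
  intro i j
  fin_cases i <;> fin_cases j
  · show _ * (D.w * (a * b)) = 0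
    rw [← mul_assoc, hw.eq, mul_assoc, ← mul_assoc _ a, D.kill_a, zero_mul, mul_zero]
  · exact D.kill_a
  · show _ * (D.w * b) = 0
    rw [← mul_assoc, hw.eq, mul_assoc, D.kill_b, mul_zero]
  · show _ * (D.w * (b * a)) = 0
    rw [← mul_assoc, hw.eq, mul_assoc, ← mul_assoc _ b, D.kill_b, zero_mul, mul_zero]

lemma comm_unit : ∀ i j, Commute (a * b + b * a) (D.unit' i j) := by
  have ca := commute_pairZ_left (b := b) D.sq_a
  have cb := commute_pairZ_right (a := a) D.sq_b
  have cw : Commute (a * b + b * a) D.w :=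
    (commute_aeval (Commute.refl (a * b + b * a)) (invPoly D.poly)).symm
  intro i j
  fin_cases i <;> fin_cases j
  · exact cw.mul_right (ca.mul_right cb)
  · exact ca
  · exact cw.mul_right cb
  · exact cw.mul_right (cb.mul_right ca)

lemma unit_mul (i j l r : Fin 2) :
    D.unit' i j * D.unit' l r = if j = l then D.unit' i r else 0 := by
  have hza := D.zw_mul D.kill_a
  have hzb := D.zw_mul D.kill_b
  have wa := (D.w_comm (commute_pairZ_left (b := b) D.sq_a)).eq
  have wb := (D.w_comm (commute_pairZ_right (a := a) D.sq_b)).eq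
  have aa : ∀ x : A, a * (a * x) = 0 := fun x => by rw [← mul_assoc, D.sq_a, zero_mul]
  have bb : ∀ x : A, b * (b * x) = 0 := fun x => by rw [← mul_assoc, D.sq_b, zero_mul]
  have wa' : ∀ x : A, a * (D.w * x) = D.w * (a * x) := fun x => by rw [← mul_assoc, ← wa, mul_assoc]
  have wb' : ∀ x : A, b * (D.w * x) = D.w * (b * x) := fun x => by rw [← mul_assoc, ← wb, mul_assoc]
  have aba : D.w * (a * (b * a)) = a := by
    conv_rhs => rw [← D.wz_mul D.kill_a]
    simp [mul_assoc, add_mul, aa, D.sq_a]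
  have bab : D.w * (b * (a * b)) = b := by
    conv_rhs => rw [← D.wz_mul D.kill_b]
    simp [mul_assoc, add_mul, bb, D.sq_b]
  have abaX : ∀ x : A, D.w * (a * (b * (a * x))) = a * x := fun x => by
    conv_rhs => rw [← aba]
    simp [mul_assoc]
  have babX : ∀ x : A, D.w * (b * (a * (b * x))) = b * x := fun x => by
    conv_rhs => rw [← bab]
    simp [mul_assoc]
  fin_cases i <;> fin_cases j <;> fin_cases l <;> fin_cases r <;>
    simp [unit', mul_assoc, wa', wb', aa, bb, D.sq_a, D.sq_b, aba, bab, abaX, babX]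

/-- The corner embedding of `2 × 2` matrices. -/
noncomputable def toA (M : Matrix (Fin 2) (Fin 2) D.Ring') : A :=
  ∑ i, ∑ j, evalTimes D.monic (a * b + b * a) (D.unit' i j) (M i j)

lemma toA_add (M N : Matrix (Fin 2) (Fin 2) D.Ring') : D.toA (M + N) = D.toA M + D.toA N := by
  simp [toA, Finset.sum_add_distrib]

lemma evalTimes_mul (i j l r : Fin 2) (x y : D.Ring') :
    evalTimes D.monic (a * b + b * a) (D.unit' i j) x * evalTimes D.monic (a * b + b * a) (D.unit' l r) y =
      if j = l then evalTimes D.monic (a * b + b * a) (D.unit' i r) (x * y) else 0 := by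
  obtain ⟨P, rfl⟩ := AdjoinRoot.mk_surjective x
  obtain ⟨Q, rfl⟩ := AdjoinRoot.mk_surjective y
  rw [← map_mul, evalTimes_mk _ (D.kill_unit i j), evalTimes_mk _ (D.kill_unit l r),
    evalTimes_mk _ (D.kill_unit i r), aeval_mul_mul (D.comm_unit i j), D.unit_mul]
  split <;> simp

lemma toA_mul (M N : Matrix (Fin 2) (Fin 2) D.Ring') : D.toA (M * N) = D.toA M * D.toA N := by
  simp only [toA, Fin.sum_univ_two, Matrix.mul_apply, map_add, mul_add, add_mul, evalTimes_mul]
  simp only [Fin.isValue, if_true, if_false, zero_ne_one, one_ne_zero, add_zero, zero_add]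
  abel

/-- The homomorphism from `SL₂(k[X]/m)` onto the corner. -/
noncomputable def hom : Matrix.SpecialLinearGroup (Fin 2) D.Ring' →* Aˣ :=
  MonoidHom.toHomUnits
    { toFun := fun g => 1 + D.toA ((g : Matrix (Fin 2) (Fin 2) D.Ring') - 1)
      map_one' := by simp [toA]
      map_mul' := fun g h => by
        have e : ((g * h : Matrix.SpecialLinearGroup (Fin 2) D.Ring') : Matrix (Fin 2) (Fin 2) D.Ring') - 1 =
            ((g : Matrix (Fin 2) (Fin 2) D.Ring') - 1) * ((h : Matrix (Fin 2) (Fin 2) D.Ring') - 1) +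
              ((g : Matrix (Fin 2) (Fin 2) D.Ring') - 1) + ((h : Matrix (Fin 2) (Fin 2) D.Ring') - 1) := by
          simp [sub_mul, mul_sub]
        rw [e, toA_add, toA_add, toA_mul]
        simp [add_mul, mul_add]; abel }

lemma hom_u12 (P : k[X]) :
    (D.hom (u12 (AdjoinRoot.mk D.poly P)) : A) = 1 + aeval (a * b + b * a) P * a := by
  show 1 + D.toA _ = _
  have := evalTimes_mk D.monic D.kill_a P
  simp [toA, Fin.sum_univ_two, Matrix.one_apply, unit', this]

lemma hom_u21 (P : k[X]) :
    (D.hom (u21 (AdjoinRoot.mk D.poly P)) : A) = 1 + aeval (a * b + b * a) P * (D.w * b) := by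
  show 1 + D.toA _ = _
  have := evalTimes_mk D.monic (c := D.w * b) (D.kill_unit 1 0) P
  simp [toA, Fin.sum_univ_two, Matrix.one_apply, unit', this]

/-- The root of `m`, as a unit. -/
noncomputable def rootUnit : D.Ring'ˣ :=
  Units.mkOfMulEqOne (AdjoinRoot.root D.poly) (AdjoinRoot.mk D.poly (invPoly D.poly)) (by
    rw [← AdjoinRoot.mk_X, ← map_mul, X_mul_invPoly D.coeff0, map_sub, map_one, map_mul,
      AdjoinRoot.mk_self, mul_zero, sub_zero])

lemma finiteDimensional : FiniteDimensional k D.Ring' :=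
  (AdjoinRoot.powerBasis D.monic.ne_zero).finite

lemma line_le {G : Subgroup Aˣ} (hla : IsLine k G a) (hlb : IsLine k G b) :
    (lineGen k (D.rootUnit : D.Ring')).map D.hom ≤ G := by
  rw [lineGen, MonoidHom.map_closure, Subgroup.closure_le]
  rintro - ⟨g, ⟨c, rfl⟩ | ⟨c, rfl⟩, rfl⟩
  · obtain ⟨h, hh, hhc⟩ := hla.2 c
    have : h = D.hom (u12 (algebraMap k D.Ring' c)) := Units.ext (by
      rw [hhc, show algebraMap k D.Ring' c = AdjoinRoot.mk D.poly (C c) from rfl, hom_u12, aeval_C,
        Algebra.smul_def])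
    exact this ▸ hh
  · obtain ⟨h, hh, hhc⟩ := hlb.2 c
    have : h = D.hom (u21 (algebraMap k D.Ring' c * (D.rootUnit : D.Ring'))) := Units.ext (by
      rw [hhc, show algebraMap k D.Ring' c * (D.rootUnit : D.Ring') = AdjoinRoot.mk D.poly (C c * X) by
        rw [map_mul, AdjoinRoot.mk_X]; rfl]
      rw [hom_u21, map_mul, aeval_C, aeval_X, mul_assoc, ← mul_assoc (a * b + b * a), D.zw_mul D.kill_b,
        Algebra.smul_def])
    exact this ▸ hh

lemma adjoin_root : Algebra.adjoin k {((D.rootUnit : D.Ring'ˣ) : D.Ring')} = ⊤ :=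
  AdjoinRoot.adjoinRoot_eq_top

variable {G : Subgroup Aˣ}

/-- All of `1 + k[z] a` lies in the commutator subgroup. -/
theorem line_full (D : CornerData k a b) (h2 : (2 : k) ≠ 0) (h3 : Nat.card k ≠ 3) (hla : IsLine k G a) (hlb : IsLine k G b)
    (P : k[X]) : IsLine k ⁅G, G⁆ (aeval (a * b + b * a) P * a) ∧
      IsLine k ⁅G, G⁆ (aeval (a * b + b * a) P * b) := by
  have := D.finiteDimensional
  have htop := upperLine_eq_top h2 h3 D.Ring' D.rootUnit D.adjoin_root
  have hle := D.line_le hla hlb
  set X' := lineGen k (D.rootUnit : D.Ring') with hX'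
  have h12 : ∀ f, u12 f ∈ X' := fun f => mem_upperLine.mp (htop ▸ Submodule.mem_top)
  have h21 : ∀ f, u21 f ∈ X' := fun f => by
    have := (u21_mem_iff (k := k) D.rootUnit (((D.rootUnit⁻¹ : D.Ring'ˣ) : D.Ring') * f)).mpr
      (htop ▸ Submodule.mem_top)
    rwa [Units.mul_inv_cancel_left] at this
  have hdiag : ∀ u, diagElem u ∈ X' := fun u =>
    mul_mem (mul_mem (mul_mem (h21 _) (h12 _)) (h21 _)) (h12 _)
  obtain ⟨c, hc0, hc1⟩ := exists_sq_ne_one h2 h3
  set u : D.Ring'ˣ := Units.map (algebraMap k D.Ring').toMonoidHom (Units.mk0 c hc0) with hu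
  have hcomm : ∀ f, u12 f ∈ ⁅X', X'⁆ := by
    intro f
    have e : ⁅diagElem u, u12 ((c ^ 2 - 1)⁻¹ • f)⁆ = u12 f := by
      have h00 : diagElem u 0 0 = algebraMap k D.Ring' c := by rw [diagElem_00]; rfl
      rw [commutatorElement_def, conj_u12_of_10 (diagElem_10 u), h00, u12_inv, ← u12_add]
      congr 1
      conv_rhs => rw [← one_smul k f, ← inv_mul_cancel₀ (sub_ne_zero.mpr hc1)]
      simp only [Algebra.smul_def, map_mul, map_sub, map_one, map_pow]
      ring
    rw [← e]; exact Subgroup.commutator_mem_commutator (hdiag _) (h12 _)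
  have hcomm' : ∀ f, u21 f ∈ ⁅X', X'⁆ := by
    intro f
    have hw : u12 1 * u21 (-1) * u12 (1 : D.Ring') ∈ X' := mul_mem (mul_mem (h12 _) (h21 _)) (h12 _)
    have e : (u12 1 * u21 (-1) * u12 (1 : D.Ring')) * u12 (-f) * (u12 1 * u21 (-1) * u12 1)⁻¹ = u21 f := by
      obtain ⟨e1, e2, e3, e4⟩ := conj_u12 (u12 1 * u21 (-1) * u12 (1 : D.Ring')) (-f)
      refine sl2_ext ?_ ?_ ?_ ?_ <;> simp only [e1, e2, e3, e4] <;> simp [mul_entry]
    rw [← e, show ∀ g x : Matrix.SpecialLinearGroup (Fin 2) D.Ring', g * x * g⁻¹ = ⁅g, x⁆ * x from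
      fun g x => by rw [commutatorElement_def]; group]
    exact mul_mem (Subgroup.commutator_mem_commutator hw (h12 _)) (hcomm _)
  have hmap : ⁅X', X'⁆.map D.hom ≤ ⁅G, G⁆ := by
    rw [Subgroup.map_commutator]; exact Subgroup.commutator_mono hle hle
  constructor
  · refine ⟨by simpa [D.sq_a] using aeval_mul_mul (commute_pairZ_left (b := b) D.sq_a) (d := a) P P,
      fun t => ⟨_, hmap ⟨_, hcomm (AdjoinRoot.mk D.poly (C t * P)), rfl⟩, ?_⟩⟩
    rw [hom_u12, map_mul, aeval_C, Algebra.smul_def, mul_assoc]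
  · refine ⟨by simpa [D.sq_b] using aeval_mul_mul (commute_pairZ_right (a := a) D.sq_b) (d := b) P P,
      fun t => ⟨_, hmap ⟨_, hcomm' (AdjoinRoot.mk D.poly (C t * P * X)), rfl⟩, ?_⟩⟩
    rw [hom_u21, map_mul, map_mul, aeval_X, aeval_C, Algebra.smul_def]
    simp only [mul_assoc]
    rw [← mul_assoc (a * b + b * a), D.zw_mul D.kill_b]

end CornerData

end Algebraic

end CfsgLib.Transpositions
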