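import Cfsg.Agent.Lib.Transpositions.RankOne

/-!
The statements about pairs of root subgroups of a quadratic pair.
-/
set_option autoImplicit false

open Cfsg
open scoped commutatorElement Pointwise

namespace CfsgLib.Transpositions

variable {k : Type*} [Field k] {M : Type*} [AddCommGroup M] [Module k M] [FiniteDimensional k M]
variable {G : Subgroup (LinearMap.GeneralLinearGroup k M)} {a b c : Module.End k M}

open LinearMap (range ker)

/-- The join of a bracket pair lies in the unipotent core of the bracket. -/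
lemma BracketData.core (h2 : (2 : k) ≠ 0) (h3 : Nat.card k ≠ 3) (D : BracketData G a b)
    (ha : IsMinLine G a) (hb : IsMinLine G b) :
    ((classGroup ha ⊔ classGroup hb : Subgroup (LinearMap.GeneralLinearGroup k M)) :
        Set (LinearMap.GeneralLinearGroup k M)) ⊆ Cfsg.quadraticUnipotentCore G (classGroup D.min) := by
  intro g hg
  obtain ⟨cA, cB⟩ := D.centralize ha hb
  obtain ⟨f1, f2, f3⟩ := D.flag h2 h3 ha hb hg
  refine ⟨sup_le (classGroup_le ha) (classGroup_le hb) hg,
    Subgroup.centralizer_le_normalizer _ (sup_le cA cB hg), ?_, ?_, ?_⟩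
  · rw [fixedSubmodule_classGroup]; exact f1
  · rw [fixedSubmodule_classGroup, commutatorSubmodule_classGroup]; exact f2
  · rw [commutatorSubmodule_classGroup]; exact f3

/-- Full description of a pair with vanishing triple products. -/
theorem pair_unip_alternative (h2 : (2 : k) ≠ 0) (h3 : Nat.card k ≠ 3) (hN : NoUnip G)
    (ha : IsMinLine G a) (hb : IsMinLine G b) (ht : a * b * a = 0) :
    ⁅classGroup ha, classGroup hb⁆ = ⊥ ∨
    (⁅classGroup ha, classGroup hb⁆ ∈ Cfsg.quadraticRootSubgroups G ∧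
      (∀ e ∈ classGroup ha, e ≠ 1 → Subgroup.closure ((fun f : LinearMap.GeneralLinearGroup k M => e * f * e⁻¹ * f⁻¹) ''
          (classGroup hb : Set (LinearMap.GeneralLinearGroup k M))) = ⁅classGroup ha, classGroup hb⁆) ∧
      (∀ f ∈ classGroup hb, f ≠ 1 → Subgroup.closure ((fun e : LinearMap.GeneralLinearGroup k M => e * f * e⁻¹ * f⁻¹) ''
          (classGroup ha : Set (LinearMap.GeneralLinearGroup k M))) = ⁅classGroup ha, classGroup hb⁆) ∧
      ⁅classGroup ha ⊔ classGroup hb, classGroup ha ⊔ classGroup hb⁆ ≠ ⊥ ∧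
      ⁅⁅classGroup ha ⊔ classGroup hb, classGroup ha ⊔ classGroup hb⁆, classGroup ha ⊔ classGroup hb⁆ = ⊥ ∧
      ((classGroup ha ⊔ classGroup hb : Subgroup (LinearMap.GeneralLinearGroup k M)) :
          Set (LinearMap.GeneralLinearGroup k M)) ⊆ Cfsg.quadraticUnipotentCore G ⁅classGroup ha, classGroup hb⁆) := by
  by_cases hab : a * b = b * a
  · exact Or.inl (commutator_eq_bot h2 h3 ha hb hab)
  have D := bracketData ha hb ht (triple_symm h2 h3 ha hb ht) (sub_ne_zero.mpr hab)
  obtain ⟨e1, e2⟩ := D.class_two h2 h3 hN ha hb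
  refine Or.inr ?_
  rw [D.commutator_eq h2 h3 hN ha hb, e1]
  exact ⟨classGroup_mem D.min, fun e he he1 => D.closure_left h2 h3 hN ha hb he he1,
    fun f hf hf1 => D.closure_right h2 h3 hN ha hb hf hf1, classGroup_ne_bot D.min, e2, D.core h2 h3 ha hb⟩

/-- The commutation criterion. -/
theorem pair_commute_criterion (h2 : (2 : k) ≠ 0) (h3 : Nat.card k ≠ 3)
    (ha : IsMinLine G a) (hb : IsMinLine G b)
    (h : (∃ e ∈ classGroup ha, e ≠ 1 ∧ ∃ f ∈ classGroup hb, f ≠ 1 ∧ e * f = f * e) ∨
      classGroup ha ⊓ Subgroup.normalizer (classGroup hb : Set (LinearMap.GeneralLinearGroup k M)) ≠ ⊥) :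
    ⁅classGroup ha, classGroup hb⁆ = ⊥ := by
  refine commutator_eq_bot h2 h3 ha hb ?_
  rcases h with ⟨e, he, he1, f, hf, hf1, hef⟩ | h
  · obtain ⟨hx, hax⟩ := classGroup_min he he1
    obtain ⟨hy, hby⟩ := classGroup_min hf hf1
    refine comm_of_comm' h2 h3 hx hy ha hb hax.symm hby.symm ?_
    have := congrArg (fun z : (Module.End k M)ˣ => (z : Module.End k M)) hef
    simp only [Units.val_mul] at this
    simp only [sub_mul, mul_sub, one_mul, mul_one, this]
    abel
  · obtain ⟨⟨g, hg⟩, hg1'⟩ := Subgroup.ne_bot_iff_exists_ne_one.mp h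
    have hg1 : g ≠ 1 := fun h1 => hg1' (Subtype.ext h1)
    exact comm_of_normalize h2 h3 ha hb hg.1 hg1 hg.2

lemma IsPartner.idem (h : IsPartner G a c) : (a * c + c * a) * (a * c + c * a) = a * c + c * a := by
  simp only [add_mul, mul_add, mul_assoc, h.aca, h.cac, h.1.sq, h.2.1.sq, mul_zero, add_zero, zero_add]
  rw [← mul_assoc a a, h.1.sq, ← mul_assoc c c, h.2.1.sq]
  simp

lemma IsPartner.fixedSubmodule_eq (h : IsPartner G a c) :
    Cfsg.fixedSubmodule (classGroup h.1 ⊔ classGroup h.2.1) = ker (a * c + c * a) := by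
  refine le_antisymm (fun m hm => ?_) (le_iInf₂ fun g hg m hm => ?_)
  · rw [Cfsg.fixedSubmodule] at hm
    simp only [Submodule.mem_iInf, LinearMap.mem_ker] at hm
    obtain ⟨g, hg, e⟩ := exists_line_mem_classGroup h.1
    obtain ⟨g', hg', e'⟩ := exists_line_mem_classGroup h.2.1
    have h1 := hm g (le_sup_left (b := classGroup h.2.1) hg)
    have h1' := hm g' (le_sup_right (a := classGroup h.1) hg')
    rw [show ((g : Module.End k M)) - 1 = a by rw [e, add_sub_cancel_left]] at h1
    rw [show ((g' : Module.End k M)) - 1 = c by rw [e', add_sub_cancel_left]] at h1'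
    simp [LinearMap.mem_ker, h1, h1']
  · rw [LinearMap.mem_ker]
    have := LinearMap.congr_fun (h.support hg).2 m
    rw [Module.End.mul_apply, LinearMap.mem_ker.mp hm, map_zero] at this
    exact this.symm

lemma IsPartner.commutatorSubmodule_eq (h : IsPartner G a c) :
    Cfsg.commutatorSubmodule (classGroup h.1 ⊔ classGroup h.2.1) = range (a * c + c * a) := by
  refine le_antisymm (iSup₂_le fun g hg => ?_) ?_
  · show range ((g : Module.End k M) - 1) ≤ _
    rw [← (h.support hg).1]
    exact range_mul_le _ _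
  · rintro - ⟨m, rfl⟩
    rw [Cfsg.commutatorSubmodule]
    obtain ⟨g, hg, e⟩ := exists_line_mem_classGroup h.1
    obtain ⟨g', hg', e'⟩ := exists_line_mem_classGroup h.2.1
    refine add_mem ?_ ?_
    · refine Submodule.mem_iSup_of_mem g (Submodule.mem_iSup_of_mem (le_sup_left (b := classGroup h.2.1) hg) ⟨c m, ?_⟩)
      rw [show ((g : Module.End k M)) - 1 = a by rw [e, add_sub_cancel_left]]; rfl
    · refine Submodule.mem_iSup_of_mem g' (Submodule.mem_iSup_of_mem (le_sup_right (a := classGroup h.1) hg') ⟨a m, ?_⟩)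
      rw [show ((g' : Module.End k M)) - 1 = c by rw [e', add_sub_cancel_left]]; rfl

/-- The central involution of an opposite pair. -/
theorem IsPartner.involution (h2 : (2 : k) ≠ 0) (h : IsPartner G a c) :
    (∃! i : LinearMap.GeneralLinearGroup k M, i ∈ classGroup h.1 ⊔ classGroup h.2.1 ∧ i ≠ 1 ∧ i * i = 1 ∧
        (∀ x ∈ classGroup h.1 ⊔ classGroup h.2.1, i * x = x * i) ∧
        (∀ m ∈ Cfsg.commutatorSubmodule (classGroup h.1 ⊔ classGroup h.2.1), (i : M →ₗ[k] M) m = -m) ∧
        (∀ m ∈ Cfsg.fixedSubmodule (classGroup h.1 ⊔ classGroup h.2.1), (i : M →ₗ[k] M) m = m)) ∧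
      IsCompl (Cfsg.fixedSubmodule (classGroup h.1 ⊔ classGroup h.2.1))
        (Cfsg.commutatorSubmodule (classGroup h.1 ⊔ classGroup h.2.1)) := by
  set H := classGroup h.1 ⊔ classGroup h.2.1 with hH
  have hHG : H ≤ G := sup_le (classGroup_le _) (classGroup_le _)
  have lineH : ∀ {p : Module.End k M} (hp : IsMinLine G p), classGroup hp ≤ H → IsMinLine H p := by
    intro p hp hle
    refine ⟨⟨hp.sq, fun t => ?_⟩, hp.2.1, fun y hy => hp.2.2 y (hy.mono hHG)⟩
    obtain ⟨g, hg, e⟩ := exists_mem_classGroup (Submodule.smul_mem (classSpace G hp) t (self_mem_classSpace hp))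
    exact ⟨g, hle hg, e⟩
  have hcH : IsPartner H a c := ⟨lineH h.1 le_sup_left, lineH h.2.1 le_sup_right, h.2.2.1, h.2.2.2⟩
  obtain ⟨i, hi, ei⟩ := hcH.exists_torus (neg_ne_zero.mpr (one_ne_zero (α := k)))
  set E := a * c + c * a with hE
  have ei' : (i : Module.End k M) = 1 - (2 : k) • E := by
    rw [ei, inv_neg, inv_one, hE]; module
  have hEE : E * E = E := h.idem
  have key1 : ∀ m ∈ range E, (i : Module.End k M) m = -m := by
    rintro - ⟨m, rfl⟩
    rw [ei', LinearMap.sub_apply, LinearMap.smul_apply, Module.End.one_apply, ← Module.End.mul_apply, hEE]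
    module
  have key0 : ∀ m ∈ ker E, (i : Module.End k M) m = m := fun m hm => by
    rw [ei', LinearMap.sub_apply, LinearMap.smul_apply, Module.End.one_apply, LinearMap.mem_ker.mp hm, smul_zero,
      sub_zero]
  have hcompl : IsCompl (ker E) (range E) :=
    (LinearMap.IsProj.isCompl ⟨fun m => LinearMap.mem_range_self E m, fun m hm => by
      obtain ⟨n, rfl⟩ := hm; exact LinearMap.congr_fun hEE n⟩).symm
  rw [h.fixedSubmodule_eq, h.commutatorSubmodule_eq]
  refine ⟨⟨i, ⟨hi, ?_, ?_, fun x hx => ?_, key1, key0⟩, ?_⟩, hcompl⟩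
  · intro h1
    have : (2 : k) • E = 0 := by
      have := congrArg (fun z : (Module.End k M)ˣ => (z : Module.End k M)) h1
      simpa [ei'] using this
    rw [smul_eq_zero, or_iff_right h2] at this
    refine h.1.2.1 ?_
    have e := congrArg (fun z => z * a) this
    rwa [hE, add_mul, h.2.2.1, mul_assoc c a a, h.1.sq, mul_zero, add_zero, zero_mul] at e
  · refine Units.ext ?_
    rw [Units.val_mul, Units.val_one, ei', sub_mul, one_mul, mul_sub, mul_one, smul_mul_assoc, mul_smul_comm, hEE]
    module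
  · refine Units.ext ?_
    obtain ⟨s1, s2⟩ := h.support hx
    rw [mul_sub, mul_one] at s1
    rw [sub_mul, one_mul] at s2
    have hcomm : E * (x : Module.End k M) = (x : Module.End k M) * E := by
      rw [eq_add_of_sub_eq s1, eq_add_of_sub_eq s2]
    rw [Units.val_mul, Units.val_mul, ei', sub_mul, mul_sub, one_mul, mul_one, smul_mul_assoc, mul_smul_comm, hcomm]
  · rintro j ⟨-, -, -, -, j1, j0⟩
    refine Units.ext (LinearMap.ext fun m => ?_)
    obtain ⟨u, hu, v, hv, rfl⟩ := Submodule.mem_sup.mp (hcompl.sup_eq_top ▸ Submodule.mem_top (x := m))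
    show (j : Module.End k M) (u + v) = (i : Module.End k M) (u + v)
    rw [map_add, map_add, j0 u hu, j1 v hv, key0 u hu, key1 v hv]

end CfsgLib.Transpositions
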