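import Cfsg.Agent.Lib.Transpositions.Surjective

/-!
Pairs of class groups: commuting, bracket, or rank one with an opposite.
-/
set_option autoImplicit false

open scoped commutatorElement Pointwise

namespace CfsgLib.Transpositions

/-- Central commutators of generators give all commutators. -/
lemma commutator_sup_le {Γ : Type*} [Group Γ] {E F L : Subgroup Γ}
    (hE : E ≤ Subgroup.centralizer (L : Set Γ)) (hF : F ≤ Subgroup.centralizer (L : Set Γ))
    (hEE : ⁅E, E⁆ ≤ L) (hFF : ⁅F, F⁆ ≤ L) (hEF : ⁅E, F⁆ ≤ L) : ⁅E ⊔ F, E ⊔ F⁆ ≤ L := by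
  have hgen : ∀ g ∈ (E : Set Γ) ∪ F, ∀ h ∈ (E : Set Γ) ∪ F, ⁅g, h⁆ ∈ L := by
    rintro g (hg | hg) h (hh | hh)
    · exact hEE (Subgroup.commutator_mem_commutator hg hh)
    · exact hEF (Subgroup.commutator_mem_commutator hg hh)
    · rw [← commutatorElement_inv]; exact L.inv_mem (hEF (Subgroup.commutator_mem_commutator hh hg))
    · exact hFF (Subgroup.commutator_mem_commutator hg hh)
  have hcl : E ⊔ F = Subgroup.closure ((E : Set Γ) ∪ F) := by
    rw [Subgroup.closure_union, Subgroup.closure_eq, Subgroup.closure_eq]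
  have hC : E ⊔ F ≤ Subgroup.centralizer (L : Set Γ) := sup_le hE hF
  have fixL : ∀ g ∈ E ⊔ F, ∀ l ∈ L, g * l * g⁻¹ = l := fun g hg l hl => by
    rw [← Subgroup.mem_centralizer_iff.mp (hC hg) l hl, mul_inv_cancel_right]
  have step : ∀ g ∈ E ⊔ F, ∀ h ∈ (E : Set Γ) ∪ F, ⁅g, h⁆ ∈ L := by
    intro g hg
    rw [hcl] at hg
    induction hg using Subgroup.closure_induction with
    | mem g hg => exact hgen g hg
    | one => intro h _; rw [commutatorElement_one_left]; exact L.one_mem
    | inv g hg ih =>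
      intro h hh
      have e : ⁅g⁻¹, h⁆ = g⁻¹ * ⁅g, h⁆⁻¹ * g⁻¹⁻¹ := by simp [commutatorElement_def, mul_assoc]
      rw [e, fixL _ (inv_mem (hcl ▸ hg)) _ (L.inv_mem (ih h hh))]
      exact L.inv_mem (ih h hh)
    | mul g g' hg _ ih ih' =>
      intro h hh
      have e : ⁅g * g', h⁆ = g * ⁅g', h⁆ * g⁻¹ * ⁅g, h⁆ := by simp [commutatorElement_def, mul_assoc]
      rw [e, fixL _ (hcl ▸ hg) _ (ih' h hh)]
      exact L.mul_mem (ih' h hh) (ih h hh)
  rw [Subgroup.commutator_le]
  intro g hg h hh
  rw [hcl] at hh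
  induction hh using Subgroup.closure_induction with
  | mem h hh => exact step g hg h hh
  | one => rw [commutatorElement_one_right]; exact L.one_mem
  | inv h hh ih =>
    have e : ⁅g, h⁻¹⁆ = h⁻¹ * ⁅g, h⁆⁻¹ * h⁻¹⁻¹ := by simp [commutatorElement_def, mul_assoc]
    rw [e, fixL _ (inv_mem (hcl ▸ hh)) _ (L.inv_mem ih)]
    exact L.inv_mem ih
  | mul h h' hh _ ih ih' =>
    have e : ⁅g, h * h'⁆ = ⁅g, h⁆ * (h * ⁅g, h'⁆ * h⁻¹) := by simp [commutatorElement_def, mul_assoc]
    rw [e, fixL _ (hcl ▸ hh) _ ih']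
    exact L.mul_mem ih ih'

variable {k : Type*} [Field k] {M : Type*} [AddCommGroup M] [Module k M] [FiniteDimensional k M]
variable {G : Subgroup (Module.End k M)ˣ} {a b c x y : Module.End k M}

open LinearMap (range ker)

lemma line_inv_val {g : (Module.End k M)ˣ} (h : (g : Module.End k M) = 1 + x) (hx : x * x = 0) :
    ((g⁻¹ : (Module.End k M)ˣ) : Module.End k M) = 1 - x :=
  Units.inv_eq_of_mul_eq_one_right (by rw [h, add_mul, one_mul, mul_sub, mul_one, hx]; abel)

lemma commutator_line {g h : (Module.End k M)ˣ} (hg : (g : Module.End k M) = 1 + x)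
    (hh : (h : Module.End k M) = 1 + y) (hx : x * x = 0) (hy : y * y = 0) (h1 : x * y * x = 0)
    (h2 : y * x * y = 0) : ((⁅g, h⁆ : (Module.End k M)ˣ) : Module.End k M) = 1 + (x * y - y * x) := by
  rw [commutatorElement_def, Units.val_mul, Units.val_mul, Units.val_mul, hg, hh, line_inv_val hg hx,
    line_inv_val hh hy, commutator_val hx hy h1 h2]

lemma classGroup_val {ha : IsMinLine G a} {g : (Module.End k M)ˣ} (hg : g ∈ classGroup ha) :
    ∃ x ∈ classSpace G ha, (g : Module.End k M) = 1 + x :=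
  ⟨_, hg, by abel⟩

lemma classGroup_min {ha : IsMinLine G a} {g : (Module.End k M)ˣ} (hg : g ∈ classGroup ha) (hg1 : g ≠ 1) :
    IsMinLine G ((g : Module.End k M) - 1) ∧ SameAction a ((g : Module.End k M) - 1) :=
  hg.resolve_left fun h => hg1 (Units.ext (sub_eq_zero.mp h))

/-- Classes containing one commuting pair commute. -/
lemma commutator_eq_bot (h2 : (2 : k) ≠ 0) (h3 : Nat.card k ≠ 3) (ha : IsMinLine G a) (hb : IsMinLine G b)
    (hab : a * b = b * a) : ⁅classGroup ha, classGroup hb⁆ = ⊥ := by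
  rw [eq_bot_iff, Subgroup.commutator_le]
  intro g hg h hh
  obtain ⟨x, hx, ex⟩ := classGroup_val hg
  obtain ⟨y, hy, ey⟩ := classGroup_val hh
  have hxy : x * y = y * x := by
    rcases hx with rfl | ⟨hx, hax⟩
    · simp
    rcases hy with rfl | ⟨hy, hby⟩
    · simp
    exact comm_of_comm' h2 h3 ha hb hx hy hax hby hab
  rw [Subgroup.mem_bot, commutatorElement_eq_one_iff_mul_comm]
  refine Units.ext ?_
  simp only [Units.val_mul, ex, ey, add_mul, mul_add, one_mul, mul_one, hxy]
  abel

/-- Brackets of members of the classes lie in the class of the bracket. -/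
lemma BracketData.bracket_mem (h2 : (2 : k) ≠ 0) (h3 : Nat.card k ≠ 3) (D : BracketData G a b)
    (ha : IsMinLine G a) (hb : IsMinLine G b) (hx : x ∈ classSpace G ha) (hy : y ∈ classSpace G hb) :
    x * y - y * x ∈ classSpace G D.min := by
  rcases hx with rfl | ⟨hx, hax⟩
  · simp
  rcases hy with rfl | ⟨hy, hby⟩
  · simp
  rcases eq_or_ne (x * y - y * x) 0 with h0 | h0
  · rw [h0]; exact zero_mem _
  have haba : a * b * a = 0 := by
    have := D.mul_a
    rwa [sub_mul, mul_assoc b a a, ha.sq, mul_zero, sub_zero] at this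
  have t := triple_class h2 h3 ha hb hx hy hax hby haba
  have D' := bracketData hx hy t (triple_symm h2 h3 hx hy t) h0
  exact Or.inr ⟨D'.min, D.same D' hax hby⟩

lemma BracketData.triple (D : BracketData G a b) (ha : a * a = 0) : a * b * a = 0 := by
  have := D.mul_a
  rwa [sub_mul, mul_assoc b a a, ha, mul_zero, sub_zero] at this

lemma BracketData.not_comm (D : BracketData G a b) : a * b ≠ b * a := fun h => D.min.2.1 (by rw [h, sub_self])

lemma BracketData.commutator_mem (h2 : (2 : k) ≠ 0) (h3 : Nat.card k ≠ 3) (D : BracketData G a b)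
    (ha : IsMinLine G a) (hb : IsMinLine G b) {g h : (Module.End k M)ˣ} (hg : g ∈ classGroup ha)
    (hh : h ∈ classGroup hb) : ⁅g, h⁆ ∈ classGroup D.min := by
  obtain ⟨x, hx, ex⟩ := classGroup_val hg
  obtain ⟨y, hy, ey⟩ := classGroup_val hh
  have t : x * y * x = 0 ∧ y * x * y = 0 := by
    rcases hx with rfl | ⟨hx, hax⟩
    · simp
    rcases hy with rfl | ⟨hy, hby⟩
    · simp
    have t := triple_class h2 h3 ha hb hx hy hax hby (D.triple ha.sq)
    exact ⟨t, triple_symm h2 h3 hx hy t⟩
  rw [mem_classGroup, commutator_line ex ey (classSpace.mul_eq_zero hx hx) (classSpace.mul_eq_zero hy hy) t.1 t.2,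
    add_sub_cancel_left]
  exact D.bracket_mem h2 h3 ha hb hx hy

/-- The commutators of one non-trivial `g` with the other class fill the bracket class. -/
lemma BracketData.exists_commutator_eq_left (h2 : (2 : k) ≠ 0) (h3 : Nat.card k ≠ 3) (hN : NoUnip G)
    (D : BracketData G a b) (ha : IsMinLine G a) (hb : IsMinLine G b) {g : (Module.End k M)ˣ}
    (hg : g ∈ classGroup ha) (hg1 : g ≠ 1) {l : (Module.End k M)ˣ} (hl : l ∈ classGroup D.min) :
    ∃ h ∈ classGroup hb, g * h * g⁻¹ * h⁻¹ = l := by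
  rcases eq_or_ne l 1 with rfl | hl1
  · exact ⟨1, one_mem _, by simp⟩
  obtain ⟨hw, huw⟩ := classGroup_min hl hl1
  obtain ⟨hx, hax⟩ := classGroup_min hg hg1
  set x := (g : Module.End k M) - 1 with hxdef
  have t : x * b * x = 0 := hax.triple_eq_zero (D.triple ha.sq)
  have hne : x * b - b * x ≠ 0 := fun h0 => D.not_comm
    (comm_of_comm h2 h3 hx hb ha hax.symm (sub_eq_zero.mp h0))
  have D' := bracketData hx hb t (triple_symm h2 h3 hx hb t) hne
  obtain ⟨f, hf, hbf, hfw⟩ := D'.exists_bracket_eq h2 h3 hN hx hb hw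
    ((D.same D' hax (.refl b)).symm.trans huw)
  obtain ⟨h, hh, eh⟩ := exists_mem_classGroup (ha := hb) (Or.inr ⟨hf, hbf⟩)
  refine ⟨h, hh, ?_⟩
  have t' : x * f * x = 0 := triple_class h2 h3 hx hb hx hf (.refl x) hbf t
  refine Units.ext ?_
  rw [← commutatorElement_def, commutator_line (by rw [hxdef]; abel) eh hx.sq hf.sq t'
    (triple_symm h2 h3 hx hf t'), hfw]
  abel

lemma BracketData.exists_commutator_eq_right (h2 : (2 : k) ≠ 0) (h3 : Nat.card k ≠ 3) (hN : NoUnip G)
    (D : BracketData G a b) (ha : IsMinLine G a) (hb : IsMinLine G b) {h : (Module.End k M)ˣ}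
    (hh : h ∈ classGroup hb) (hh1 : h ≠ 1) {l : (Module.End k M)ˣ} (hl : l ∈ classGroup D.min) :
    ∃ g ∈ classGroup ha, g * h * g⁻¹ * h⁻¹ = l := by
  have hs : SameAction (a * b - b * a) (b * a - a * b) := by
    have := (D.min.smul (neg_ne_zero.mpr (one_ne_zero (α := k)))).2
    rwa [neg_one_smul, neg_sub] at this
  have hl' : l⁻¹ ∈ classGroup D.symm.min := by
    rw [← classGroup_congr D.min D.symm.min hs]; exact inv_mem hl
  obtain ⟨g, hg, e⟩ := D.symm.exists_commutator_eq_left h2 h3 hN hb ha hh hh1 hl'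
  refine ⟨g, hg, ?_⟩
  rw [← inv_inj, ← e]
  group

theorem BracketData.commutator_eq (h2 : (2 : k) ≠ 0) (h3 : Nat.card k ≠ 3) (hN : NoUnip G)
    (D : BracketData G a b) (ha : IsMinLine G a) (hb : IsMinLine G b) :
    ⁅classGroup ha, classGroup hb⁆ = classGroup D.min := by
  refine le_antisymm (Subgroup.commutator_le.mpr fun g hg h hh => D.commutator_mem h2 h3 ha hb hg hh) ?_
  intro l hl
  obtain ⟨g, hg, e⟩ := exists_line_mem_classGroup ha
  have hg1 : g ≠ 1 := fun h => ha.2.1 (by simpa [h] using e)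
  obtain ⟨h, hh, el⟩ := D.exists_commutator_eq_left h2 h3 hN ha hb hg hg1 hl
  rw [← el]; exact Subgroup.commutator_mem_commutator hg hh

theorem BracketData.closure_left (h2 : (2 : k) ≠ 0) (h3 : Nat.card k ≠ 3) (hN : NoUnip G)
    (D : BracketData G a b) (ha : IsMinLine G a) (hb : IsMinLine G b) {g : (Module.End k M)ˣ}
    (hg : g ∈ classGroup ha) (hg1 : g ≠ 1) :
    Subgroup.closure ((fun h => g * h * g⁻¹ * h⁻¹) '' (classGroup hb : Set (Module.End k M)ˣ)) =
      classGroup D.min := by
  refine le_antisymm ((Subgroup.closure_le _).mpr ?_) fun l hl => Subgroup.subset_closure ?_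
  · rintro - ⟨h, hh, rfl⟩; exact D.commutator_mem h2 h3 ha hb hg hh
  · exact D.exists_commutator_eq_left h2 h3 hN ha hb hg hg1 hl

theorem BracketData.closure_right (h2 : (2 : k) ≠ 0) (h3 : Nat.card k ≠ 3) (hN : NoUnip G)
    (D : BracketData G a b) (ha : IsMinLine G a) (hb : IsMinLine G b) {h : (Module.End k M)ˣ}
    (hh : h ∈ classGroup hb) (hh1 : h ≠ 1) :
    Subgroup.closure ((fun g => g * h * g⁻¹ * h⁻¹) '' (classGroup ha : Set (Module.End k M)ˣ)) =
      classGroup D.min := by
  refine le_antisymm ((Subgroup.closure_le _).mpr ?_) fun l hl => Subgroup.subset_closure ?_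
  · rintro - ⟨g, hg, rfl⟩; exact D.commutator_mem h2 h3 ha hb hg hh
  · exact D.exists_commutator_eq_right h2 h3 hN ha hb hh hh1 hl

lemma BracketData.centralize (D : BracketData G a b) (ha : IsMinLine G a) (hb : IsMinLine G b) :
    classGroup ha ≤ Subgroup.centralizer (classGroup D.min : Set (Module.End k M)ˣ) ∧
      classGroup hb ≤ Subgroup.centralizer (classGroup D.min : Set (Module.End k M)ˣ) := by
  have key : ∀ {p : Module.End k M} (hp : IsMinLine G p), p * (a * b - b * a) = 0 →
      (a * b - b * a) * p = 0 → classGroup hp ≤ Subgroup.centralizer (classGroup D.min : Set (Module.End k M)ˣ) := by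
    intro p hp h1 h1' g hg l hl
    obtain ⟨x, hx, ex⟩ := classGroup_val hg
    obtain ⟨z, hz, ez⟩ := classGroup_val hl
    have e1 : x * z = 0 := classSpace.mul_left hx (classSpace.mul_right hz h1)
    have e2 : z * x = 0 := classSpace.mul_left hz (classSpace.mul_right hx h1')
    refine Units.ext ?_
    simp only [Units.val_mul, ex, ez, add_mul, mul_add, one_mul, mul_one, e1, e2]
    abel
  exact ⟨key ha D.a_mul D.mul_a, key hb D.b_mul D.mul_b⟩

/-- The join of a bracket pair is nilpotent of class two. -/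
theorem BracketData.class_two (h2 : (2 : k) ≠ 0) (h3 : Nat.card k ≠ 3) (hN : NoUnip G)
    (D : BracketData G a b) (ha : IsMinLine G a) (hb : IsMinLine G b) :
    ⁅classGroup ha ⊔ classGroup hb, classGroup ha ⊔ classGroup hb⁆ = classGroup D.min ∧
    ⁅classGroup D.min, classGroup ha ⊔ classGroup hb⁆ = ⊥ := by
  obtain ⟨cA, cB⟩ := D.centralize ha hb
  refine ⟨le_antisymm (commutator_sup_le cA cB ?_ ?_ ?_) ?_, ?_⟩
  · rw [Subgroup.commutator_eq_bot_iff_le_centralizer.mpr fun g hg h hh => classGroup_comm hh hg]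
    exact bot_le
  · rw [Subgroup.commutator_eq_bot_iff_le_centralizer.mpr fun g hg h hh => classGroup_comm hh hg]
    exact bot_le
  · exact Subgroup.commutator_le.mpr fun g hg h hh => D.commutator_mem h2 h3 ha hb hg hh
  · rw [← D.commutator_eq h2 h3 hN ha hb]
    exact Subgroup.commutator_mono le_sup_left le_sup_right
  · rw [Subgroup.commutator_eq_bot_iff_le_centralizer]
    intro l hl g hg
    exact (Subgroup.mem_centralizer_iff.mp (sup_le cA cB hg) l hl).symm

/-- The three flag conditions of the bracket on the whole join. -/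
theorem BracketData.flag (h2 : (2 : k) ≠ 0) (h3 : Nat.card k ≠ 3) (D : BracketData G a b)
    (ha : IsMinLine G a) (hb : IsMinLine G b)
    {g : (Module.End k M)ˣ} (hg : g ∈ classGroup ha ⊔ classGroup hb) :
    (∀ m, (g : Module.End k M) m - m ∈ ker (a * b - b * a)) ∧
    (∀ m ∈ ker (a * b - b * a), (g : Module.End k M) m - m ∈ range (a * b - b * a)) ∧
    (∀ m ∈ range (a * b - b * a), (g : Module.End k M) m = m) := by
  set u := a * b - b * a with hu
  have key : ∀ {p q : Module.End k M} (hp : IsMinLine G p), IsMinLine G q →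
      range p ⊓ ker q ≤ range u → ker u ≤ ker p ⊔ range q → p * q * p = 0 → p * u = 0 → u * p = 0 →
      ∀ x ∈ classSpace G hp,
      (∀ m, x m ∈ ker u) ∧ (∀ m ∈ ker u, x m ∈ range u) ∧ (∀ m ∈ range u, x m = 0) := by
    intro p q hp hq hRu hK hpqp h1 h1' x hx
    rcases hx with rfl | ⟨hx, hpx⟩
    · simp
    have hux : u * x = 0 := hpx.mul_eq_zero_right h1'
    have hxu : x * u = 0 := hpx.mul_eq_zero_left h1
    have hqxq : q * x * q = 0 :=
      triple_symm h2 h3 hx hq (triple_class h2 h3 hp hq hx hq hpx (.refl q) hpqp)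
    refine ⟨fun m => LinearMap.mem_ker.mpr (LinearMap.congr_fun hux m), fun m hm => hRu ⟨?_, ?_⟩, ?_⟩
    · exact hpx.1 ▸ LinearMap.mem_range_self x m
    · obtain ⟨m1, hm1, -, ⟨m2, rfl⟩, rfl⟩ := Submodule.mem_sup.mp (hK hm)
      have hm1' : x m1 = 0 := LinearMap.mem_ker.mp (hpx.2.symm ▸ hm1)
      rw [map_add, hm1', zero_add]
      exact LinearMap.congr_fun hqxq m2
    · rintro - ⟨m, rfl⟩; exact LinearMap.congr_fun hxu m
  have hA := key ha hb (by rw [D.range_eq]; exact le_sup_left) (by rw [D.ker_eq]; exact inf_le_right)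
    (D.triple ha.sq) D.a_mul D.mul_a
  have hB := key hb ha (by rw [D.range_eq]; exact le_sup_right) (by rw [D.ker_eq]; exact inf_le_left)
    (triple_symm h2 h3 ha hb (D.triple ha.sq)) D.b_mul D.mul_b
  have hle : range u ≤ ker u := mem_of_mul_eq_zero D.min.sq
  rw [← Subgroup.closure_eq (classGroup ha), ← Subgroup.closure_eq (classGroup hb), ← Subgroup.closure_union] at hg
  induction hg using Subgroup.closure_induction with
  | mem g hg =>
    rcases hg with hg | hg
    · simpa [LinearMap.sub_apply, sub_eq_zero] using hA _ hg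
    · simpa [LinearMap.sub_apply, sub_eq_zero] using hB _ hg
  | one => simp
  | inv g _ ih =>
    obtain ⟨f1, f2, f3⟩ := ih
    have hgi : ∀ m, (g : Module.End k M) (((g⁻¹ : (Module.End k M)ˣ) : Module.End k M) m) = m := fun m => by
      rw [← Module.End.mul_apply, Units.mul_inv]; rfl
    refine ⟨fun m => ?_, fun m hm => ?_, fun m hm => ?_⟩
    · have := neg_mem (f1 (((g⁻¹ : (Module.End k M)ˣ) : Module.End k M) m))
      rwa [hgi, neg_sub] at this
    · set n := ((g⁻¹ : (Module.End k M)ˣ) : Module.End k M) m with hn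
      have h' := f1 n
      rw [hgi] at h'
      have hn' : n ∈ ker u := by rw [show n = m - (m - n) by abel]; exact sub_mem hm h'
      have := neg_mem (f2 n hn')
      rwa [hgi, neg_sub] at this
    · have : ((g⁻¹ : (Module.End k M)ˣ) : Module.End k M) ((g : Module.End k M) m) = m := by
        rw [← Module.End.mul_apply, Units.inv_mul]; rfl
      rwa [f3 m hm] at this
  | mul g g' _ _ ih ih' =>
    obtain ⟨f1, f2, f3⟩ := ih
    obtain ⟨e1, e2, e3⟩ := ih'
    have split : ∀ m, ((g * g' : (Module.End k M)ˣ) : Module.End k M) m - m =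
        ((g : Module.End k M) ((g' : Module.End k M) m) - (g' : Module.End k M) m) +
          ((g' : Module.End k M) m - m) := fun m => by rw [Units.val_mul, Module.End.mul_apply]; abel
    refine ⟨fun m => split m ▸ add_mem (f1 _) (e1 m), fun m hm => split m ▸ add_mem (f2 _ ?_) (e2 m hm),
      fun m hm => ?_⟩
    · rw [show (g' : Module.End k M) m = ((g' : Module.End k M) m - m) + m by abel]
      exact add_mem (e1 m) hm
    · rw [Units.val_mul, Module.End.mul_apply, e3 m hm, f3 m hm]

/-- An element normalising another class group centralises it. -/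
theorem comm_of_normalize (h2 : (2 : k) ≠ 0) (h3 : Nat.card k ≠ 3) (ha : IsMinLine G a) (hb : IsMinLine G b)
    {g : (Module.End k M)ˣ} (hg : g ∈ classGroup ha) (hg1 : g ≠ 1)
    (hn : g ∈ Subgroup.normalizer (classGroup hb : Set (Module.End k M)ˣ)) : a * b = b * a := by
  obtain ⟨hx, hax⟩ := classGroup_min hg hg1
  set x := (g : Module.End k M) - 1 with hxdef
  have hgx : (g : Module.End k M) = 1 + x := by rw [hxdef]; abel
  suffices x * b = b * x from comm_of_comm h2 h3 hx hb ha hax.symm this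
  have conjmem : ∀ {y}, y ∈ classSpace G hb → (1 + x) * y * (1 - x) ∈ classSpace G hb := by
    intro y hy
    obtain ⟨h, hh, eh⟩ := exists_mem_classGroup hy
    have := (Subgroup.mem_normalizer_iff.mp hn h).mp hh
    rw [mem_classGroup, conjUnits_val, eh, add_sub_cancel_left, hgx, line_inv_val hgx hx.sq] at this
    exact this
  rcases dichotomy h2 h3 hx hb with ⟨t1, t2⟩ | ⟨-, c, hbc, hc⟩
  · by_contra hne
    have D := bracketData hx hb t1 t2 (sub_ne_zero.mpr hne)
    have e : (1 + x) * b * (1 - x) = b + (x * b - b * x) := by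
      simp only [add_mul, one_mul, mul_sub, mul_one, t1]; abel
    have hmem := sub_mem (conjmem (self_mem_classSpace hb)) (self_mem_classSpace hb)
    rw [e, add_sub_cancel_left] at hmem
    obtain ⟨-, hs⟩ := hmem.resolve_left D.min.2.1
    exact hne ((hs.symm.mul_eq_zero_right D.a_mul).trans (hs.symm.mul_eq_zero_left D.mul_a).symm)
  · exfalso
    have hd : c * ((1 + x) * c * (1 - x)) = 0 :=
      classSpace.mul_eq_zero (ha := hb) (Or.inr ⟨hc.2.1, hbc⟩) (conjmem (Or.inr ⟨hc.2.1, hbc⟩))
    have h' : c * ((1 + x) * c * (1 - x)) = c * x * c - c * x * c * x := by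
      simp only [add_mul, mul_add, one_mul, mul_sub, mul_one, ← mul_assoc, hc.2.1.sq, zero_mul, sub_zero, zero_add]
    rw [h', hc.2.2.2, sub_eq_zero] at hd
    exact hc.2.1.2.1 (by rw [← hc.2.2.2, ← hd, hc.2.1.sq])

end CfsgLib.Transpositions
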