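import Cfsg.Agent.Lib.Transpositions.Bracket

/-!
Opposite minimal lines, the torus they give, and surjectivity of the bracket onto its class.
-/
set_option autoImplicit false

namespace CfsgLib.Transpositions

variable {k : Type*} [Field k] {M : Type*} [AddCommGroup M] [Module k M]
variable {G : Subgroup (Module.End k M)ˣ} {a b c x w : Module.End k M}

open LinearMap (range ker)

lemma IsPartner.symm (h : IsPartner G a c) : IsPartner G c a := ⟨h.2.1, h.1, h.2.2.2, h.2.2.1⟩

lemma IsPartner.aca (h : IsPartner G a c) : a * (c * a) = a := by rw [← mul_assoc]; exact h.2.2.1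

lemma IsPartner.cac (h : IsPartner G a c) : c * (a * c) = c := by rw [← mul_assoc]; exact h.2.2.2

/-- The torus element `1 + (t-1) ac + (t⁻¹-1) ca`. -/
lemma IsPartner.exists_torus (h : IsPartner G a c) {t : k} (ht : t ≠ 0) :
    ∃ g ∈ G, (g : Module.End k M) = 1 + (t - 1) • (a * c) + (t⁻¹ - 1) • (c * a) := by
  obtain ⟨u₁, hu₁, e₁⟩ := h.2.1.1.2 (t⁻¹ - 1)
  obtain ⟨u₂, hu₂, e₂⟩ := h.1.1.2 1
  obtain ⟨u₃, hu₃, e₃⟩ := h.2.1.1.2 (t - 1)
  obtain ⟨u₄, hu₄, e₄⟩ := h.1.1.2 (-t⁻¹)
  refine ⟨u₁ * u₂ * u₃ * u₄, mul_mem (mul_mem (mul_mem hu₁ hu₂) hu₃) hu₄, ?_⟩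
  have aa : ∀ y, a * (a * y) = 0 := fun y => by rw [← mul_assoc, h.1.sq, zero_mul]
  have cc : ∀ y, c * (c * y) = 0 := fun y => by rw [← mul_assoc, h.2.1.sq, zero_mul]
  have k1 : ∀ y, a * (c * (a * y)) = a * y := fun y => by
    rw [← mul_assoc, ← mul_assoc, h.2.2.1]
  have k2 : ∀ y, c * (a * (c * y)) = c * y := fun y => by
    rw [← mul_assoc, ← mul_assoc, h.2.2.2]
  simp only [Units.val_mul, e₁, e₂, e₃, e₄, one_smul]
  simp only [add_mul, mul_add, one_mul, mul_one, smul_mul_assoc, mul_smul_comm, mul_assoc,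
    h.1.sq, h.2.1.sq, aa, cc, k1, k2, h.aca, h.cac, smul_zero, smul_add, mul_zero, add_zero, zero_add,
    smul_smul]
  match_scalars <;> field_simp <;> ring

/-- Two idempotents with the same range and kernel agree. -/
lemma idem_ext {e f : Module.End k M} (he : e * e = e) (hf : f * f = f) (hr : range e = range f)
    (hk : ker e = ker f) : e = f := by
  ext m
  have h1 : e (f m) = f m := by
    obtain ⟨n, hn⟩ : f m ∈ range e := hr ▸ LinearMap.mem_range_self f m
    rw [← hn, ← Module.End.mul_apply, he]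
  have h2 : m - f m ∈ ker e := by
    rw [hk, LinearMap.mem_ker, map_sub, ← Module.End.mul_apply, hf, sub_self]
  rw [LinearMap.mem_ker, map_sub, h1, sub_eq_zero] at h2
  exact h2

section Finite

variable [FiniteDimensional k M]

/-- Conjugation-stable weight components of a line killed by the torus halves. -/
lemma isLine_components (h2 : (2 : k) ≠ 0) (h3 : Nat.card k ≠ 3) (h : IsPartner G a c)
    (hx : IsLine k G x) (hxP : x * (a * c) = 0) (hQx : (c * a) * x = 0) :
    IsLine k G ((a * c) * x * (c * a)) ∧ IsLine k G ((1 - a * c) * x * (1 - c * a)) := by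
  set P := a * c with hP
  set Q := c * a with hQ
  have hPP : P * P = P := by rw [hP, mul_assoc, h.cac]
  have hQQ : Q * Q = Q := by rw [hQ, mul_assoc, h.aca]
  have hPQ : P * Q = 0 := by rw [hP, hQ, mul_assoc, ← mul_assoc c c a, h.2.1.sq]; simp
  have hQP : Q * P = 0 := by rw [hP, hQ, mul_assoc, ← mul_assoc a a c, h.1.sq]; simp
  let wt : k → Module.End k M := fun s => x + (s - 1) • (P * x + x * Q) + ((s - 1) * (s - 1)) • (P * x * Q)
  have hwt : ∀ s, s ≠ 0 → IsLine k G (wt s) := by
    intro s hs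
    obtain ⟨g, hg, e⟩ := h.exists_torus hs
    obtain ⟨g', -, e'⟩ := h.exists_torus (inv_ne_zero hs)
    rw [inv_inv] at e'
    rw [← hP, ← hQ] at e e'
    have hinv : ((g⁻¹ : (Module.End k M)ˣ) : Module.End k M) = 1 + (s⁻¹ - 1) • P + (s - 1) • Q := by
      refine Units.inv_eq_of_mul_eq_one_right ?_
      rw [e]
      simp only [add_mul, mul_add, one_mul, mul_one, smul_mul_assoc, mul_smul_comm, hPP, hQQ, hPQ,
        hQP, smul_zero, add_zero, zero_add, smul_smul, smul_add]
      match_scalars <;> field_simp <;> ring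
    have := hx.conj_mem hg
    rw [e, hinv] at this
    convert this using 1
    have z1 : ∀ y, x * (P * y) = 0 := fun y => by rw [← mul_assoc, hxP, zero_mul]
    simp only [wt, add_mul, mul_add, one_mul, mul_one, smul_mul_assoc, mul_smul_comm, hxP, hQx,
      mul_assoc, z1, smul_zero, mul_zero, add_zero, zero_add, smul_smul, smul_add,
      show ∀ y, Q * (x * y) = 0 from fun y => by rw [← mul_assoc, hQx, zero_mul]]
    match_scalars <;> ring
  have hxx : x * x = 0 := hx.1
  have hprod : ∀ s t, wt s * wt t = 0 := by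
    intro s t
    have z1 : ∀ y, x * (P * y) = 0 := fun y => by rw [← mul_assoc, hxP, zero_mul]
    have z2 : ∀ y, Q * (x * y) = 0 := fun y => by rw [← mul_assoc, hQx, zero_mul]
    have z3 : ∀ y, x * (x * y) = 0 := fun y => by rw [← mul_assoc, hxx, zero_mul]
    have z4 : ∀ y, Q * (P * y) = 0 := fun y => by rw [← mul_assoc, hQP, zero_mul]
    simp only [wt, add_mul, mul_add, smul_mul_assoc, mul_smul_comm, mul_assoc, hxx, hQx, z1, z2, z3, z4,
      mul_zero, smul_zero, add_zero]
  have comb : ∀ (s t : k) (α β : k), s ≠ 0 → t ≠ 0 → IsLine k G (α • wt s + β • wt t) := fun s t α β hs ht =>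
    ((hwt s hs).smul α).add ((hwt t ht).smul β) (by simp [hprod]) (by simp [hprod])
  obtain ⟨r, hr0, hr1⟩ := exists_sq_ne_one h2 h3
  have hm1 : (-1 : k) ≠ 0 := neg_ne_zero.mpr one_ne_zero
  have hmain : ∀ (α β γ : k), IsLine k G (α • wt 1 + β • wt (-1) + γ • wt r) := fun α β γ =>
    (comb 1 (-1) α β one_ne_zero hm1).add ((hwt r hr0).smul γ)
      (by simp [add_mul, hprod]) (by simp [mul_add, hprod])
  have hr2 : (r - 1) * (r + 1) ≠ 0 := by
    rw [show (r - 1) * (r + 1) = r ^ 2 - 1 by ring]; exact sub_ne_zero.mpr hr1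
  obtain ⟨hrm, hrp⟩ := mul_ne_zero_iff.mp hr2
  obtain ⟨D, hD⟩ : ∃ D, D = ((r - 1) * (r + 1))⁻¹ := ⟨_, rfl⟩
  constructor
  · convert hmain (D * (-(1 + r) / 2)) (D * ((r - 1) / 2)) D using 1
    simp only [wt, smul_add, smul_smul, sub_self, zero_smul, mul_zero, smul_zero, add_zero]
    match_scalars
    all_goals (subst hD; field_simp; ring)
  · have e : (1 - P) * x * (1 - Q) = x - (P * x + x * Q) + P * x * Q := by
      simp only [sub_mul, mul_sub, one_mul, mul_one]; abel
    rw [e]
    convert hmain (1 / 2 - D * (-(1 + r) / 2)) (1 / 2 - D * ((r - 1) / 2)) (-D) using 1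
    simp only [wt, smul_add, smul_smul, sub_self, zero_smul, mul_zero, smul_zero, add_zero]
    match_scalars
    all_goals (subst hD; field_simp; ring)

lemma BracketData.symm (D : BracketData G a b) : BracketData G b a := by
  have e : b * a - a * b = (-1 : k) • (a * b - b * a) := by simp
  obtain ⟨h1, h2⟩ := D.min.smul (neg_ne_zero.mpr (one_ne_zero (α := k)))
  refine ⟨e ▸ h1, D.rangeR, D.rangeL, ?_, by rw [inf_comm]; exact D.disj, D.kerR, D.kerL, ?_, ?_, ?_, ?_, ?_⟩
  · rw [e, h2.1, D.range_eq, sup_comm]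
  · rw [e, h2.2, D.ker_eq, inf_comm]
  · rw [e, mul_smul_comm, D.b_mul, smul_zero]
  · rw [e, smul_mul_assoc, D.mul_b, smul_zero]
  · rw [e, mul_smul_comm, D.a_mul, smul_zero]
  · rw [e, smul_mul_assoc, D.mul_a, smul_zero]

/-- Members of the bracket class map `ker a ⊔ range b` into `range a ⊓ ker b`. -/
lemma BracketData.diag (h2 : (2 : k) ≠ 0) (h3 : Nat.card k ≠ 3) (D : BracketData G a b)
    (hbb : b * b = 0) (hc : IsPartner G a c) (hw : IsMinLine G w)
    (hwu : SameAction (a * b - b * a) w) : ∀ m ∈ ker a ⊔ range b, w m ∈ range a ⊓ ker b := by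
  have wa : w * a = 0 := hwu.mul_eq_zero_left D.mul_a
  have aw : a * w = 0 := hwu.mul_eq_zero_right D.a_mul
  have wb : w * b = 0 := hwu.mul_eq_zero_left D.mul_b
  set P := a * c with hP
  set Q := c * a with hQ
  have wP : w * P = 0 := by rw [hP, ← mul_assoc, wa, zero_mul]
  have Qw : Q * w = 0 := by rw [hQ, mul_assoc, aw, mul_zero]
  have hline := (isLine_components h2 h3 hc hw.1 wP Qw).2
  rw [← hP, ← hQ] at hline
  have hzero : (1 - P) * w * (1 - Q) = 0 := by
    by_contra hne
    have hrk := hw.2.2 _ hline hne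
    by_cases hR : range a ⊓ ker b = ⊥
    · apply hne
      have hK : ker a ≤ ker w := by
        rw [hwu.2, D.ker_eq]
        have htop : ker b ⊔ range a = ⊤ := by
          rw [← D.kerL, show a * b = 0 by rw [← LinearMap.range_eq_bot, D.rangeL, hR]]
          exact LinearMap.ker_zero
        rw [htop, top_inf_eq]
        exact le_sup_left
      rw [mul_assoc]
      suffices w * (1 - Q) = 0 by rw [this, mul_zero]
      ext m
      refine LinearMap.mem_ker.mp (hK (LinearMap.mem_ker.mpr ?_))
      show (a * (1 - Q)) m = 0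
      rw [mul_sub, mul_one, hQ, hc.aca, sub_self]; rfl
    · obtain ⟨r, hr, hr0⟩ := Submodule.exists_mem_ne_zero_of_ne_bot hR
      have hrw : r ∈ range w := by
        rw [hwu.1, D.range_eq]; exact Submodule.mem_sup_left hr
      have hlt : endRank ((1 - P) * w) < endRank w := by
        have h := ((1 - P).domRestrict (range w)).finrank_range_add_finrank_ker
        have e1 : range ((1 - P).domRestrict (range w)) = range ((1 - P) * w) := by
          ext m; simp [LinearMap.mem_range]
        have hpos : 0 < Module.finrank k (ker ((1 - P).domRestrict (range w))) := by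
          refine Submodule.one_le_finrank_iff.mpr ?_
          intro hbot
          have : (⟨r, hrw⟩ : range w) ∈ ker ((1 - P).domRestrict (range w)) := by
            obtain ⟨n, hn⟩ := hr.1
            show (1 - P) r = 0
            rw [← hn, ← Module.End.mul_apply, sub_mul, one_mul, hP, hc.2.2.1, sub_self]; rfl
          rw [hbot, Submodule.mem_bot] at this
          exact hr0 (congrArg Subtype.val this)
        rw [e1] at h
        unfold endRank
        omega
      have := endRank_mul_le_left ((1 - P) * w) (1 - Q)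
      omega
  have hK : ∀ m ∈ ker a, w m ∈ range a ⊓ ker b := by
    intro m hm
    have h1 : w m = P (w m) := by
      have hQm : Q m = 0 := by rw [hQ, Module.End.mul_apply, LinearMap.mem_ker.mp hm, map_zero]
      have := LinearMap.congr_fun hzero m
      simpa [hQm, sub_eq_zero] using this
    have hA : w m ∈ range a := by
      rw [h1, hP]; exact range_mul_le a c (LinearMap.mem_range_self _ _)
    have hR : w m ∈ (range a ⊓ ker b) ⊔ (range b ⊓ ker a) := by
      rw [← D.range_eq, ← hwu.1]; exact LinearMap.mem_range_self _ _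
    obtain ⟨r2, hr2, r1, hr1, hsum⟩ := Submodule.mem_sup.mp hR
    have hr1A : r1 ∈ range a ⊓ ker b := ⟨by
      rw [show r1 = w m - r2 by rw [← hsum]; abel]; exact sub_mem hA hr2.1,
      mem_of_mul_eq_zero hbb hr1.1⟩
    have : r1 = 0 := by
      have : r1 ∈ (range a ⊓ ker b) ⊓ (range b ⊓ ker a) := ⟨hr1A, hr1⟩
      rwa [D.disj, Submodule.mem_bot] at this
    rw [← hsum, this, add_zero]; exact hr2
  intro m hm
  obtain ⟨m1, hm1, -, ⟨m2, rfl⟩, rfl⟩ := Submodule.mem_sup.mp hm
  rw [map_add, show w (b m2) = 0 from LinearMap.congr_fun wb m2, add_zero]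
  exact hK m1 hm1

end Finite

end CfsgLib.Transpositions
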