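import Cfsg.Agent.Lib.Transpositions.Pairs
import Cfsg.Agent.Lib.Transpositions.QuadBridge

/-!
Opposite classes form special rank one pairs; the central involution.
-/
set_option autoImplicit false

open Cfsg
open scoped commutatorElement Pointwise

namespace CfsgLib.Transpositions

variable {k : Type*} [Field k] {M : Type*} [AddCommGroup M] [Module k M] [FiniteDimensional k M]
variable {G : Subgroup (Module.End k M)ˣ} {a b c x y : Module.End k M}

open LinearMap (range ker)

lemma IsPartner.not_comm (h : IsPartner G a c) : a * c ≠ c * a := fun e =>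
  h.1.2.1 (by rw [← h.2.2.1, e, mul_assoc, h.1.sq, mul_zero])

lemma IsPartner.not_same (h : IsPartner G a c) : ¬ SameAction a c := fun e =>
  h.1.2.1 (by rw [← h.2.2.1, e.mul_eq_zero_right h.1.sq, zero_mul])

/-- An opposite for every member of the class. -/
lemma IsPartner.exists_of_class (h2 : (2 : k) ≠ 0) (h3 : Nat.card k ≠ 3) (h : IsPartner G a c)
    (hx : IsMinLine G x) (hax : SameAction a x) : ∃ y, SameAction c y ∧ IsPartner G x y := by
  obtain ⟨y, hy, hp, -⟩ := exists_partner_of_class h2 h3 h hx hax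
  exact ⟨y, hy, hp⟩

/-- Conjugation by `1 + x` and by `1 + y` interchange the classes of opposites. -/
lemma IsPartner.swap_conj (h : IsPartner G x y) {e f : (Module.End k M)ˣ}
    (he : (e : Module.End k M) = 1 + x) (hf : (f : Module.End k M) = 1 + y) :
    (classGroup h.1).map (MulAut.conj f⁻¹).toMonoidHom = (classGroup h.2.1).map (MulAut.conj e⁻¹).toMonoidHom := by
  have hfG : f ∈ G := by
    obtain ⟨f', hf', e'⟩ := h.2.1.1.exists_one
    exact (Units.ext (e'.trans hf.symm) : f' = f) ▸ hf'
  have heG : e ∈ G := by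
    obtain ⟨f', hf', e'⟩ := h.1.1.exists_one
    exact (Units.ext (e'.trans he.symm) : f' = e) ▸ hf'
  have n1 := Subgroup.le_normalizer (inv_mem hfG)
  have n2 := Subgroup.le_normalizer (inv_mem heG)
  rw [classGroup_conj h.1 n1, classGroup_conj h.2.1 n2]
  refine classGroup_congr _ _ ?_
  have i1 := line_inv_val hf h.2.1.sq
  have i2 := line_inv_val he h.1.sq
  have s := ((h.1.conj n1).smul (neg_ne_zero.mpr (one_ne_zero (α := k)))).2
  have e0 : (-1 : k) • (((f⁻¹ : (Module.End k M)ˣ) : Module.End k M) * x * ((f⁻¹)⁻¹ : (Module.End k M)ˣ)) =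
      ((e⁻¹ : (Module.End k M)ˣ) : Module.End k M) * y * ((e⁻¹)⁻¹ : (Module.End k M)ˣ) := by
    rw [inv_inv, inv_inv, i1, i2, hf, he, neg_one_smul]
    simp only [sub_mul, mul_add, one_mul, mul_one, h.2.2.1, h.2.2.2]
    abel
  rwa [e0] at s

lemma IsPartner.rankOneCondition (h2 : (2 : k) ≠ 0) (h3 : Nat.card k ≠ 3) (h : IsPartner G a c) :
    Cfsg.RankOneCondition (classGroup h.1) (classGroup h.2.1) := by
  intro e he he1
  obtain ⟨hx, hax⟩ := classGroup_min he he1
  obtain ⟨y, hcy, hp⟩ := h.exists_of_class h2 h3 hx hax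
  obtain ⟨f, hf, ef⟩ := exists_mem_classGroup (ha := h.2.1) (Or.inr ⟨hp.2.1, hcy⟩)
  refine ⟨f, hf, fun h1 => hp.2.1.2.1 (by simpa [h1] using ef), ?_⟩
  rw [classGroup_congr h.1 hp.1 hax, classGroup_congr h.2.1 hp.2.1 hcy]
  exact hp.swap_conj (by abel) ef

/-- Opposite classes form a special rank one pair. -/
theorem IsPartner.isSpecial (h2 : (2 : k) ≠ 0) (h3 : Nat.card k ≠ 3) (h : IsPartner G a c) :
    Cfsg.IsSpecialRankOnePair (classGroup h.1) (classGroup h.2.1) := by
  have hnil : ∀ {p : Module.End k M} (hp : IsMinLine G p), Group.IsNilpotent ↥(classGroup hp) := by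
    intro p hp
    letI : CommGroup ↥(classGroup hp) :=
      { (inferInstance : Group ↥(classGroup hp)) with
        mul_comm := fun u v => Subtype.ext (classGroup_comm u.2 v.2) }
    infer_instance
  refine ⟨⟨fun e => h.not_same (sameAction_of_classGroup_eq h.1 h.2.1 e), hnil h.1, hnil h.2.1,
    h.rankOneCondition h2 h3, h.symm.rankOneCondition h2 h3⟩, ?_⟩
  intro e he he1 f hf hf1 heq
  obtain ⟨hx, hax⟩ := classGroup_min he he1
  obtain ⟨y, hcy, hp⟩ := h.exists_of_class h2 h3 hx hax
  obtain ⟨f₀, hf₀, ef₀⟩ := exists_mem_classGroup (ha := h.2.1) (Or.inr ⟨hp.2.1, hcy⟩)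
  have hee : (e : Module.End k M) = 1 + ((e : Module.End k M) - 1) := by abel
  have heq₀ : Cfsg.conjBy (classGroup h.1) f₀⁻¹ = Cfsg.conjBy (classGroup h.2.1) e⁻¹ := by
    rw [classGroup_congr h.1 hp.1 hax, classGroup_congr h.2.1 hp.2.1 hcy]
    exact hp.swap_conj hee ef₀
  have hff : f₀ = f := by
    by_contra hne
    have hs : f₀ * f⁻¹ ∈ Subgroup.normalizer (classGroup h.1 : Set (Module.End k M)ˣ) := by
      have key : Cfsg.conjBy (classGroup h.1) f⁻¹ = Cfsg.conjBy (classGroup h.1) f₀⁻¹ := heq.trans heq₀.symm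
      have key' : Cfsg.conjBy (classGroup h.1) (f₀ * f⁻¹) = classGroup h.1 := by
        have := congrArg (fun S : Subgroup (Module.End k M)ˣ => S.map (MulAut.conj f₀).toMonoidHom) key
        simp only [Cfsg.conjBy, Subgroup.map_map] at this ⊢
        rw [show (MulAut.conj (f₀ * f⁻¹)).toMonoidHom = (MulAut.conj f₀).toMonoidHom.comp (MulAut.conj f⁻¹).toMonoidHom by
          ext; simp [mul_assoc], this,
          show (MulAut.conj f₀).toMonoidHom.comp (MulAut.conj f₀⁻¹).toMonoidHom = MonoidHom.id _ by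
            ext; simp [mul_assoc], Subgroup.map_id]
      refine Subgroup.mem_normalizer_iff.mpr fun z => ⟨fun hz => ?_, fun hz => ?_⟩
      · exact key' ▸ Subgroup.mem_map.mpr ⟨z, hz, rfl⟩
      · rw [← key'] at hz
        obtain ⟨w, hw, e⟩ := Subgroup.mem_map.mp hz
        exact (MulAut.conj (f₀ * f⁻¹)).injective e ▸ hw
    exact h.not_comm (comm_of_normalize h2 h3 h.2.1 h.1 (mul_mem hf₀ (inv_mem hf))
      (fun h1 => hne (mul_inv_eq_one.mp h1)) hs).symm
  subst hff
  obtain ⟨x, hxdef⟩ : ∃ x, x = (e : Module.End k M) - 1 := ⟨_, rfl⟩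
  rw [← hxdef] at hp hee
  refine Units.ext ?_
  simp only [Units.val_mul, line_inv_val ef₀ hp.2.1.sq, line_inv_val hee hp.1.sq]
  rw [ef₀, hee]
  simp only [sub_mul, mul_sub, add_mul, mul_add, one_mul, mul_one, hp.2.2.1, hp.2.2.2, mul_assoc,
    hp.1.sq, hp.2.1.sq, hp.aca, hp.cac, mul_zero]
  abel

/-- The idempotent of an opposite pair is the support of the whole join. -/
lemma IsPartner.support (h : IsPartner G a c) {g : (Module.End k M)ˣ} (hg : g ∈ classGroup h.1 ⊔ classGroup h.2.1) :
    (a * c + c * a) * ((g : Module.End k M) - 1) = (g : Module.End k M) - 1 ∧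
      ((g : Module.End k M) - 1) * (a * c + c * a) = (g : Module.End k M) - 1 := by
  set E0 := a * c + c * a with hP
  have key : ∀ {p q x : Module.End k M} (hpq : IsPartner G p q), x ∈ classSpace G hpq.1 →
      p * q + q * p = E0 → E0 * x = x ∧ x * E0 = x := by
    intro p q x hpq hx e
    rw [← e]
    rcases hx with rfl | ⟨hx, hs⟩
    · simp
    have h1 : q * p * x = 0 := hs.mul_eq_zero_right (by rw [mul_assoc, hpq.1.sq, mul_zero])
    have h1' : x * (p * q) = 0 := by rw [← mul_assoc, hs.mul_eq_zero_left hpq.1.sq, zero_mul]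
    constructor
    · rw [add_mul, h1, add_zero]
      exact mul_idem_left hpq.2.2.1 hs.1.le
    · rw [mul_add, h1', zero_add]
      exact mul_idem_right hpq.2.2.1 hs.2.ge
  rw [← Subgroup.closure_eq (classGroup h.1), ← Subgroup.closure_eq (classGroup h.2.1), ← Subgroup.closure_union] at hg
  induction hg using Subgroup.closure_induction with
  | mem g hg =>
    rcases hg with hg | hg
    · exact key h hg rfl
    · exact key h.symm hg (add_comm _ _)
  | one => simp
  | inv g _ ih =>
    set G1 := ((g⁻¹ : (Module.End k M)ˣ) : Module.End k M) with hG1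
    have e1 : G1 - 1 = -(((g : Module.End k M) - 1) * G1) := by
      rw [sub_mul, one_mul, hG1, Units.mul_inv]; abel
    have e2 : G1 - 1 = -(G1 * ((g : Module.End k M) - 1)) := by
      rw [mul_sub, mul_one, hG1, Units.inv_mul]; abel
    constructor
    · rw [e1, mul_neg, ← mul_assoc, ih.1]
    · rw [e2, neg_mul, mul_assoc, ih.2]
  | mul g g' _ _ ih ih' =>
    have e : ((g * g' : (Module.End k M)ˣ) : Module.End k M) - 1 =
        ((g : Module.End k M) - 1) * ((g' : Module.End k M) - 1) + ((g : Module.End k M) - 1) + ((g' : Module.End k M) - 1) := by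
      simp [sub_mul, mul_sub]
    rw [e]
    exact ⟨by rw [mul_add, mul_add, ← mul_assoc, ih.1, ih'.1], by rw [add_mul, add_mul, mul_assoc, ih.2, ih'.2]⟩

/-- If two class groups generate a group of class two, their triple products vanish. -/
lemma triple_eq_zero_of_class_two (h2 : (2 : k) ≠ 0) (h3 : Nat.card k ≠ 3) (ha : IsMinLine G a) (hb : IsMinLine G b)
    (hc2 : ⁅⁅classGroup ha ⊔ classGroup hb, classGroup ha ⊔ classGroup hb⁆, classGroup ha ⊔ classGroup hb⁆ = ⊥) :
    a * b * a = 0 := by
  rcases dichotomy h2 h3 ha hb with ht | ⟨-, c, hbc, hc⟩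
  · exact ht.1
  exfalso
  rw [classGroup_congr hb hc.2.1 hbc] at hc2
  set H := classGroup ha ⊔ classGroup hc.2.1 with hH
  have hHG : H ≤ G := sup_le (classGroup_le _) (classGroup_le _)
  have lineH : ∀ {p : Module.End k M} (hp : IsMinLine G p), classGroup hp ≤ H → IsMinLine H p := by
    intro p hp hle
    refine ⟨⟨hp.sq, fun t => ?_⟩, hp.2.1, fun y hy => hp.2.2 y (hy.mono hHG)⟩
    obtain ⟨g, hg, e⟩ := exists_mem_classGroup (Submodule.smul_mem (classSpace G hp) t (self_mem_classSpace hp))
    exact ⟨g, hle hg, e⟩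
  have hcH : IsPartner H a c := ⟨lineH ha le_sup_left, lineH hc.2.1 le_sup_right, hc.2.2.1, hc.2.2.2⟩
  obtain ⟨r, hr0, hr1⟩ := exists_sq_ne_one h2 h3
  obtain ⟨g, hg, eg⟩ := hcH.exists_torus hr0
  obtain ⟨g', -, eg'⟩ := hcH.exists_torus (inv_ne_zero hr0)
  obtain ⟨u, hu, eu⟩ := exists_line_mem_classGroup ha
  obtain ⟨v, hv, ev⟩ := exists_line_mem_classGroup hc.2.1
  have hz : a * c * a = a := hc.2.2.1
  have h1 : (g : Module.End k M) * a = r • a := by
    rw [eg, add_mul, add_mul, one_mul, smul_mul_assoc, smul_mul_assoc, hz, mul_assoc c a a, ha.sq, mul_zero]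
    module
  have h1' : a * (g' : Module.End k M) = r • a := by
    rw [eg', inv_inv, mul_add, mul_add, mul_one, mul_smul_comm, mul_smul_comm, ← mul_assoc a c a, hz,
      ← mul_assoc a a c, ha.sq, zero_mul]
    module
  have hgg : (g : Module.End k M) * g' = 1 := by
    rw [eg, eg', inv_inv]
    have PP : a * c * (a * c) = a * c := by rw [← mul_assoc, hz]
    have QQ : c * a * (c * a) = c * a := by rw [← mul_assoc, hc.2.2.2]
    have PQ : a * c * (c * a) = 0 := by rw [mul_assoc, ← mul_assoc c c a, hc.2.1.sq]; simp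
    have QP : c * a * (a * c) = 0 := by rw [mul_assoc, ← mul_assoc a a c, hc.1.sq]; simp
    simp only [add_mul, mul_add, one_mul, mul_one, smul_mul_assoc, mul_smul_comm, PP, QQ, PQ, QP, smul_zero,
      add_zero, zero_add, smul_smul]
    match_scalars <;> field_simp <;> ring
  have hgi : ((g⁻¹ : (Module.End k M)ˣ) : Module.End k M) = g' := Units.inv_eq_of_mul_eq_one_right hgg
  set s := r * r - 1 with hs
  have hs0 : s ≠ 0 := by rw [hs, ← pow_two]; exact sub_ne_zero.mpr hr1
  have el : ((⁅g, u⁆ : (Module.End k M)ˣ) : Module.End k M) = 1 + s • a := by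
    rw [commutatorElement_def, Units.val_mul, Units.val_mul, Units.val_mul, eu, line_inv_val eu ha.sq, mul_add,
      mul_one, h1, add_mul, hgi, hgg, smul_mul_assoc, h1', smul_smul, mul_sub, mul_one, add_mul, one_mul,
      smul_mul_assoc, ha.sq, smul_zero, add_zero, hs, sub_smul, one_smul]
    abel
  have hmem : ⁅g, u⁆ ∈ ⁅H, H⁆ :=
    Subgroup.commutator_mem_commutator hg (le_sup_left (a := classGroup ha) hu)
  have hcomm := (Subgroup.commutator_eq_bot_iff_le_centralizer.mp hc2) hmem
  have h4 := congrArg (fun z : (Module.End k M)ˣ => (z : Module.End k M))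
    (Subgroup.mem_centralizer_iff.mp hcomm v (le_sup_right (b := classGroup hc.2.1) hv))
  simp only [Units.val_mul, el, ev, add_mul, mul_add, one_mul, mul_one, smul_mul_assoc, mul_smul_comm] at h4
  have h5 : s • (c * a) = s • (a * c) := by
    have h4' := h4.symm
    linear_combination (norm := module) h4
  exact hc.not_comm (smul_right_injective _ hs0 h5).symm

/-- If the join is unipotent, the triple products vanish. -/
lemma triple_eq_zero_of_unip (h2 : (2 : k) ≠ 0) (h3 : Nat.card k ≠ 3) (ha : IsMinLine G a) (hb : IsMinLine G b)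
    (hu : IsUnipGroup k (classGroup ha ⊔ classGroup hb)) : a * b * a = 0 := by
  rcases dichotomy h2 h3 ha hb with ht | ⟨-, c, hbc, hc⟩
  · exact ht.1
  exfalso
  obtain ⟨n, hn, hn'⟩ := hu
  set S := augSpan k (classGroup ha ⊔ classGroup hb)
  have hacS : a * c ∈ S := by
    refine augSpan_mul_le (Submodule.mul_mem_mul ?_ ?_)
    · obtain ⟨g, hg, e⟩ := exists_line_mem_classGroup ha
      have := sub_one_mem_augSpan (k := k) (le_sup_left (b := classGroup hb) hg)
      rwa [e, add_sub_cancel_left] at this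
    · obtain ⟨g, hg, e⟩ := exists_mem_classGroup (ha := hb) (Or.inr ⟨hc.2.1, hbc⟩)
      have := sub_one_mem_augSpan (k := k) (le_sup_right (a := classGroup ha) hg)
      rwa [e, add_sub_cancel_left] at this
  have hpow : ∀ i, a * c ∈ S ^ (i + 1) := by
    intro i
    induction i with
    | zero => simpa using hacS
    | succ i ih =>
      rw [show a * c = a * c * (a * c) by rw [← mul_assoc, hc.2.2.1], pow_succ]
      exact Submodule.mul_mem_mul ih hacS
  obtain ⟨i, rfl⟩ : ∃ i, n = i + 1 := ⟨n - 1, by omega⟩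
  have := hpow i
  rw [hn', Submodule.mem_bot] at this
  exact hc.1.2.1 (by rw [← hc.2.2.1, this, zero_mul])

end CfsgLib.Transpositions
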