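import Cfsg.Agent.Lib.Transpositions.Partner

/-!
The group attached to a class of minimal lines; existence of opposites.
-/
set_option autoImplicit false

open scoped Pointwise

namespace CfsgLib.Transpositions

variable {k : Type*} [Field k] {M : Type*} [AddCommGroup M] [Module k M]

/-- No non-trivial unipotent subgroup of `G` is normalised by `G`. -/
def NoUnip (G : Subgroup (Module.End k M)ˣ) : Prop :=
  ∀ U ≤ G, IsUnipGroup k U → G ≤ Subgroup.normalizer (U : Set (Module.End k M)ˣ) → U = ⊥

variable [FiniteDimensional k M] {G : Subgroup (Module.End k M)ˣ} {a b a' x y : Module.End k M}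

lemma mem_classSpace (ha : IsMinLine G a) :
    x ∈ classSpace G ha ↔ x = 0 ∨ (IsMinLine G x ∧ SameAction a x) := Iff.rfl

lemma self_mem_classSpace (ha : IsMinLine G a) : a ∈ classSpace G ha :=
  Or.inr ⟨ha, .refl a⟩

lemma classSpace.mul_left {ha : IsMinLine G a} (hx : x ∈ classSpace G ha) {w : Module.End k M}
    (hw : a * w = 0) : x * w = 0 := by
  rcases hx with rfl | ⟨-, hx⟩
  exacts [zero_mul w, hx.mul_eq_zero_left hw]

lemma classSpace.mul_right {ha : IsMinLine G a} (hx : x ∈ classSpace G ha) {w : Module.End k M}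
    (hw : w * a = 0) : w * x = 0 := by
  rcases hx with rfl | ⟨-, hx⟩
  exacts [mul_zero w, hx.mul_eq_zero_right hw]

lemma classSpace.mul_eq_zero {ha : IsMinLine G a} (hx : x ∈ classSpace G ha)
    (hy : y ∈ classSpace G ha) : x * y = 0 :=
  classSpace.mul_left hx (classSpace.mul_right hy ha.sq)

lemma classSpace.isLine {ha : IsMinLine G a} (hx : x ∈ classSpace G ha) : IsLine k G x := by
  rcases hx with rfl | ⟨hx, -⟩
  exacts [isLine_zero, hx.1]

lemma classSpace_congr (ha : IsMinLine G a) (ha' : IsMinLine G a') (h : SameAction a a') :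
    classSpace G ha = classSpace G ha' := by
  ext x
  simp only [mem_classSpace]
  exact or_congr_right (and_congr_right fun _ => ⟨h.symm.trans, h.trans⟩)

/-- The group of all `1 + x`, `x` in the class of `a`. -/
def classGroup (ha : IsMinLine G a) : Subgroup (Module.End k M)ˣ where
  carrier := {g | (g : Module.End k M) - 1 ∈ classSpace G ha}
  one_mem' := by simp
  mul_mem' := by
    intro g h hg hh
    have : ((g * h : (Module.End k M)ˣ) : Module.End k M) - 1 =
        ((g : Module.End k M) - 1) + ((h : Module.End k M) - 1) := by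
      have := classSpace.mul_eq_zero (ha := ha) hg hh
      rw [sub_mul, mul_sub, mul_one, one_mul] at this
      simp only [Units.val_mul]
      rw [← sub_eq_zero]
      refine Eq.trans ?_ this
      abel
    show _ ∈ classSpace G ha
    rw [this]; exact add_mem hg hh
  inv_mem' := by
    intro g hg
    have h0 : ((g⁻¹ : (Module.End k M)ˣ) : Module.End k M) = 1 - ((g : Module.End k M) - 1) := by
      refine Units.inv_eq_of_mul_eq_one_right ?_
      have hsq := classSpace.mul_eq_zero (ha := ha) hg hg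
      calc (g : Module.End k M) * (1 - ((g : Module.End k M) - 1))
          = 1 - ((g : Module.End k M) - 1) * ((g : Module.End k M) - 1) := by noncomm_ring
        _ = 1 := by rw [hsq, sub_zero]
    show _ ∈ classSpace G ha
    rw [h0, sub_sub_cancel_left]; exact neg_mem hg

lemma mem_classGroup {ha : IsMinLine G a} {g : (Module.End k M)ˣ} :
    g ∈ classGroup ha ↔ (g : Module.End k M) - 1 ∈ classSpace G ha := Iff.rfl

lemma classGroup_le (ha : IsMinLine G a) : classGroup ha ≤ G := by
  intro g hg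
  obtain ⟨h, hh, hhg⟩ := (classSpace.isLine (ha := ha) hg).exists_one
  rwa [← (Units.ext (by simpa using hhg) : h = g)]

lemma exists_mem_classGroup {ha : IsMinLine G a} (hx : x ∈ classSpace G ha) :
    ∃ g ∈ classGroup ha, (g : Module.End k M) = 1 + x :=
  ⟨sqUnit x (classSpace.mul_eq_zero hx hx), by
    show (1 + x) - 1 ∈ classSpace G ha; rwa [add_sub_cancel_left], rfl⟩

lemma classGroup_comm {ha : IsMinLine G a} {g h : (Module.End k M)ˣ} (hg : g ∈ classGroup ha)
    (hh : h ∈ classGroup ha) : g * h = h * g := by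
  have h1 := classSpace.mul_eq_zero (ha := ha) hg hh
  have h2 := classSpace.mul_eq_zero (ha := ha) hh hg
  rw [sub_mul, mul_sub, mul_one, one_mul] at h1 h2
  refine Units.ext ?_
  simp only [Units.val_mul]
  rw [← sub_eq_zero]
  have h3 := congrArg₂ (· - ·) h1 h2
  simp only [sub_zero] at h3
  refine Eq.trans ?_ h3
  abel

lemma classGroup_congr (ha : IsMinLine G a) (ha' : IsMinLine G a') (h : SameAction a a') :
    classGroup ha = classGroup ha' := by
  ext g; rw [mem_classGroup, mem_classGroup, classSpace_congr ha ha' h]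

lemma exists_line_mem_classGroup (ha : IsMinLine G a) :
    ∃ g ∈ classGroup ha, (g : Module.End k M) = 1 + a :=
  exists_mem_classGroup (self_mem_classSpace ha)

lemma classGroup_ne_bot (ha : IsMinLine G a) : classGroup ha ≠ ⊥ := by
  intro h
  obtain ⟨g, hg, e⟩ := exists_line_mem_classGroup ha
  rw [h, Subgroup.mem_bot] at hg
  exact ha.2.1 (by simpa [hg] using e)

lemma sameAction_of_classGroup_eq (ha : IsMinLine G a) (hb : IsMinLine G b)
    (h : classGroup ha = classGroup hb) : SameAction a b := by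
  obtain ⟨g, hg, e⟩ := exists_line_mem_classGroup hb
  rw [← h, mem_classGroup, e, add_sub_cancel_left] at hg
  rcases hg with h0 | ⟨-, h'⟩
  exacts [absurd h0 hb.2.1, h']

lemma conj_mem_classSpace (ha : IsMinLine G a) (hx : x ∈ classSpace G ha) {g : (Module.End k M)ˣ}
    (hg : g ∈ Subgroup.normalizer (G : Set (Module.End k M)ˣ)) :
    (g : Module.End k M) * x * (g⁻¹ : (Module.End k M)ˣ) ∈ classSpace G (ha.conj hg) := by
  rcases hx with rfl | ⟨hx, hax⟩
  · simp
  · exact Or.inr ⟨hx.conj hg, hax.conj g⟩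

lemma classGroup_conj (ha : IsMinLine G a) {g : (Module.End k M)ˣ}
    (hg : g ∈ Subgroup.normalizer (G : Set (Module.End k M)ˣ)) :
    (classGroup ha).map (MulAut.conj g).toMonoidHom = classGroup (ha.conj hg) := by
  refine le_antisymm ?_ fun h hh => ⟨g⁻¹ * h * g, ?_, by simp [mul_assoc]⟩
  · rintro - ⟨h, hh, rfl⟩
    show _ ∈ classSpace G (ha.conj hg)
    rw [MulEquiv.coe_toMonoidHom, MulAut.conj_apply, conjUnits_val]
    exact conj_mem_classSpace ha hh hg
  · have := conj_mem_classSpace (ha.conj hg) hh (inv_mem hg)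
    show _ ∈ classSpace G ha
    rw [classSpace_congr ha ((ha.conj hg).conj (inv_mem hg))
      (by simpa [mul_assoc] using SameAction.refl a)]
    simpa [mul_sub, sub_mul, mul_assoc] using this

/-- Two classes with vanishing triple products generate a unipotent group. -/
theorem isUnip_pair (h2 : (2 : k) ≠ 0) (h3 : Nat.card k ≠ 3) (ha : IsMinLine G a) (hb : IsMinLine G b)
    (h : a * b * a = 0) : IsUnipGroup k (classGroup ha ⊔ classGroup hb) := by
  set U := classSpace G ha
  set V := classSpace G hb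
  have hUU : U * U = ⊥ := le_bot_iff.mp (Submodule.mul_le.mpr fun x hx y hy =>
    (Submodule.mem_bot k).mpr (classSpace.mul_eq_zero hx hy))
  have hVV : V * V = ⊥ := le_bot_iff.mp (Submodule.mul_le.mpr fun x hx y hy =>
    (Submodule.mem_bot k).mpr (classSpace.mul_eq_zero hx hy))
  have tri : ∀ {p q : Module.End k M} (hp : IsMinLine G p) (hq : IsMinLine G q), p * q * p = 0 →
      classSpace G hp * classSpace G hq * classSpace G hp = ⊥ := by
    intro p q hp hq hpq
    rw [mul_assoc]
    refine le_bot_iff.mp (Submodule.mul_le.mpr fun x hx m hm => ?_)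
    induction hm using Submodule.mul_induction_on' with
    | mem_mul_mem y hy z hz =>
      rw [Submodule.mem_bot, ← mul_assoc]
      refine classSpace.mul_right hz ?_
      rcases hy with rfl | ⟨hy, hqy⟩
      · simp
      rw [mul_assoc]
      refine classSpace.mul_left hx ?_
      rw [← mul_assoc]
      exact triple_class h2 h3 hp hq hp hy (.refl p) hqy hpq
    | add y _ z _ hy hz => rw [mul_add]; exact add_mem hy hz
  have h1 := tri ha hb h
  have h1' := tri hb ha (triple_symm h2 h3 ha hb h)
  have hW3 : (U ⊔ V) ^ 3 = ⊥ := by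
    simp only [pow_succ, pow_zero, one_mul, Submodule.sup_mul, Submodule.mul_sup, hUU, hVV,
      Submodule.bot_mul, h1, h1', bot_sup_eq, sup_bot_eq]
    have h1a : U * (V * U) = ⊥ := by rw [← mul_assoc]; exact h1
    have h1b : V * (U * V) = ⊥ := by rw [← mul_assoc]; exact h1'
    simp [mul_assoc, hUU, hVV, h1a, h1b]
  set W := U ⊔ V
  have hII : (W ⊔ W ^ 2) * (W ⊔ W ^ 2) ≤ W ^ 2 := by
    simp only [Submodule.sup_mul, Submodule.mul_sup, sup_le_iff]
    refine ⟨⟨(pow_two W).ge, ?_⟩, ?_, ?_⟩
    · rw [← pow_succ, hW3]; exact bot_le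
    · rw [← pow_succ', hW3]; exact bot_le
    · rw [← pow_add, pow_succ, hW3, Submodule.bot_mul]; exact bot_le
  refine IsUnipGroup.of_le_span (I := W ⊔ W ^ 2) (n := 3) (by norm_num) ?_ ?_
  · refine le_bot_iff.mp ?_
    rw [pow_succ, pow_two (W ⊔ W ^ 2)]
    refine (mul_le_mul' hII le_rfl).trans ?_
    rw [Submodule.mul_sup, ← pow_succ, ← pow_add, pow_succ _ 3, hW3, Submodule.bot_mul, sup_bot_eq]
  rw [← Subgroup.closure_eq (classGroup ha), ← Subgroup.closure_eq (classGroup hb), ← Subgroup.closure_union]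
  refine augSpan_closure_le (hII.trans le_sup_right) ?_
  rintro g (hg | hg)
  · exact ⟨Submodule.mem_sup_left (Submodule.mem_sup_left hg),
      Submodule.mem_sup_left (Submodule.mem_sup_left ((classGroup ha).inv_mem hg))⟩
  · exact ⟨Submodule.mem_sup_left (Submodule.mem_sup_right hg),
      Submodule.mem_sup_left (Submodule.mem_sup_right ((classGroup hb).inv_mem hg))⟩

/-- Every minimal line has an opposite. -/
theorem exists_partner (h2 : (2 : k) ≠ 0) (h3 : Nat.card k ≠ 3) (hN : NoUnip G) (ha : IsMinLine G a) :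
    ∃ c, IsPartner G a c := by
  by_contra hno
  have hcase : ∀ b, IsMinLine G b → a * b * a = 0 := fun b hb => by
    rcases dichotomy h2 h3 ha hb with h | ⟨-, c, -, hc⟩
    exacts [h.1, absurd ⟨c, hc⟩ hno]
  let W : Set (Subgroup (Module.End k M)ˣ) :=
    {B | ∃ g ∈ G, B = (classGroup ha).map (MulAut.conj g).toMonoidHom}
  have hnrm : ∀ {g}, g ∈ G → g ∈ Subgroup.normalizer (G : Set (Module.End k M)ˣ) :=
    fun hg => Subgroup.le_normalizer hg
  have hWG : ∀ B ∈ W, B ≤ G := by
    rintro B ⟨g, hg, rfl⟩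
    rw [classGroup_conj ha (hnrm hg)]
    exact classGroup_le _
  have hconj : ∀ B ∈ W, ∀ g ∈ G, B.map (MulAut.conj g).toMonoidHom ∈ W := by
    rintro B ⟨h, hh, rfl⟩ g hg
    refine ⟨g * h, mul_mem hg hh, ?_⟩
    rw [Subgroup.map_map]; congr 1
  have hpair : ∀ B ∈ W, ∀ C ∈ W, IsUnipGroup k (B ⊔ C) := by
    rintro B ⟨g, hg, rfl⟩ C ⟨h, hh, rfl⟩
    rw [classGroup_conj ha (hnrm hg), classGroup_conj ha (hnrm hh)]
    refine isUnip_pair h2 h3 _ _ ?_
    have := hcase _ (ha.conj (hnrm (mul_mem (inv_mem hg) hh)))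
    have := congrArg (fun w => (g : Module.End k M) * w * (g⁻¹ : (Module.End k M)ˣ)) this
    simpa [mul_assoc] using this
  have hU := isUnipGroup_iSup_of_pairwise W (fun B hB C hC g hg => hconj B hB g (hWG C hC hg)) hpair
  have h0 := hN (⨆ B ∈ W, B) (iSup₂_le hWG) hU ?_
  · refine classGroup_ne_bot ha (le_bot_iff.mp (h0 ▸ ?_))
    exact le_iSup₂ (f := fun B _ => B) _ (show classGroup ha ∈ W from ⟨1, one_mem G, by
      rw [map_one]; exact (Subgroup.map_id _).symm⟩)
  intro g hg
  refine Subgroup.mem_normalizer_iff.mpr fun x => ?_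
  have key : ∀ g ∈ G, ∀ x ∈ (⨆ B ∈ W, B : Subgroup (Module.End k M)ˣ), g * x * g⁻¹ ∈ ⨆ B ∈ W, B := by
    intro g hg x hx
    have : g * x * g⁻¹ ∈ (⨆ B ∈ W, B : Subgroup (Module.End k M)ˣ).map (MulAut.conj g).toMonoidHom :=
      ⟨x, hx, rfl⟩
    refine (?_ : _ ≤ ⨆ B ∈ W, B) this
    simp only [Subgroup.map_iSup, iSup_le_iff]
    exact fun B hB => le_iSup₂ (f := fun B _ => B) _ (hconj B hB g hg)
  exact ⟨key g hg x, fun h => by simpa [mul_assoc] using key g⁻¹ (inv_mem hg) _ h⟩

end CfsgLib.Transpositions
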