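import Cfsg.Prelude.Def_RootSubgroups

/-!
Root subgroup sets seen inside the subgroup they generate.
-/
set_option autoImplicit false

open Cfsg
open scoped commutatorElement Pointwise

namespace CfsgLib.Transpositions

variable {Γ : Type*} [Group Γ] {H A B : Subgroup Γ}

lemma subgroupOf_inj_of_le (hA : A ≤ H) (hB : B ≤ H) (h : A.subgroupOf H = B.subgroupOf H) : A = B := by
  rw [← Subgroup.map_subgroupOf_eq_of_le hA, h, Subgroup.map_subgroupOf_eq_of_le hB]

lemma conjBy_le' (hA : A ≤ H) {g : Γ} (hg : g ∈ H) : Cfsg.conjBy A g ≤ H := by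
  rintro - ⟨x, hx, rfl⟩; exact mul_mem (mul_mem hg (hA hx)) (inv_mem hg)

lemma conjBy_subgroupOf (hA : A ≤ H) (g : H) :
    Cfsg.conjBy (A.subgroupOf H) g = (Cfsg.conjBy A (g : Γ)).subgroupOf H := by
  refine Subgroup.map_injective H.subtype_injective ?_
  rw [Subgroup.map_subgroupOf_eq_of_le (conjBy_le' hA g.2), Cfsg.conjBy, Subgroup.map_map]
  conv_rhs => rw [Cfsg.conjBy, ← Subgroup.map_subgroupOf_eq_of_le hA, Subgroup.map_map]
  congr 1

lemma commutator_subgroupOf (hA : A ≤ H) (hB : B ≤ H) :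
    ⁅A.subgroupOf H, B.subgroupOf H⁆ = ⁅A, B⁆.subgroupOf H := by
  refine Subgroup.map_injective H.subtype_injective ?_
  rw [Subgroup.map_commutator, Subgroup.map_subgroupOf_eq_of_le hA, Subgroup.map_subgroupOf_eq_of_le hB,
    Subgroup.map_subgroupOf_eq_of_le ((Subgroup.commutator_mono hA hB).trans (Subgroup.commutator_le_self H))]

lemma isRankOnePair_subgroupOf (hA : A ≤ H) (hB : B ≤ H) (h : Cfsg.IsRankOnePair A B) :
    Cfsg.IsRankOnePair (A.subgroupOf H) (B.subgroupOf H) := by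
  have cond : ∀ {A B : Subgroup Γ}, A ≤ H → B ≤ H → Cfsg.RankOneCondition A B →
      Cfsg.RankOneCondition (A.subgroupOf H) (B.subgroupOf H) := by
    intro A B hA hB hc a ha ha1
    obtain ⟨b, hb, hb1, e⟩ := hc a ha (fun h1 => ha1 (Subtype.ext h1))
    refine ⟨⟨b, hB hb⟩, hb, fun h1 => hb1 (congrArg Subtype.val h1), ?_⟩
    rw [conjBy_subgroupOf hA, conjBy_subgroupOf hB]
    simp only [Subgroup.coe_inv]
    rw [e]
  exact ⟨fun e => h.ne (subgroupOf_inj_of_le hA hB e),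
    (haveI := h.nilpotent_left; Group.nilpotent_of_mulEquiv (Subgroup.subgroupOfEquivOfLe hA).symm),
    (haveI := h.nilpotent_right; Group.nilpotent_of_mulEquiv (Subgroup.subgroupOfEquivOfLe hB).symm),
    cond hA hB h.cond_left, cond hB hA h.cond_right⟩

lemma rootCommutatorCase_subgroupOf {S : Set (Subgroup Γ)} (hA : A ≤ H) (hB : B ≤ H)
    (h : Cfsg.RootCommutatorCase S A B) :
    Cfsg.RootCommutatorCase ((fun C : Subgroup Γ => C.subgroupOf H) '' S) (A.subgroupOf H) (B.subgroupOf H) := by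
  obtain ⟨h1, h2, h3, h4⟩ := h
  have hC : ⁅A, B⁆ ≤ H := (Subgroup.commutator_mono hA hB).trans (Subgroup.commutator_le_self H)
  refine ⟨⟨_, h1, (commutator_subgroupOf hA hB).symm⟩, ?_, ?_, ?_⟩
  · intro c hc x hx
    rw [commutator_subgroupOf hA hB] at hc
    rw [← Subgroup.subgroupOf_sup hA hB] at hx
    exact Subtype.ext (h2 _ hc _ hx)
  · intro a ha ha1
    refine Subgroup.map_injective H.subtype_injective ?_
    rw [MonoidHom.map_closure, commutator_subgroupOf hA hB, Subgroup.map_subgroupOf_eq_of_le hC,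
      ← h3 a ha (fun e => ha1 (Subtype.ext e)), ← Set.image_comp]
    congr 1
    refine Set.ext fun y => ⟨?_, ?_⟩
    · rintro ⟨b, hb, rfl⟩; exact ⟨(b : Γ), hb, rfl⟩
    · rintro ⟨b, hb, rfl⟩; exact ⟨⟨b, hB hb⟩, hb, rfl⟩
  · intro b hb hb1
    refine Subgroup.map_injective H.subtype_injective ?_
    rw [MonoidHom.map_closure, commutator_subgroupOf hA hB, Subgroup.map_subgroupOf_eq_of_le hC,
      ← h4 b hb (fun e => hb1 (Subtype.ext e)), ← Set.image_comp]
    congr 1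
    refine Set.ext fun y => ⟨?_, ?_⟩
    · rintro ⟨a, ha, rfl⟩; exact ⟨(a : Γ), ha, rfl⟩
    · rintro ⟨a, ha, rfl⟩; exact ⟨⟨a, hA ha⟩, ha, rfl⟩

/-- Transfer of the root subgroup axioms into the generated subgroup. -/
theorem isRootSubgroupSet_image {S : Set (Subgroup Γ)} (hgen : (⨆ A ∈ S, A) = H)
    (hcomm : ∀ A ∈ S, IsMulCommutative A) (hne : ∀ A ∈ S, A ≠ ⊥)
    (hconj : ∀ A ∈ S, ∀ g ∈ H, Cfsg.conjBy A g ∈ S)
    (hpair : ∀ A ∈ S, ∀ B ∈ S, ⁅A, B⁆ = ⊥ ∨ Cfsg.IsRankOnePair A B ∨ Cfsg.RootCommutatorCase S A B) :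
    Cfsg.IsRootSubgroupSet ((fun A : Subgroup Γ => A.subgroupOf H) '' S) := by
  have hle : ∀ A ∈ S, A ≤ H := fun A hA => hgen ▸ le_iSup₂ (f := fun B _ => B) A hA
  refine ⟨?_, ?_, ?_, ?_, ?_⟩
  · rintro - ⟨A, hA, rfl⟩
    refine ⟨⟨fun u v => (Subgroup.subgroupOfEquivOfLe (hle A hA)).injective ?_⟩⟩
    rw [map_mul, map_mul]
    exact (hcomm A hA).1.1 _ _
  · rintro - ⟨A, hA, rfl⟩ h
    exact hne A hA (subgroupOf_inj_of_le (hle A hA) bot_le (h.trans (Subgroup.bot_subgroupOf H).symm))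
  · refine Subgroup.map_injective H.subtype_injective ?_
    rw [← MonoidHom.range_eq_map, Subgroup.range_subtype, Subgroup.map_iSup]
    conv_rhs => rw [← hgen]
    refine le_antisymm (iSup_le fun C => ?_) (iSup₂_le fun A hA => ?_)
    · rw [Subgroup.map_iSup]
      refine iSup_le fun hC => ?_
      obtain ⟨A, hA, rfl⟩ := hC
      rw [Subgroup.map_subgroupOf_eq_of_le (hle A hA)]
      exact le_iSup₂ (f := fun B _ => B) A hA
    · refine le_iSup_of_le (A.subgroupOf H) ?_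
      rw [Subgroup.map_iSup]
      refine le_iSup_of_le ⟨A, hA, rfl⟩ ?_
      rw [Subgroup.map_subgroupOf_eq_of_le (hle A hA)]
  · rintro - ⟨A, hA, rfl⟩ g
    exact ⟨_, hconj A hA g g.2, (conjBy_subgroupOf (hle A hA) g).symm⟩
  · rintro - ⟨A, hA, rfl⟩ - ⟨B, hB, rfl⟩
    rcases hpair A hA B hB with h | h | h
    · left; rw [commutator_subgroupOf (hle A hA) (hle B hB), h, Subgroup.bot_subgroupOf]
    · exact Or.inr (Or.inl (isRankOnePair_subgroupOf (hle A hA) (hle B hB) h))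
    · exact Or.inr (Or.inr (rootCommutatorCase_subgroupOf (hle A hA) (hle B hB) h))

end CfsgLib.Transpositions
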