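import Cfsg.Agent.Lib.Transpositions.RootTransferPairs

/-!
Root subgroups over a field inside the subgroup they generate, all three cases allowed.
-/
set_option autoImplicit false

open Cfsg
open scoped commutatorElement

namespace CfsgLib.Transpositions

variable {Γ : Type*} [Group Γ]

theorem kRootSet_image {k : Type*} [Field k] {S : Set (Subgroup Γ)}
    (hcomm : ∀ A ∈ S, IsMulCommutative A) (hne : ∀ A ∈ S, A ≠ ⊥)
    (hconj : ∀ A ∈ S, ∀ g : Γ, conjBy A g ∈ S)
    (hcases : ∀ A ∈ S, ∀ B ∈ S, ⁅A, B⁆ = ⊥ ∨ (IsRankOnePair A B ∧ IsPSL2PairOver k A B) ∨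
      RootCommutatorCase S A B) :
    IsKRootSubgroupSet k ((fun A : Subgroup Γ => A.subgroupOf (⨆ B ∈ S, B)) '' S) := by
  have hle : ∀ A ∈ S, A ≤ ⨆ B ∈ S, B := fun A hA => le_iSup₂ (f := fun B _ => B) A hA
  have hset := isRootSubgroupSet_image (S := S) rfl hcomm hne (fun A hA g _ => hconj A hA g)
    fun A hA B hB => (hcases A hA B hB).imp_right (Or.imp_left And.left)
  refine ⟨hset, ?_⟩
  rintro - ⟨A, hA, rfl⟩ - ⟨B, hB, rfl⟩ hp
  rcases hcases A hA B hB with h | h | h
  · refine absurd hp (CfsgLib.RootGroups.not_rankOne_of_commute ?_)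
    rw [commutator_subgroupOf (hle A hA) (hle B hB), h, Subgroup.bot_subgroupOf]
  · exact isPSL2PairOver_subgroupOf (hle A hA) (hle B hB) h.2
  · exact absurd hp (CfsgLib.RootGroups.not_rankOne_of_rootCommutatorCase hset ⟨B, hB, rfl⟩
      (rootCommutatorCase_subgroupOf (hle A hA) (hle B hB) h))

end CfsgLib.Transpositions
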