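import Cfsg.Agent.Lib.Transpositions.RootTransfer
import Cfsg.Agent.Lib.RootGroups.Sets

/-!
Rank one pairs over a field inside a subgroup; conjugacy along rank one pairs.
-/
set_option autoImplicit false

open Cfsg
open scoped commutatorElement

namespace CfsgLib.Transpositions

variable {Γ : Type*} [Group Γ] {H A B : Subgroup Γ}

lemma isPSL2PairOver_subgroupOf {k : Type*} [Field k] (hA : A ≤ H) (hB : B ≤ H)
    (h : IsPSL2PairOver k A B) : IsPSL2PairOver k (A.subgroupOf H) (B.subgroupOf H) := by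
  obtain ⟨φ, hr, hk, h1, h2⟩ := h
  have hH : ∀ x, φ x ∈ H := fun x => (hr.le.trans (sup_le hA hB)) ⟨x, rfl⟩
  have hc : H.subtype.comp (φ.codRestrict H hH) = φ := MonoidHom.ext fun _ => rfl
  refine ⟨φ.codRestrict H hH, ?_, ?_, ?_, ?_⟩
  · refine Subgroup.map_injective H.subtype_injective ?_
    rw [MonoidHom.map_range, hc, hr, Subgroup.map_sup, Subgroup.map_subgroupOf_eq_of_le hA,
      Subgroup.map_subgroupOf_eq_of_le hB]
  · intro x hx
    exact hk (MonoidHom.mem_ker.2 (congrArg Subtype.val (MonoidHom.mem_ker.1 hx)))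
  · refine Subgroup.map_injective H.subtype_injective ?_
    rw [Subgroup.map_map, hc, h1, Subgroup.map_subgroupOf_eq_of_le hA]
  · refine Subgroup.map_injective H.subtype_injective ?_
    rw [Subgroup.map_map, hc, h2, Subgroup.map_subgroupOf_eq_of_le hB]

lemma exists_conj_of_fReach {S : Set (Subgroup Γ)} {A B : Subgroup Γ}
    (h : Relation.ReflTransGen (FAdj S) A B) : ∃ g : Γ, B = conjBy A g := by
  induction h with
  | refl => exact ⟨1, (CfsgLib.RootGroups.conjBy_one A).symm⟩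
  | tail _ hadj ih =>
    obtain ⟨g, rfl⟩ := ih
    obtain ⟨a, b, hab⟩ := CfsgLib.RootGroups.exists_paired_pair hadj.2.2
    exact ⟨(a * b⁻¹) * g, by rw [← CfsgLib.RootGroups.conjBy_conjBy, hab.conj_left]⟩

theorem isConjClass_of_connected {S : Set (Subgroup Γ)} (hne : S.Nonempty)
    (hc : IsConnectedFamily (FAdj S) S) : IsConjClassOfSubgroups S :=
  ⟨hne, fun A hA B hB => exists_conj_of_fReach (hc A hA B hB)⟩

/-- A set of subgroups whose pairs commute or are rank one pairs over `k`, seen in the subgroup it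
generates, with connected graph. -/
theorem degenerate_package {k : Type*} [Field k] {S : Set (Subgroup Γ)}
    (hcomm : ∀ A ∈ S, IsMulCommutative A) (hne : ∀ A ∈ S, A ≠ ⊥) (hS : S.Nonempty)
    (hconj : ∀ A ∈ S, ∀ g : Γ, conjBy A g ∈ S)
    (hcases : ∀ A ∈ S, ∀ B ∈ S, ⁅A, B⁆ = ⊥ ∨ (IsRankOnePair A B ∧ IsPSL2PairOver k A B))
    (hconn : IsConnectedFamily (FAdj S) S) :
    IsRootSubgroupClass ((fun A : Subgroup Γ => A.subgroupOf (⨆ B ∈ S, B)) '' S) ∧
    IsDegenerateRootSet ((fun A : Subgroup Γ => A.subgroupOf (⨆ B ∈ S, B)) '' S) ∧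
    IsKRootSubgroupSet k ((fun A : Subgroup Γ => A.subgroupOf (⨆ B ∈ S, B)) '' S) ∧
    IsConnectedFamily (FAdj ((fun A : Subgroup Γ => A.subgroupOf (⨆ B ∈ S, B)) '' S))
      ((fun A : Subgroup Γ => A.subgroupOf (⨆ B ∈ S, B)) '' S) := by
  have hle : ∀ A ∈ S, A ≤ ⨆ B ∈ S, B := fun A hA => le_iSup₂ (f := fun B _ => B) A hA
  set H := ⨆ B ∈ S, B with hH
  set S' := (fun A : Subgroup Γ => A.subgroupOf H) '' S with hS'
  have hset : IsRootSubgroupSet S' := isRootSubgroupSet_image hH.symm hcomm hne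
    (fun A hA g _ => hconj A hA g) fun A hA B hB => (hcases A hA B hB).imp_right fun h => Or.inl h.1
  have hcases' : ∀ A ∈ S', ∀ B ∈ S', ⁅A, B⁆ = ⊥ ∨ (IsRankOnePair A B ∧ IsPSL2PairOver k A B) := by
    rintro - ⟨A, hA, rfl⟩ - ⟨B, hB, rfl⟩
    rcases hcases A hA B hB with h | h
    · left; rw [commutator_subgroupOf (hle A hA) (hle B hB), h, Subgroup.bot_subgroupOf]
    · exact Or.inr ⟨isRankOnePair_subgroupOf (hle A hA) (hle B hB) h.1,
        isPSL2PairOver_subgroupOf (hle A hA) (hle B hB) h.2⟩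
  have hconn' : IsConnectedFamily (FAdj S') S' := by
    rintro - ⟨A, hA, rfl⟩ - ⟨B, hB, rfl⟩
    exact Relation.ReflTransGen.lift (fun C : Subgroup Γ => C.subgroupOf H)
      (fun C D h => ⟨⟨C, h.1, rfl⟩, ⟨D, h.2.1, rfl⟩,
        isRankOnePair_subgroupOf (hle C h.1) (hle D h.2.1) h.2.2⟩) _ _ (hconn A hA B hB)
  refine ⟨⟨hset, isConjClass_of_connected (hS.image _) hconn'⟩, ?_, ⟨hset, ?_⟩, hconn'⟩
  · intro A hA B hB h
    rcases hcases' A hA B hB with h' | h'
    · exact hset.ne_bot _ (h' ▸ h.1) rfl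
    · exact CfsgLib.RootGroups.not_rankOne_of_rootCommutatorCase hset hB h h'.1
  · intro A hA B hB hp
    rcases hcases' A hA B hB with h | h
    · exact absurd hp (CfsgLib.RootGroups.not_rankOne_of_commute h)
    · exact h.2

end CfsgLib.Transpositions
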