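import Cfsg.Agent.Lib.Transpositions.SL2Field
import Cfsg.Agent.Lib.Transpositions.PairTheorems

/-!
Two non-unipotent minimal lines generate `SL₂` of a simple algebraic extension.
-/
set_option autoImplicit false

open Polynomial

namespace CfsgLib.Transpositions

universe u

variable {k : Type u} [Field k] {A : Type*} [Ring A] [Algebra k A] {a b : A}

/-- The corner map is faithful once the quotient is a field and `a ≠ 0`. -/
lemma CornerData.hom_injective (D : CornerData k a b) (hirr : Irreducible D.poly) (ha : a ≠ 0) :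
    Function.Injective D.hom := by
  refine (injective_iff_map_eq_one D.hom).mpr fun g hg => ?_
  have h0 : D.toA ((g : Matrix (Fin 2) (Fin 2) D.Ring') - 1) = 0 := by
    have := congrArg (fun u : Aˣ => (u : A)) hg
    exact add_eq_left.mp this
  set X' := (g : Matrix (Fin 2) (Fin 2) D.Ring') - 1 with hX
  have hzero : ∀ i j, X' i j = 0 := by
    intro i j
    have h1 : D.toA (Matrix.single 0 i 1 * X' * Matrix.single j 1 1) = 0 := by
      rw [toA_mul, toA_mul, h0, mul_zero, zero_mul]
    have h2 : Matrix.single (0 : Fin 2) i (1 : D.Ring') * X' * Matrix.single j (1 : Fin 2) 1 =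
        Matrix.single 0 1 (X' i j) := by
      rw [Matrix.single_mul_mul_single, one_mul, mul_one]
    rw [h2] at h1
    obtain ⟨P, hP⟩ := AdjoinRoot.mk_surjective (X' i j)
    rw [← hP] at h1 ⊢
    have h3 : aeval (a * b + b * a) P * a = 0 := by
      have := evalTimes_mk D.monic D.kill_a P
      simpa [CornerData.toA, Fin.sum_univ_two, CornerData.unit', this] using h1
    rw [AdjoinRoot.mk_eq_zero]
    by_contra hnd
    obtain ⟨U, V, hUV⟩ := hirr.coprime_iff_not_dvd.mpr hnd
    apply ha
    calc a = aeval (a * b + b * a) (U * D.poly + V * P) * a := by rw [hUV, map_one, one_mul]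
      _ = 0 := by rw [map_add, map_mul, map_mul, add_mul, mul_assoc, mul_assoc, D.kill_a, h3]; simp
  apply Subtype.ext
  rw [← sub_eq_zero]
  exact Matrix.ext hzero

/-- A line pair with a field as corner is `SL₂` of a simple extension. -/
theorem exists_sl2_extension [FiniteDimensional k A] (D : CornerData k a b) (hirr : Irreducible D.poly) (ha : a ≠ 0)
    (h2 : (2 : k) ≠ 0) (h3 : Nat.card k ≠ 3) :
    ∃ (K : Type u) (_ : Field K) (_ : Algebra k K) (lam : K), IsAlgebraic k lam ∧
      IntermediateField.adjoin k ({lam} : Set K) = ⊤ ∧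
      Nonempty (↥(Subgroup.closure (linePair k a b)) ≃* Matrix.SpecialLinearGroup (Fin 2) K) := by
  haveI : Fact (Irreducible D.poly) := ⟨hirr⟩
  haveI : FiniteDimensional k D.Ring' := D.finiteDimensional
  refine ⟨AdjoinRoot D.poly, inferInstance, inferInstance, AdjoinRoot.root D.poly,
    Algebra.IsAlgebraic.isAlgebraic _, ?_, ?_⟩
  · refine eq_top_iff.mpr fun x _ => ?_
    have hx : x ∈ Algebra.adjoin k ({AdjoinRoot.root D.poly} : Set (AdjoinRoot D.poly)) := by
      rw [AdjoinRoot.adjoinRoot_eq_top]; trivial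
    exact IntermediateField.algebra_adjoin_le_adjoin k _ hx
  · have htop := lineGen_eq_top h2 h3 D.Ring' D.rootUnit D.adjoin_root
    have hr : D.hom.range = Subgroup.closure (linePair k a b) := by
      rw [MonoidHom.range_eq_map, ← htop, lineGen, MonoidHom.map_closure]
      congr 1
      refine Set.ext fun g => ⟨?_, ?_⟩
      · rintro ⟨-, ⟨c, rfl⟩ | ⟨c, rfl⟩, rfl⟩
        · refine ⟨c, Or.inl ?_⟩
          beta_reduce
          rw [show algebraMap k D.Ring' c = AdjoinRoot.mk D.poly (C c) from rfl, D.hom_u12, aeval_C, Algebra.smul_def]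
        · refine ⟨c, Or.inr ?_⟩
          beta_reduce
          rw [show algebraMap k D.Ring' c * (D.rootUnit : D.Ring') = AdjoinRoot.mk D.poly (C c * X) by
            rw [map_mul, AdjoinRoot.mk_X]; rfl]
          rw [D.hom_u21, map_mul, aeval_C, aeval_X, mul_assoc, ← mul_assoc (a * b + b * a), D.zw_mul D.kill_b,
            Algebra.smul_def]
      · rintro ⟨c, hc | hc⟩
        · refine ⟨_, Or.inl ⟨c, rfl⟩, Units.ext ?_⟩
          beta_reduce
          rw [show algebraMap k D.Ring' c = AdjoinRoot.mk D.poly (C c) from rfl, D.hom_u12, aeval_C, hc,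
            Algebra.smul_def]
        · refine ⟨_, Or.inr ⟨c, rfl⟩, Units.ext ?_⟩
          beta_reduce
          rw [show algebraMap k D.Ring' c * (D.rootUnit : D.Ring') = AdjoinRoot.mk D.poly (C c * X) by
            rw [map_mul, AdjoinRoot.mk_X]; rfl]
          rw [D.hom_u21, map_mul, aeval_C, aeval_X, mul_assoc, ← mul_assoc (a * b + b * a), D.zw_mul D.kill_b,
            hc, Algebra.smul_def]
    exact ⟨(MulEquiv.subgroupCongr hr.symm).trans
      (MonoidHom.ofInjective (D.hom_injective hirr ha)).symm⟩

variable {M : Type*} [AddCommGroup M] [Module k M] [FiniteDimensional k M]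
variable {G : Subgroup (Module.End k M)ˣ}

/-- On a minimal pair the annihilating polynomials form a prime ideal. -/
theorem exists_corner (h2 : (2 : k) ≠ 0) (h3 : Nat.card k ≠ 3) {a b : Module.End k M} (ha : IsMinLine G a)
    (hb : IsMinLine G b) (hab : a * b * a ≠ 0) :
    ∃ D : CornerData k a b, Irreducible D.poly := by
  classical
  obtain ⟨E, hE0, hεε, hlines, N, hNa, hNb⟩ := split_pair h2 h3 ha.1 hb.1
  set z := a * b + b * a with hz
  set ε := aeval z E with hε
  have hca : Commute ε a := commute_aeval (commute_pairZ_left ha.sq) E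
  have hG : ⁅G, G⁆ ≤ G := Subgroup.commutator_le_self G
  have hεa : ε * a ≠ 0 := by
    intro h0
    rw [h0, sub_zero] at hNa
    exact hab (triple_eq_zero_of_nilpotent h2 ha N b hb.1 hNa)
  have hfix : ε * a = a := by
    obtain ⟨-, hs⟩ := ha.of_le (by simpa using ((hlines 1).1).mono hG) hεa (by rw [hca.eq]; exact range_mul_le _ _)
      (ker_le_ker_mul _ _)
    ext m
    obtain ⟨m', hm'⟩ : a m ∈ LinearMap.range (ε * a) := hs.1 ▸ LinearMap.mem_range_self a m
    rw [Module.End.mul_apply, ← hm', ← Module.End.mul_apply, ← mul_assoc, hεε]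
  have hcz : ∀ P : k[X], Commute (aeval z P) a := fun P => commute_aeval (commute_pairZ_left ha.sq) P
  have hprime : ∀ P Q : k[X], aeval z (P * Q) * a = 0 → aeval z P * a = 0 ∨ aeval z Q * a = 0 := by
    intro P Q h
    by_cases hQ : aeval z Q * a = 0
    · exact Or.inr hQ
    left
    have hline : IsLine k G (aeval z Q * a) := by
      have := ((hlines Q).1).mono hG; rwa [hfix] at this
    obtain ⟨-, hs⟩ := ha.of_le hline hQ (by rw [(hcz Q).eq]; exact range_mul_le _ _) (ker_le_ker_mul _ _)
    ext m
    obtain ⟨m', hm'⟩ : a m ∈ LinearMap.range (aeval z Q * a) := hs.1 ▸ LinearMap.mem_range_self a m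
    rw [Module.End.mul_apply, ← hm', ← Module.End.mul_apply, ← mul_assoc, ← map_mul, h]; rfl
  have hex : ∀ P : k[X], P ≠ 0 → aeval z P * a = 0 → ∃ q : k[X], Irreducible q ∧ aeval z q * a = 0 := by
    intro P
    induction P using WfDvdMonoid.induction_on_irreducible with
    | zero => intro h; exact absurd rfl h
    | unit u hu =>
      intro _ h
      obtain ⟨r, hr, rfl⟩ := Polynomial.isUnit_iff.mp hu
      rw [aeval_C, Algebra.algebraMap_eq_smul_one, smul_mul_assoc, one_mul, smul_eq_zero] at h
      exact absurd (h.resolve_left hr.ne_zero) ha.2.1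
    | mul Q q hQ hq ih =>
      intro _ h
      rcases hprime q Q h with h' | h'
      · exact ⟨q, hq, h'⟩
      · exact ih hQ h'
  obtain ⟨q₀, hq₀, hq₀a⟩ := hex (minpoly k z) (minpoly.ne_zero (.of_finite k z))
    (by rw [minpoly.aeval, zero_mul])
  set q := q₀ * C q₀.leadingCoeff⁻¹ with hq
  have hqm : q.Monic := monic_mul_leadingCoeff_inv hq₀.ne_zero
  have hqi : Irreducible q := by
    rw [hq]
    exact (irreducible_mul_isUnit (isUnit_C.mpr (IsUnit.mk0 _ (inv_ne_zero (leadingCoeff_ne_zero.mpr hq₀.ne_zero))))).mpr hq₀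
  have hqa : aeval z q * a = 0 := by
    rw [hq, mul_comm, map_mul, mul_assoc, hq₀a, mul_zero]
  have hza : z * a = a * b * a := by rw [hz, add_mul, mul_assoc b a a, ha.sq, mul_zero, add_zero]
  have hzb : z * b = b * a * b := by rw [hz, add_mul, mul_assoc a b b, hb.sq, mul_zero, zero_add]
  have hq0 : q.coeff 0 ≠ 0 := by
    intro h0
    obtain ⟨u, hu⟩ := (Polynomial.irreducible_X.associated_of_dvd hqi (X_dvd_iff.mpr h0))
    apply hab
    rw [← hza]
    have hX : (X : k[X]) = ((u⁻¹ : k[X]ˣ) : k[X]) * q := by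
      rw [← hu, mul_comm, mul_assoc, Units.mul_inv, mul_one]
    rw [show z = aeval z (X : k[X]) from (aeval_X z).symm, hX, map_mul, mul_assoc, hqa, mul_zero]
  have hqb : aeval z q * b = 0 := by
    have hbab : b * a * b ≠ 0 := fun h => hab (triple_symm h2 h3 hb ha h)
    have hcb : Commute ε b := commute_aeval (commute_pairZ_right hb.sq) E
    have hεb : ε * b ≠ 0 := by
      intro h0
      rw [h0, sub_zero] at hNb
      exact hbab (triple_eq_zero_of_nilpotent h2 hb N a ha.1 (by rw [add_comm (b * a)]; exact hNb))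
    obtain ⟨hm, hs⟩ := hb.of_le (by simpa using ((hlines 1).2).mono hG) hεb (by rw [hcb.eq]; exact range_mul_le _ _)
      (ker_le_ker_mul _ _)
    have hfixb : ε * b = b := by
      ext m
      obtain ⟨m', hm'⟩ : b m ∈ LinearMap.range (ε * b) := hs.1 ▸ LinearMap.mem_range_self b m
      rw [Module.End.mul_apply, ← hm', ← Module.End.mul_apply, ← mul_assoc, hεε]
    by_contra hne
    have hline : IsLine k G (aeval z q * b) := by
      have := ((hlines q).2).mono hG; rwa [hfixb] at this
    have hcq : Commute (aeval z q) b := commute_aeval (commute_pairZ_right hb.sq) q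
    obtain ⟨-, hs'⟩ := hb.of_le hline hne (by rw [hcq.eq]; exact range_mul_le _ _) (ker_le_ker_mul _ _)
    apply hbab
    have hzero : z * (aeval z q * b) = 0 := by
      have hcz' : Commute z (aeval z q) := (commute_aeval (Commute.refl z) q).symm
      calc z * (aeval z q * b) = aeval z q * (z * b) := by rw [← mul_assoc, hcz'.eq, mul_assoc]
        _ = (aeval z q * b) * (a * b) := by rw [hzb]; simp only [mul_assoc]
        _ = b * (aeval z q * a) * b := by rw [hcq.eq]; simp only [mul_assoc]
        _ = 0 := by rw [hqa]; simp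
    rw [← hzb]
    ext m
    obtain ⟨m', hm'⟩ : b m ∈ LinearMap.range (aeval z q * b) := hs'.1 ▸ LinearMap.mem_range_self b m
    rw [Module.End.mul_apply, ← hm', ← Module.End.mul_apply, hzero]
    rfl
  exact ⟨⟨q, hqm, hq0, ha.sq, hb.sq, hqa, hqb⟩, hqi⟩

end CfsgLib.Transpositions
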