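import Cfsg.Agent.Lib.Transpositions.LineDecomp
import Cfsg.Agent.Lib.Transpositions.SL2Field
import Cfsg.Prelude.Def_RootSubgroups

/-!
Two opposite lines give a copy of `SL₂(k)`.
-/
set_option autoImplicit false

open Cfsg

namespace CfsgLib.Transpositions

variable {k : Type*} [Field k] {M : Type*} [AddCommGroup M] [Module k M]
variable {a c : Module.End k M}

/-- The endomorphism attached to a `2 × 2` matrix. -/
def oppVal (a c : Module.End k M) (g : Matrix (Fin 2) (Fin 2) k) : Module.End k M :=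
  1 + (g 0 0 - 1) • (a * c) + g 0 1 • a + g 1 0 • c + (g 1 1 - 1) • (c * a)

lemma oppVal_mul (ha : a * a = 0) (hc : c * c = 0) (hac : a * c * a = a) (hca : c * a * c = c)
    (g h : Matrix (Fin 2) (Fin 2) k) : oppVal a c g * oppVal a c h = oppVal a c (g * h) := by
  have aa : ∀ y, a * (a * y) = 0 := fun y => by rw [← mul_assoc, ha, zero_mul]
  have cc : ∀ y, c * (c * y) = 0 := fun y => by rw [← mul_assoc, hc, zero_mul]
  have k1 : ∀ y, a * (c * (a * y)) = a * y := fun y => by rw [← mul_assoc, ← mul_assoc, hac]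
  have k2 : ∀ y, c * (a * (c * y)) = c * y := fun y => by rw [← mul_assoc, ← mul_assoc, hca]
  have k3 : a * (c * a) = a := by rw [← mul_assoc, hac]
  have k4 : c * (a * c) = c := by rw [← mul_assoc, hca]
  simp only [oppVal, Matrix.mul_apply, Fin.sum_univ_two, add_mul, mul_add, one_mul, mul_one, smul_mul_assoc,
    mul_smul_comm, mul_assoc, ha, hc, aa, cc, k1, k2, k3, k4, mul_zero, smul_zero, add_zero, zero_add, smul_add,
    smul_smul]
  match_scalars <;> ring

theorem isPSL2PairOver_lines (ha : a * a = 0) (hc : c * c = 0) (hac : a * c * a = a) (hca : c * a * c = c)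
    (ha0 : a ≠ 0) : Cfsg.IsPSL2PairOver k (lineGroup k a ha) (lineGroup k c hc) := by
  let f : Matrix.SpecialLinearGroup (Fin 2) k →* Module.End k M :=
    { toFun := fun g => oppVal a c g
      map_one' := by simp [oppVal]
      map_mul' := fun g h => (oppVal_mul ha hc hac hca _ _).symm }
  let φ := f.toHomUnits
  have hval : ∀ g, (φ g : Module.End k M) = oppVal a c g := fun g => rfl
  have h12 : ∀ t, (φ (u12 t) : Module.End k M) = 1 + t • a := fun t => by simp [hval, oppVal]
  have h21 : ∀ t, (φ (u21 t) : Module.End k M) = 1 + t • c := fun t => by simp [hval, oppVal]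
  have hup : upperUnipotentSL2 k = Subgroup.closure (Set.range (u12 : k → _)) := by
    refine congrArg Subgroup.closure (Set.ext fun g => ⟨?_, ?_⟩)
    · rintro ⟨h1, h2, h3⟩; exact ⟨g 0 1, sl2_ext (by simp [h2]) (by simp) (by simp [h1]) (by simp [h3])⟩
    · rintro ⟨t, rfl⟩; simp
  have hlo : lowerUnipotentSL2 k = Subgroup.closure (Set.range (u21 : k → _)) := by
    refine congrArg Subgroup.closure (Set.ext fun g => ⟨?_, ?_⟩)
    · rintro ⟨h1, h2, h3⟩; exact ⟨g 1 0, sl2_ext (by simp [h2]) (by simp [h1]) (by simp) (by simp [h3])⟩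
    · rintro ⟨t, rfl⟩; simp
  have hA : (upperUnipotentSL2 k).map φ = lineGroup k a ha := by
    rw [hup, MonoidHom.map_closure]
    refine le_antisymm ((Subgroup.closure_le _).mpr ?_) fun g ⟨t, ht⟩ =>
      Subgroup.subset_closure ⟨_, ⟨t, rfl⟩, Units.ext ((h12 t).trans ht.symm)⟩
    rintro - ⟨-, ⟨t, rfl⟩, rfl⟩; exact ⟨t, h12 t⟩
  have hB : (lowerUnipotentSL2 k).map φ = lineGroup k c hc := by
    rw [hlo, MonoidHom.map_closure]
    refine le_antisymm ((Subgroup.closure_le _).mpr ?_) fun g ⟨t, ht⟩ =>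
      Subgroup.subset_closure ⟨_, ⟨t, rfl⟩, Units.ext ((h21 t).trans ht.symm)⟩
    rintro - ⟨-, ⟨t, rfl⟩, rfl⟩; exact ⟨t, h21 t⟩
  refine ⟨φ, ?_, ?_, hA, hB⟩
  · rw [← hA, ← hB, ← Subgroup.map_sup, MonoidHom.range_eq_map]
    congr 1
    symm
    exact eq_top_of_unitriangular
      (fun t => Subgroup.mem_sup_left (hup ▸ Subgroup.subset_closure ⟨t, rfl⟩))
      (fun t => Subgroup.mem_sup_right (hlo ▸ Subgroup.subset_closure ⟨t, rfl⟩))
  · intro g hg
    rw [MonoidHom.mem_ker, ← Units.val_inj, hval, Units.val_one] at hg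
    have aa : ∀ y, a * (a * y) = 0 := fun y => by rw [← mul_assoc, ha, zero_mul]
    have cc : ∀ y, c * (c * y) = 0 := fun y => by rw [← mul_assoc, hc, zero_mul]
    have k3 : a * (c * a) = a := by rw [← mul_assoc, hac]
    have k4 : c * (a * c) = c := by rw [← mul_assoc, hca]
    have hX : (g 0 0 - 1) • (a * c) + g 0 1 • a + g 1 0 • c + (g 1 1 - 1) • (c * a) = 0 := by
      simp only [oppVal, add_assoc, add_eq_left] at hg ⊢; exact hg
    have e1 := congrArg (fun z => z * a) hX
    have e2 := congrArg (fun z => a * z) hX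
    have e3 := congrArg (fun z => a * z * a) hX
    simp only [add_mul, smul_mul_assoc, mul_assoc, ha, k3, mul_zero, smul_zero, add_zero, zero_mul] at e1
    simp only [mul_add, mul_smul_comm, ha, aa, k3, mul_zero, smul_zero, zero_add] at e2
    simp only [mul_add, add_mul, mul_smul_comm, smul_mul_assoc, mul_assoc, ha, aa, cc, k3, mul_zero, smul_zero,
      add_zero, zero_add, zero_mul] at e3
    have z10 : g 1 0 = 0 := (smul_eq_zero.mp e3).resolve_right ha0
    rw [z10, zero_smul, add_zero] at e1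
    have z00 : g 0 0 - 1 = 0 := (smul_eq_zero.mp e1).resolve_right ha0
    rw [z10, zero_smul, zero_add] at e2
    have z11 : g 1 1 - 1 = 0 := (smul_eq_zero.mp e2).resolve_right ha0
    rw [z10, z00, z11, zero_smul, zero_smul, zero_smul, zero_add, add_zero, add_zero] at hX
    have z01 : g 0 1 = 0 := (smul_eq_zero.mp hX).resolve_right ha0
    rw [show g = 1 from sl2_ext (by simpa using sub_eq_zero.mp z00) (by simpa using z01) (by simpa using z10)
      (by simpa using sub_eq_zero.mp z11)]
    exact one_mem _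

end CfsgLib.Transpositions
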