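import Cfsg.Agent.Lib.Transpositions.RootLines
import Cfsg.Prelude.Def_Classical

/-!
Siegel transvections of the hyperbolic quadratic space.
-/
set_option autoImplicit false

open Cfsg Matrix
open scoped commutatorElement

namespace CfsgLib.Transpositions

variable {F : Type*} [Field F] {N : ℕ}

local notation "V" => (Fin N ⊕ Fin N → F)
local notation "Mat" => Matrix (Fin N ⊕ Fin N) (Fin N ⊕ Fin N) F
local notation "Q" => Cfsg.quadFormPlus N F

/-- The polar form of the hyperbolic quadratic form. -/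
def hyB (u v : V) : F := (v ∘ Sum.swap) ⬝ᵥ u

lemma hyB_eq (u v : V) :
    hyB u v = ∑ i : Fin N, (u (.inl i) * v (.inr i) + u (.inr i) * v (.inl i)) := by
  rw [hyB, dotProduct, Fintype.sum_sum_type, Finset.sum_add_distrib]
  simp [mul_comm]

lemma hyB_comm (u v : V) : hyB u v = hyB v u := by
  rw [hyB_eq, hyB_eq]; exact Finset.sum_congr rfl fun i _ => by ring

lemma quadPlus_add (u v : V) : Q (u + v) = Q u + Q v + hyB u v := by
  simp only [Cfsg.quadFormPlus, hyB_eq, ← Finset.sum_add_distrib, Pi.add_apply]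
  exact Finset.sum_congr rfl fun i _ => by ring

lemma quadPlus_polar (u v : V) : Q (u + v) - Q u - Q v = hyB u v := by
  rw [quadPlus_add]; ring

lemma quadPlus_smul (c : F) (u : V) : Q (c • u) = c * c * Q u := by
  simp only [Cfsg.quadFormPlus, Finset.mul_sum, Pi.smul_apply, smul_eq_mul]
  exact Finset.sum_congr rfl fun i _ => by ring

lemma hyB_self (u : V) : hyB u u = 2 * Q u := by
  simp only [Cfsg.quadFormPlus, hyB_eq, Finset.mul_sum]
  exact Finset.sum_congr rfl fun i _ => by ring

lemma hyB_add_left (u u' v : V) : hyB (u + u') v = hyB u v + hyB u' v := by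
  simp [hyB, dotProduct_add]

lemma hyB_add_right (u v v' : V) : hyB u (v + v') = hyB u v + hyB u v' := by
  rw [hyB_comm, hyB_add_left, hyB_comm v, hyB_comm v']

lemma hyB_smul_left (c : F) (u v : V) : hyB (c • u) v = c * hyB u v := by
  simp [hyB, dotProduct_smul]

lemma hyB_smul_right (c : F) (u v : V) : hyB u (c • v) = c * hyB u v := by
  rw [hyB_comm, hyB_smul_left, hyB_comm]

lemma hyB_zero_left (v : V) : hyB 0 v = 0 := by simp [hyB]

lemma hyB_sub_left (u u' v : V) : hyB (u - u') v = hyB u v - hyB u' v := by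
  simp [hyB, dotProduct_sub]

lemma hyB_sub_right (u v v' : V) : hyB u (v - v') = hyB u v - hyB u v' := by
  rw [hyB_comm, hyB_sub_left, hyB_comm v, hyB_comm v']

lemma eq_of_hyB_eq {u u' : V} (h : ∀ v, hyB v u = hyB v u') : u = u' := by
  have h1 : u ∘ Sum.swap = u' ∘ Sum.swap := dotProduct_eq _ _ h
  funext i
  have := congrFun h1 i.swap
  simpa using this

/-- The isometry group in the matrix algebra. -/
def hyRho (N : ℕ) (F : Type*) [Field F] :
    ↥(Cfsg.isometryGroup F (Cfsg.quadFormPlus N F)) →* Matrix (Fin N ⊕ Fin N) (Fin N ⊕ Fin N) F :=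
  (Units.coeHom _).comp (Cfsg.isometryGroup F (Cfsg.quadFormPlus N F)).subtype

lemma hyRho_injective : Function.Injective (hyRho N F) :=
  Units.val_injective.comp Subtype.val_injective

lemma hyRho_preserves (g : ↥(Cfsg.isometryGroup F Q)) (v : V) : Q (hyRho N F g *ᵥ v) = Q v := g.2 v v

lemma hyRho_hyB (g : ↥(Cfsg.isometryGroup F Q)) (u v : V) :
    hyB (hyRho N F g *ᵥ u) (hyRho N F g *ᵥ v) = hyB u v := by
  rw [← quadPlus_polar, ← quadPlus_polar u v, ← Matrix.mulVec_add, hyRho_preserves, hyRho_preserves,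
    hyRho_preserves]

/-- The nilpotent part of the Siegel transvections of the line `⟨p, r⟩`. -/
def siegel (p r : V) : Mat := vecMulVec r (p ∘ Sum.swap) - vecMulVec p (r ∘ Sum.swap)

lemma siegel_mulVec (p r v : V) : siegel p r *ᵥ v = hyB v p • r - hyB v r • p := by
  simp [siegel, hyB, Matrix.sub_mulVec, Matrix.vecMulVec_mulVec]

lemma mat_ext {X Y : Mat} (h : ∀ v, X *ᵥ v = Y *ᵥ v) : X = Y :=
  Matrix.ext_of_mulVec_single fun _ => h _

/-- A singular line, by a basis. -/
structure SingPair (p r : V) : Prop where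
  indep : LinearIndependent F ![p, r]
  left : Q p = 0
  right : Q r = 0
  orth : hyB p r = 0

lemma SingPair.pp {p r : V} (h : SingPair p r) : hyB p p = 0 := by rw [hyB_self, h.left, mul_zero]

lemma SingPair.rr {p r : V} (h : SingPair p r) : hyB r r = 0 := by rw [hyB_self, h.right, mul_zero]

lemma SingPair.swap {p r : V} (h : SingPair p r) : SingPair r p :=
  ⟨LinearIndependent.pair_symm_iff.1 h.indep, h.right, h.left, (hyB_comm r p).trans h.orth⟩

lemma exists_hyB_pair {p r : V} (h : LinearIndependent F ![p, r]) :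
    ∃ x, hyB x p = 1 ∧ hyB x r = 0 := by
  have hp : p ≠ 0 := by simpa using h.ne_zero 0
  by_contra hc
  push Not at hc
  obtain ⟨x₀, hx₀⟩ : ∃ x, hyB x p ≠ 0 := by
    by_contra hc'
    push Not at hc'
    exact hp (eq_of_hyB_eq fun v => by rw [hc' v, hyB_comm, hyB_zero_left])
  have h1 : ∀ x, hyB x r = 0 → hyB x p = 0 := fun x hx => by
    by_contra hne
    exact hc ((hyB x p)⁻¹ • x) (by rw [hyB_smul_left, inv_mul_cancel₀ hne])
      (by rw [hyB_smul_left, hx, mul_zero])
  have hr0 : hyB x₀ r ≠ 0 := fun e => hx₀ (h1 _ e)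
  have hpr : p = (hyB x₀ p / hyB x₀ r) • r := eq_of_hyB_eq fun v => by
    have h2 := h1 (v - (hyB v r / hyB x₀ r) • x₀)
      (by rw [hyB_sub_left, hyB_smul_left, div_mul_cancel₀ _ hr0, sub_self])
    rw [hyB_sub_left, hyB_smul_left, sub_eq_zero] at h2
    rw [h2, hyB_smul_right]
    ring
  have h3 := LinearIndependent.pair_iff.1 h 1 (-(hyB x₀ p / hyB x₀ r))
    (by rw [one_smul, neg_smul, ← hpr, add_neg_cancel])
  exact one_ne_zero h3.1

lemma SingPair.siegel_left {p r : V} (h : SingPair p r) : siegel p r *ᵥ p = 0 := by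
  rw [siegel_mulVec, h.pp, h.orth]; simp

lemma SingPair.siegel_right {p r : V} (h : SingPair p r) : siegel p r *ᵥ r = 0 := by
  rw [siegel_mulVec, h.rr, hyB_comm r p, h.orth]; simp

lemma siegel_ne_zero {p r : V} (h : LinearIndependent F ![p, r]) : siegel p r ≠ 0 := by
  intro e
  obtain ⟨x, hxp, hxr⟩ := exists_hyB_pair h
  have := siegel_mulVec p r x
  rw [e, Matrix.zero_mulVec, hxp, hxr, one_smul, zero_smul, sub_zero] at this
  exact (by simpa using h.ne_zero 1 : r ≠ 0) this.symm

lemma hasLine_siegel {p r : V} (h : SingPair p r) : HasLine F (hyRho N F) (siegel p r) := by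
  have hsq : siegel p r * siegel p r = 0 := mat_ext fun v => by
    rw [← Matrix.mulVec_mulVec, siegel_mulVec p r v, Matrix.mulVec_sub, Matrix.mulVec_smul,
      Matrix.mulVec_smul, h.siegel_left, h.siegel_right]
    simp
  have hpres : ∀ (t : F) (v : V), Q ((1 + t • siegel p r) *ᵥ v) = Q v := fun t v => by
    rw [Matrix.add_mulVec, Matrix.one_mulVec, Matrix.smul_mulVec, siegel_mulVec, smul_sub, smul_smul,
      smul_smul, sub_eq_add_neg, ← neg_smul, quadPlus_add, quadPlus_add, quadPlus_smul, quadPlus_smul,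
      h.left, h.right]
    simp only [hyB_add_right, hyB_smul_left, hyB_smul_right, hyB_comm r p, h.orth]
    ring
  refine ⟨hsq, fun t => ?_⟩
  let u : GL (Fin N ⊕ Fin N) F := sqUnit (t • siegel p r) (smul_sq hsq t t)
  have hu : u ∈ Cfsg.isometryGroup F Q := fun v _ => hpres t v
  exact ⟨⟨u, hu⟩, rfl⟩

/-- The Siegel transvection group of the line `⟨p, r⟩`. -/
def siegelRoot (p r : V) : Subgroup ↥(Cfsg.isometryGroup F Q) := rootLine F (hyRho N F) (siegel p r)

lemma closure_eq_siegelRoot {p r : V} (h : SingPair p r) :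
    Subgroup.closure {g : ↥(Cfsg.isometryGroup F Q) | ∀ v : V,
      Q (v + p) - Q v - Q p = 0 → Q (v + r) - Q v - Q r = 0 →
        ((g : GL (Fin N ⊕ Fin N) F) : Mat) *ᵥ v = v} = siegelRoot p r := by
  simp only [quadPlus_polar]
  refine congrArg Subgroup.closure (Set.ext fun g => ⟨fun hg => ?_, ?_⟩)
  · obtain ⟨x, hxp, hxr⟩ := exists_hyB_pair h.indep
    obtain ⟨y, hyr, hyp⟩ := exists_hyB_pair h.swap.indep
    set M : Mat := hyRho N F g with hM
    have hfix : ∀ v, hyB v p = 0 → hyB v r = 0 → M *ᵥ v = v := hg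
    set a := M *ᵥ x - x with ha
    set b := M *ᵥ y - y with hb
    have hall : ∀ v, M *ᵥ v = v + hyB v p • a + hyB v r • b := fun v => by
      have h1 := hfix (v - hyB v p • x - hyB v r • y)
        (by rw [hyB_sub_left, hyB_sub_left, hyB_smul_left, hyB_smul_left, hxp, hyp]; ring)
        (by rw [hyB_sub_left, hyB_sub_left, hyB_smul_left, hyB_smul_left, hxr, hyr]; ring)
      rw [Matrix.mulVec_sub, Matrix.mulVec_sub, Matrix.mulVec_smul, Matrix.mulVec_smul] at h1
      rw [ha, hb, smul_sub, smul_sub]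
      linear_combination (norm := module) h1
    have hspan : ∀ z, hyB (M *ᵥ z - z) =
        hyB (hyB (M *ᵥ z - z) x • p + hyB (M *ᵥ z - z) y • r) := fun z => funext fun v => by
      have h1 : hyB (M *ᵥ z - z) (v - hyB v p • x - hyB v r • y) = 0 := by
        have h2 := hyRho_hyB g z (v - hyB v p • x - hyB v r • y)
        rw [← hM, hfix (v - hyB v p • x - hyB v r • y) (by rw [hyB_sub_left, hyB_sub_left, hyB_smul_left, hyB_smul_left, hxp, hyp]; ring)
          (by rw [hyB_sub_left, hyB_sub_left, hyB_smul_left, hyB_smul_left, hxr, hyr]; ring)] at h2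
        rw [hyB_sub_left, h2, sub_self]
      rw [hyB_sub_right, hyB_sub_right, hyB_smul_right, hyB_smul_right] at h1
      rw [hyB_add_left, hyB_smul_left, hyB_smul_left, hyB_comm p v, hyB_comm r v]
      linear_combination h1
    have hexp : ∀ z, ∃ c d : F, M *ᵥ z - z = c • p + d • r := fun z =>
      ⟨_, _, eq_of_hyB_eq fun v => by rw [hyB_comm, hspan z, hyB_comm]⟩
    obtain ⟨α, β, hab⟩ := hexp x
    obtain ⟨γ, δ, hcd⟩ := hexp y
    rw [← ha] at hab
    rw [← hb] at hcd
    have hMx : M *ᵥ x = x + a := by rw [ha]; abel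
    have hMy : M *ᵥ y = y + b := by rw [hb]; abel
    have e1 := hyRho_preserves g x
    have e2 := hyRho_preserves g y
    have e3 := hyRho_hyB g x y
    rw [← hM] at e1 e2 e3
    rw [hMx, hab] at e1
    rw [hMy, hcd] at e2
    rw [hMx, hMy, hab, hcd] at e3
    simp only [quadPlus_add, quadPlus_smul, hyB_add_left, hyB_add_right, hyB_smul_left,
      hyB_smul_right, h.left, h.right, h.orth, h.pp, h.rr, hyB_comm r p, hyB_comm p x, hyB_comm p y,
      hyB_comm r x, hyB_comm r y, hxp, hxr, hyp, hyr] at e1 e2 e3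
    have hα : α = 0 := by linear_combination e1
    have hδ : δ = 0 := by linear_combination e2
    have hγ : γ = -β := by linear_combination e3
    refine ⟨β, mat_ext fun v => ?_⟩
    rw [← hM, hall, hab, hcd, hα, hδ, hγ, Matrix.add_mulVec, Matrix.one_mulVec, Matrix.smul_mulVec,
      siegel_mulVec]
    module
  · rintro ⟨t, ht⟩ v hvp hvr
    show hyRho N F g *ᵥ v = v
    rw [ht, Matrix.add_mulVec, Matrix.one_mulVec, Matrix.smul_mulVec, siegel_mulVec, hvp, hvr]
    simp

end CfsgLib.Transpositions
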