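import Cfsg.Agent.Lib.Transpositions.SiegelBasic
import Cfsg.Agent.Lib.Transpositions.RootTransferK
import Cfsg.Agent.Lib.Transpositions.TransvSL

/-!
The Siegel transvection groups form a set of root subgroups with connected rank one graph.
-/
set_option autoImplicit false

open Cfsg Matrix
open scoped commutatorElement

namespace CfsgLib.Transpositions

variable {F : Type*} [Field F] {N : ℕ}

local notation "V" => (Fin N ⊕ Fin N → F)
local notation "Mat" => Matrix (Fin N ⊕ Fin N) (Fin N ⊕ Fin N) F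
local notation "Q" => Cfsg.quadFormPlus N F
local notation "Iso" => Cfsg.isometryGroup F (Cfsg.quadFormPlus N F)

/-- The pairing determinant of two lines. -/
def lineDet (p r s u : V) : F := hyB p s * hyB r u - hyB p u * hyB r s

lemma lineDet_comm (p r s u : V) : lineDet s u p r = lineDet p r s u := by
  simp only [lineDet, hyB_comm s, hyB_comm u]; ring

lemma siegel_mul_mulVec (p r s u v : V) : (siegel p r * siegel s u) *ᵥ v =
    hyB v s • (hyB u p • r - hyB u r • p) - hyB v u • (hyB s p • r - hyB s r • p) := by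
  rw [← Matrix.mulVec_mulVec, siegel_mulVec, siegel_mulVec]
  simp only [hyB_sub_left, hyB_smul_left]
  module

lemma siegel_triple (p r s u : V) :
    siegel p r * siegel s u * siegel p r = (-lineDet p r s u) • siegel p r := by
  refine mat_ext fun v => ?_
  rw [← Matrix.mulVec_mulVec, siegel_mul_mulVec, Matrix.smul_mulVec, siegel_mulVec]
  simp only [hyB_sub_left, hyB_smul_left, lineDet, hyB_comm u p, hyB_comm u r, hyB_comm s p, hyB_comm s r]
  module

lemma siegel_smul_basis (p r : V) (a b c d : F) :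
    siegel (a • p + b • r) (c • p + d • r) = (a * d - b * c) • siegel p r := by
  refine mat_ext fun v => ?_
  rw [Matrix.smul_mulVec, siegel_mulVec, siegel_mulVec]
  simp only [hyB_add_right, hyB_smul_right]
  module

lemma SingPair.basis {p r : V} (h : SingPair p r) {a b c d : F} (hd : a * d - b * c ≠ 0) :
    SingPair (a • p + b • r) (c • p + d • r) := by
  refine ⟨?_, ?_, ?_, ?_⟩
  · rw [LinearIndependent.pair_iff]
    intro s t hst
    have h1 : (s * a + t * c) • p + (s * b + t * d) • r = 0 := by rw [← hst]; module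
    obtain ⟨e1, e2⟩ := LinearIndependent.pair_iff.1 h.indep _ _ h1
    refine ⟨?_, ?_⟩
    · have : s * (a * d - b * c) = 0 := by linear_combination d * e1 - c * e2
      exact (mul_eq_zero.1 this).resolve_right hd
    · have : t * (a * d - b * c) = 0 := by linear_combination a * e2 - b * e1
      exact (mul_eq_zero.1 this).resolve_right hd
  · simp [quadPlus_add, quadPlus_smul, hyB_smul_left, hyB_smul_right, h.left, h.right, h.orth]
  · simp [quadPlus_add, quadPlus_smul, hyB_smul_left, hyB_smul_right, h.left, h.right, h.orth]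
  · simp [hyB_add_left, hyB_add_right, hyB_smul_left, hyB_smul_right, h.pp, h.rr, h.orth, hyB_comm r p]

lemma siegelRoot_basis (p r : V) {a b c d : F} (hd : a * d - b * c ≠ 0) :
    siegelRoot (a • p + b • r) (c • p + d • r) = siegelRoot p r := by
  rw [siegelRoot, siegelRoot, siegel_smul_basis, rootLine_smul hd]

lemma siegelRoot_swap (p r : V) : siegelRoot r p = siegelRoot p r := by
  have := siegelRoot_basis p r (a := (0 : F)) (b := 1) (c := 1) (d := 0) (by simp)
  simpa using this

/-- All Siegel transvection groups. -/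
def siegelRoots (N : ℕ) (F : Type*) [Field F] :
    Set (Subgroup ↥(Cfsg.isometryGroup F (Cfsg.quadFormPlus N F))) :=
  {A | ∃ p r : Fin N ⊕ Fin N → F, SingPair p r ∧ A = siegelRoot p r}

lemma rankOne_siegelRoot {p r s u : V} (h : SingPair p r) (h' : SingPair s u)
    (hd : lineDet p r s u ≠ 0) :
    IsRankOnePair (siegelRoot p r) (siegelRoot s u) ∧
      IsPSL2PairOver F (siegelRoot p r) (siegelRoot s u) := by
  have hd' : -lineDet p r s u ≠ 0 := neg_ne_zero.2 hd
  have o1 : siegel p r * ((-lineDet p r s u)⁻¹ • siegel s u) * siegel p r = siegel p r := by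
    rw [mul_smul_comm, smul_mul_assoc, siegel_triple, smul_smul, inv_mul_cancel₀ hd', one_smul]
  have o2 : (-lineDet p r s u)⁻¹ • siegel s u * siegel p r * ((-lineDet p r s u)⁻¹ • siegel s u) =
      (-lineDet p r s u)⁻¹ • siegel s u := by
    rw [mul_smul_comm, smul_mul_assoc, smul_mul_assoc, siegel_triple, lineDet_comm, smul_smul,
      smul_smul]
    congr 1
    field_simp
  have e : siegelRoot s u = rootLine F (hyRho N F) ((-lineDet p r s u)⁻¹ • siegel s u) :=
    (rootLine_smul (inv_ne_zero hd')).symm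
  rw [e]
  exact ⟨isRankOnePair_rootLine hyRho_injective (hasLine_siegel h) ((hasLine_siegel h').smul _) o1 o2
      (siegel_ne_zero h.indep),
    isPSL2PairOver_of_opposite hyRho_injective (hasLine_siegel h) ((hasLine_siegel h').smul _) o1 o2
      (siegel_ne_zero h.indep)⟩

/-- When the pairing is degenerate the first line has a basis starting with a vector orthogonal to
the second line. -/
lemma exists_kernel_basis {p r s u : V} (h : SingPair p r) (hd : lineDet p r s u = 0) :
    ∃ p' r', SingPair p' r' ∧ siegelRoot p' r' = siegelRoot p r ∧ hyB p' s = 0 ∧ hyB p' u = 0 ∧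
      ∃ a b c d : F, p' = a • p + b • r ∧ r' = c • p + d • r := by
  obtain ⟨a, b, hab, h1, h2⟩ : ∃ a b : F, (a ≠ 0 ∨ b ≠ 0) ∧ a * hyB p s + b * hyB r s = 0 ∧
      a * hyB p u + b * hyB r u = 0 := by
    rw [lineDet] at hd
    by_cases h0 : hyB p s = 0 ∧ hyB r s = 0
    · by_cases h0' : hyB p u = 0 ∧ hyB r u = 0
      · exact ⟨1, 0, Or.inl one_ne_zero, by simp [h0.1], by simp [h0'.1]⟩
      · refine ⟨hyB r u, -hyB p u, ?_, by simp [h0.1, h0.2], by ring⟩
        rw [neg_ne_zero]; tauto
    · refine ⟨hyB r s, -hyB p s, ?_, by ring, by linear_combination -hd⟩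
      rw [neg_ne_zero]; tauto
  obtain ⟨c, d, hcd⟩ : ∃ c d : F, a * d - b * c ≠ 0 := by
    rcases hab with ha | hb
    · exact ⟨0, 1, by simpa using ha⟩
    · exact ⟨1, 0, by simpa using hb⟩
  exact ⟨_, _, h.basis hcd, siegelRoot_basis p r hcd,
    by rw [hyB_add_left, hyB_smul_left, hyB_smul_left, h1],
    by rw [hyB_add_left, hyB_smul_left, hyB_smul_left, h2], a, b, c, d, rfl, rfl⟩

lemma siegelRoots_cases {A B : Subgroup ↥Iso} (hA : A ∈ siegelRoots N F) (hB : B ∈ siegelRoots N F) :
    ⁅A, B⁆ = ⊥ ∨ (IsRankOnePair A B ∧ IsPSL2PairOver F A B) ∨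
      RootCommutatorCase (siegelRoots N F) A B := by
  obtain ⟨p₀, r₀, h₀, rfl⟩ := hA
  obtain ⟨s₀, u₀, h₀', rfl⟩ := hB
  by_cases hd : lineDet p₀ r₀ s₀ u₀ ≠ 0
  · exact Or.inr (Or.inl (rankOne_siegelRoot h₀ h₀' hd))
  push Not at hd
  obtain ⟨p, r, h, eA, hps, hpu, a, b, c, d, rfl, rfl⟩ := exists_kernel_basis h₀ hd
  set p := a • p₀ + b • r₀
  set r := c • p₀ + d • r₀
  have hd1 : lineDet s₀ u₀ p r = 0 := by rw [lineDet_comm, lineDet, hps, hpu]; ring
  obtain ⟨s, u, h', eB, hsp, hsr, a', b', c', d', rfl, rfl⟩ := exists_kernel_basis h₀' hd1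
  set s := a' • s₀ + b' • u₀
  set u := c' • s₀ + d' • u₀
  have hup : hyB u p = 0 := by
    rw [hyB_add_left, hyB_smul_left, hyB_smul_left, hyB_comm s₀, hps, hyB_comm u₀, hpu]; ring
  rw [← eA, ← eB]
  have hab : siegel p r * siegel s u - siegel s u * siegel p r = (-hyB r u) • siegel s p :=
    mat_ext fun v => by
      rw [Matrix.sub_mulVec, siegel_mul_mulVec, siegel_mul_mulVec, Matrix.smul_mulVec, siegel_mulVec,
        hup, hsp, hsr, hyB_comm r s, hsr, hyB_comm p s, hsp, hyB_comm p u, hup, hyB_comm u r]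
      module
  by_cases hc : hyB r u = 0
  · left
    refine commutator_rootLine_eq_bot hyRho_injective (hasLine_siegel h).1 (hasLine_siegel h').1 ?_
    rw [← sub_eq_zero, hab, hc, neg_zero, zero_smul]
  by_cases hind : LinearIndependent F ![s, p]
  · refine Or.inr (Or.inr ?_)
    have hsp' : SingPair s p := ⟨hind, h'.left, h.left, hsp⟩
    refine rootCommutatorCase_rootLine hyRho_injective (hasLine_siegel h) (hasLine_siegel h')
      (hasLine_siegel hsp').1 (neg_ne_zero.2 hc) ?_ ?_ hab ⟨s, p, hsp', rfl⟩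
    · rw [siegel_triple, lineDet, hyB_comm r s, hsr, hyB_comm p s, hsp]; simp
    · rw [siegel_triple, lineDet, hup, hsp, hsr]; simp
  · left
    refine commutator_rootLine_eq_bot hyRho_injective (hasLine_siegel h).1 (hasLine_siegel h').1 ?_
    rw [← sub_eq_zero, hab]
    have hs0 : s ≠ 0 := by simpa using h'.indep.ne_zero 0
    rw [LinearIndependent.pair_iff' hs0] at hind
    push Not at hind
    obtain ⟨l, hl⟩ := hind
    rw [show siegel s p = 0 from mat_ext fun v => by
      rw [siegel_mulVec, ← hl, hyB_smul_right, Matrix.zero_mulVec]; module, smul_zero]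

lemma conjBy_siegelRoot (g : ↥Iso) (p r : V) :
    conjBy (siegelRoot p r) g = siegelRoot (hyRho N F g *ᵥ p) (hyRho N F g *ᵥ r) := by
  refine conjBy_rootLine g one_ne_zero ?_
  rw [one_smul]
  refine mat_ext fun v => ?_
  rw [← Matrix.mulVec_mulVec, ← Matrix.mulVec_mulVec, siegel_mulVec, siegel_mulVec, Matrix.mulVec_sub,
    Matrix.mulVec_smul, Matrix.mulVec_smul]
  conv_rhs => rw [show v = hyRho N F g *ᵥ (hyRho N F g⁻¹ *ᵥ v) by
    rw [Matrix.mulVec_mulVec, rho_mul_inv, Matrix.one_mulVec]]
  rw [hyRho_hyB, hyRho_hyB]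

theorem siegelRoots_image :
    IsKRootSubgroupSet F ((fun A : Subgroup ↥Iso =>
      A.subgroupOf (⨆ B ∈ siegelRoots N F, B)) '' siegelRoots N F) := by
  refine kRootSet_image ?_ ?_ ?_ fun A hA B hB => siegelRoots_cases hA hB
  · rintro A ⟨p, r, h, rfl⟩
    exact rootLine_commutative hyRho_injective (hasLine_siegel h).1
  · rintro A ⟨p, r, h, rfl⟩
    exact rootLine_ne_bot (hasLine_siegel h) (siegel_ne_zero h.indep)
  · rintro A ⟨p, r, h, rfl⟩ g
    refine ⟨_, _, ⟨?_, (hyRho_preserves g p).trans h.left, (hyRho_preserves g r).trans h.right,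
      (hyRho_hyB g p r).trans h.orth⟩, conjBy_siegelRoot g p r⟩
    rw [LinearIndependent.pair_iff]
    intro a b hab
    refine LinearIndependent.pair_iff.1 h.indep a b ?_
    have h1 := congrArg (hyRho N F g⁻¹ *ᵥ ·) hab
    simpa only [Matrix.mulVec_add, Matrix.mulVec_smul, Matrix.mulVec_mulVec, rho_inv_mul,
      Matrix.one_mulVec, Matrix.mulVec_zero] using h1

/-- Two lines of a totally singular plane with a common point. -/
lemma reach_coplanar {p r u : V} (h : SingPair p r) (h' : SingPair p u) (hru : hyB r u = 0) :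
    Relation.ReflTransGen (FAdj (siegelRoots N F)) (siegelRoot p r) (siegelRoot p u) := by
  have hp0 : p ≠ 0 := by simpa using h.indep.ne_zero 0
  obtain ⟨x₀, hx₀, -⟩ := exists_hyB_pair h.indep
  set x := x₀ - Q x₀ • p with hx
  have hxp : hyB x p = 1 := by rw [hx, hyB_sub_left, hyB_smul_left, h.pp, hx₀]; ring
  have hxx : Q x = 0 := by
    rw [hx, sub_eq_add_neg, ← neg_smul, quadPlus_add, quadPlus_smul, hyB_smul_right, h.left, hx₀]
    ring
  have hpx : hyB p x = 1 := by rw [hyB_comm, hxp]
  set r' := r - hyB x r • p with hr'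
  set u' := u - hyB x u • p with hu'
  have hr'0 : r' ≠ 0 := by
    intro e
    have := LinearIndependent.pair_iff.1 h.indep (-hyB x r) 1 (by rw [← e, hr']; module)
    exact one_ne_zero this.2
  have hu'0 : u' ≠ 0 := by
    intro e
    have := LinearIndependent.pair_iff.1 h'.indep (-hyB x u) 1 (by rw [← e, hu']; module)
    exact one_ne_zero this.2
  have hr'p : hyB r' p = 0 := by rw [hr', hyB_sub_left, hyB_smul_left, h.pp, hyB_comm r p, h.orth]; ring
  have hu'p : hyB u' p = 0 := by rw [hu', hyB_sub_left, hyB_smul_left, h'.pp, hyB_comm u p, h'.orth]; ring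
  have hr'x : hyB r' x = 0 := by rw [hr', hyB_sub_left, hyB_smul_left, hpx, hyB_comm r x]; ring
  have hu'x : hyB u' x = 0 := by rw [hu', hyB_sub_left, hyB_smul_left, hpx, hyB_comm u x]; ring
  have hr'r' : Q r' = 0 := by
    rw [hr', sub_eq_add_neg, ← neg_smul, quadPlus_add, quadPlus_smul, hyB_smul_right, h.left, h.right,
      hyB_comm r p, h.orth]
    ring
  have hr'u' : hyB r' u' = 0 := by
    rw [hr', hu', hyB_sub_left, hyB_sub_right, hyB_sub_right, hyB_smul_left, hyB_smul_left,
      hyB_smul_right, hyB_smul_right, hru, h.pp, hyB_comm r p, h.orth, h'.orth]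
    ring
  have hW : ∀ z : V, z ≠ 0 → hyB z p = 0 → hyB z x = 0 →
      ∃ w, (hyB w p = 0 ∧ hyB w x = 0) ∧ hyB w z ≠ 0 := by
    intro z hz hzp hzx
    obtain ⟨v, hv⟩ : ∃ v, hyB v z ≠ 0 := by
      by_contra hc
      push Not at hc
      exact hz (eq_of_hyB_eq fun v => by rw [hc v, hyB_comm, hyB_zero_left])
    refine ⟨v - hyB v x • p - hyB v p • x, ⟨?_, ?_⟩, ?_⟩
    · rw [hyB_sub_left, hyB_sub_left, hyB_smul_left, hyB_smul_left, h.pp, hxp]; ring
    · rw [hyB_sub_left, hyB_sub_left, hyB_smul_left, hyB_smul_left, hpx, hyB_self, hxx]; ring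
    · rwa [hyB_sub_left, hyB_sub_left, hyB_smul_left, hyB_smul_left, hyB_comm p z, hzp, hyB_comm x z,
        hzx, mul_zero, mul_zero, sub_zero, sub_zero]
  obtain ⟨w₁, hw1, hw1'⟩ := hW r' hr'0 hr'p hr'x
  obtain ⟨w₂, hw2, hw2'⟩ := hW u' hu'0 hu'p hu'x
  obtain ⟨w₀, ⟨hw0p, hw0x⟩, hw0r, hw0u⟩ := exists_both_ne_zero
    (AddMonoidHom.mk' (fun z : V => hyB z r') fun a b => hyB_add_left a b r')
    (AddMonoidHom.mk' (fun z : V => hyB z u') fun a b => hyB_add_left a b u')
    (p := fun z => hyB z p = 0 ∧ hyB z x = 0)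
    (fun a b ha hb => ⟨by rw [hyB_add_left, ha.1, hb.1, add_zero], by rw [hyB_add_left, ha.2, hb.2, add_zero]⟩)
    hw1 hw2 hw1' hw2'
  simp only [AddMonoidHom.mk'_apply] at hw0r hw0u
  set y := w₀ + (-(Q w₀ / hyB w₀ r')) • r' with hy
  have hyp : hyB y p = 0 := by rw [hy, hyB_add_left, hyB_smul_left, hr'p, hw0p]; ring
  have hyx : hyB y x = 0 := by rw [hy, hyB_add_left, hyB_smul_left, hr'x, hw0x]; ring
  have hyr' : hyB y r' = hyB w₀ r' := by
    rw [hy, hyB_add_left, hyB_smul_left, hyB_self, hr'r']; ring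
  have hyu' : hyB y u' = hyB w₀ u' := by rw [hy, hyB_add_left, hyB_smul_left, hr'u']; ring
  have hyy : Q y = 0 := by
    rw [hy, quadPlus_add, quadPlus_smul, hyB_smul_right, hr'r', mul_zero, add_zero, neg_mul,
      div_mul_cancel₀ _ hw0r, add_neg_cancel]
  have hxy : SingPair x y := by
    refine ⟨?_, hxx, hyy, by rw [hyB_comm, hyx]⟩
    rw [LinearIndependent.pair_iff]
    intro a b hab
    have h1 := congrArg (fun z => hyB z p) hab
    simp [hyB_add_left, hyB_smul_left, hxp, hyp, hyB_zero_left] at h1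
    subst h1
    have h2 := congrArg (fun z => hyB z r') hab
    simp [hyB_smul_left, hyr', hw0r, hyB_zero_left] at h2
    exact ⟨rfl, h2⟩
  have hyr : hyB r y ≠ 0 := by
    rw [show r = r' + hyB x r • p by rw [hr']; abel, hyB_add_left, hyB_smul_left, hyB_comm p y, hyp,
      hyB_comm r' y, hyr', mul_zero, add_zero]
    exact hw0r
  have hyu : hyB u y ≠ 0 := by
    rw [show u = u' + hyB x u • p by rw [hu']; abel, hyB_add_left, hyB_smul_left, hyB_comm p y, hyp,
      hyB_comm u' y, hyu', mul_zero, add_zero]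
    exact hw0u
  refine (Relation.ReflTransGen.single (b := siegelRoot x y) ?_).tail ?_
  · exact ⟨⟨p, r, h, rfl⟩, ⟨x, y, hxy, rfl⟩, (rankOne_siegelRoot h hxy (by
      rw [lineDet, hpx, hyB_comm p y, hyp]; simpa using hyr)).1⟩
  · exact ⟨⟨x, y, hxy, rfl⟩, ⟨p, u, h', rfl⟩, (rankOne_siegelRoot hxy h' (by
      rw [lineDet, hxp, hyp, hyB_comm y u]; simpa using hyu)).1⟩

/-- The vectors of the standard maximal singular subspace. -/
def stdVec (z : Fin N → F) : V := Sum.elim z 0

lemma quadPlus_stdVec (z : Fin N → F) : Q (stdVec z) = 0 := by simp [Cfsg.quadFormPlus, stdVec]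

lemma hyB_stdVec (z z' : Fin N → F) : hyB (stdVec z) (stdVec z') = 0 := by simp [hyB_eq, stdVec]

lemma singPair_stdVec {z z' : Fin N → F} (h : LinearIndependent F ![z, z']) :
    SingPair (stdVec z) (stdVec z') := by
  refine ⟨?_, quadPlus_stdVec z, quadPlus_stdVec z', hyB_stdVec z z'⟩
  rw [LinearIndependent.pair_iff] at h ⊢
  intro a b hab
  exact h a b (funext fun i => by simpa [stdVec] using congrFun hab (Sum.inl i))

lemma exists_kernel_vec (hN : 3 ≤ N) (f : (Fin N → F) →ₗ[F] F × F) : ∃ z, z ≠ 0 ∧ f z = 0 := by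
  by_contra hc
  push Not at hc
  have hinj : Function.Injective f := (injective_iff_map_eq_zero _).2 fun z hz => by
    by_contra hne; exact hc z hne hz
  have := LinearMap.finrank_le_finrank_of_injective hinj
  simp at this
  omega

/-- Pairing with a fixed vector, on the standard singular subspace. -/
def stdPair (p : V) : (Fin N → F) →ₗ[F] F where
  toFun z := hyB (stdVec z) p
  map_add' z z' := by
    rw [← hyB_add_left]; congr 1
    funext i; rcases i with i | i <;> simp [stdVec]
  map_smul' c z := by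
    rw [RingHom.id_apply, smul_eq_mul, ← hyB_smul_left]; congr 1
    funext i; rcases i with i | i <;> simp [stdVec]

lemma reach_stdVec (hN : 3 ≤ N) (z z' : Fin N → F) (h : LinearIndependent F ![z, z'])
    (e e' : Fin N → F) (he : LinearIndependent F ![e, e']) :
    Relation.ReflTransGen (FAdj (siegelRoots N F)) (siegelRoot (stdVec z) (stdVec z'))
      (siegelRoot (stdVec e) (stdVec e')) := by
  have hz : z ≠ 0 := by simpa using h.ne_zero 0
  have he0 : e ≠ 0 := by simpa using he.ne_zero 0
  obtain ⟨i, hi⟩ := Function.ne_iff.mp hz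
  obtain ⟨j, hj⟩ := Function.ne_iff.mp he0
  obtain ⟨w, hw0, hw⟩ := exists_kernel_vec hN (LinearMap.prod
    (LinearMap.proj i : (Fin N → F) →ₗ[F] F) (LinearMap.proj j))
  simp at hw
  have hzw : LinearIndependent F ![z, w] := by
    rw [LinearIndependent.pair_iff]
    intro a b hab
    have ha : a = 0 := (by simpa [hw.1] using congrFun hab i : a = 0 ∨ z i = 0).resolve_right hi
    subst ha
    exact ⟨rfl, by simpa [hw0] using hab⟩
  have hew : LinearIndependent F ![e, w] := by
    rw [LinearIndependent.pair_iff]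
    intro a b hab
    have ha : a = 0 := (by simpa [hw.2] using congrFun hab j : a = 0 ∨ e j = 0).resolve_right hj
    subst ha
    exact ⟨rfl, by simpa [hw0] using hab⟩
  refine (reach_coplanar (singPair_stdVec h) (singPair_stdVec hzw) (hyB_stdVec _ _)).trans ?_
  rw [← siegelRoot_swap]
  refine (reach_coplanar (singPair_stdVec hzw).swap (singPair_stdVec hew).swap (hyB_stdVec _ _)).trans ?_
  rw [siegelRoot_swap]
  exact reach_coplanar (singPair_stdVec hew) (singPair_stdVec he) (hyB_stdVec _ _)

theorem siegelRoots_connected (hN : 3 ≤ N) :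
    IsConnectedFamily (FAdj (siegelRoots N F)) (siegelRoots N F) := by
  let e₀ : Fin N → F := Pi.single ⟨0, by omega⟩ 1
  let e₁ : Fin N → F := Pi.single ⟨1, by omega⟩ 1
  have he : LinearIndependent F ![e₀, e₁] := by
    rw [LinearIndependent.pair_iff]
    intro a b hab
    exact ⟨by simpa [e₀, e₁, Fin.ext_iff] using congrFun hab ⟨0, by omega⟩,
      by simpa [e₀, e₁, Fin.ext_iff] using congrFun hab ⟨1, by omega⟩⟩
  have key : ∀ p r : V, SingPair p r → Relation.ReflTransGen (FAdj (siegelRoots N F))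
      (siegelRoot p r) (siegelRoot (stdVec e₀) (stdVec e₁)) := by
    intro p r h
    obtain ⟨z, hz0, hz⟩ := exists_kernel_vec hN ((stdPair p).prod (stdPair r))
    simp [stdPair] at hz
    obtain ⟨i, hi⟩ := Function.ne_iff.mp hz0
    have step : ∀ r' : V, SingPair (stdVec z) r' → Relation.ReflTransGen (FAdj (siegelRoots N F))
        (siegelRoot (stdVec z) r') (siegelRoot (stdVec e₀) (stdVec e₁)) := by
      intro r' h'
      obtain ⟨z', hz'0, hz'⟩ := exists_kernel_vec hN ((stdPair r').prod (LinearMap.proj i))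
      simp [stdPair] at hz'
      have hzz : LinearIndependent F ![z, z'] := by
        rw [LinearIndependent.pair_iff]
        intro a b hab
        have ha : a = 0 := (by simpa [hz'.2] using congrFun hab i : a = 0 ∨ z i = 0).resolve_right hi
        subst ha
        exact ⟨rfl, by simpa [hz'0] using hab⟩
      exact (reach_coplanar h' (singPair_stdVec hzz) (by rw [hyB_comm]; exact hz'.1)).trans
        (reach_stdVec hN z z' hzz e₀ e₁ he)
    have hzs : stdVec z ≠ (0 : V) := fun e => hi (congrFun e (Sum.inl i))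
    by_cases hmem : ∃ a b : F, stdVec z = a • p + b • r
    · obtain ⟨a, b, hab⟩ := hmem
      obtain ⟨c, d, hcd⟩ : ∃ c d : F, a * d - b * c ≠ 0 := by
        by_cases ha : a = 0
        · refine ⟨1, 0, ?_⟩
          simp [ha]
          intro hb
          exact hzs (by rw [hab, ha, hb]; simp)
        · exact ⟨0, 1, by simpa using ha⟩
      rw [← siegelRoot_basis p r hcd, ← hab]
      exact step _ (hab ▸ h.basis hcd)
    · have hpz : SingPair p (stdVec z) := by
        refine ⟨?_, h.left, quadPlus_stdVec z, by rw [hyB_comm]; exact hz.1⟩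
        rw [LinearIndependent.pair_iff]
        intro a b hab
        by_cases hb : b = 0
        · subst hb
          have hp : p ≠ 0 := by simpa using h.indep.ne_zero 0
          exact ⟨by simpa [hp] using hab, rfl⟩
        · refine absurd ⟨-(a / b), 0, ?_⟩ hmem
          rw [zero_smul, add_zero, neg_smul, eq_neg_iff_add_eq_zero]
          have h1 : b⁻¹ • (a • p + b • stdVec z) = 0 := by rw [hab, smul_zero]
          rw [smul_add, smul_smul, smul_smul, inv_mul_cancel₀ hb, one_smul] at h1
          rw [div_eq_inv_mul, add_comm]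
          exact h1
      refine (reach_coplanar h hpz (by rw [hyB_comm]; exact hz.2)).trans ?_
      rw [← siegelRoot_swap]
      exact step _ hpz.swap
  intro A hA B hB
  obtain ⟨p, r, h, rfl⟩ := hA
  obtain ⟨s, u, h', rfl⟩ := hB
  refine (key p r h).trans ?_
  have hback := key s u h'
  have : Std.Symm (FAdj (siegelRoots N F)) := ⟨fun C D h => ⟨h.2.1, h.1, RankOnePair_symm h.2.2⟩⟩
  exact Std.Symm.symm _ _ hback

end CfsgLib.Transpositions
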