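import Cfsg.Agent.Lib.Transpositions.Components
import Cfsg.Agent.Lib.Transpositions.RootTransfer
import Cfsg.Agent.Lib.Transpositions.SL2Over
import Cfsg.Agent.Lib.Transpositions.PairTheorems
import Cfsg.Agent.Lib.Cores.Quasisimple

/-!
`Σ` is a set of root subgroups; each component generates a quasisimple group.
-/
set_option autoImplicit false

open Cfsg
open scoped commutatorElement Pointwise
open Relation (ReflTransGen)

namespace CfsgLib.Transpositions

variable {k : Type*} [Field k] {M : Type*} [AddCommGroup M] [Module k M] [FiniteDimensional k M]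
variable {G : Subgroup (LinearMap.GeneralLinearGroup k M)} {a b c : Module.End k M}

open LinearMap (range ker)

/-- The part of `Σ` containing `A`. -/
abbrev part (G : Subgroup (LinearMap.GeneralLinearGroup k M)) (A : Subgroup (LinearMap.GeneralLinearGroup k M)) :
    Set (Subgroup (LinearMap.GeneralLinearGroup k M)) :=
  Cfsg.componentOf (Cfsg.FAdj (Cfsg.quadraticRootSubgroups G)) (Cfsg.quadraticRootSubgroups G) A

lemma part_eq_of_reach {A B : Subgroup (LinearMap.GeneralLinearGroup k M)} (h : Reach G A B) :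
    part G A = part G B := by
  ext C
  exact ⟨fun hC => ⟨hC.1, h.symm.trans hC.2⟩, fun hC => ⟨hC.1, h.trans hC.2⟩⟩

lemma roots_commutative {A : Subgroup (LinearMap.GeneralLinearGroup k M)} (hA : A ∈ Cfsg.quadraticRootSubgroups G) :
    IsMulCommutative A := by
  obtain ⟨a, ha, rfl⟩ := mem_quadraticRootSubgroups_iff.mp hA
  exact ⟨⟨fun u v => Subtype.ext (classGroup_comm u.2 v.2)⟩⟩

lemma roots_ne_bot {A : Subgroup (LinearMap.GeneralLinearGroup k M)} (hA : A ∈ Cfsg.quadraticRootSubgroups G) :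
    A ≠ ⊥ := by
  obtain ⟨a, ha, rfl⟩ := mem_quadraticRootSubgroups_iff.mp hA
  exact classGroup_ne_bot ha

/-- The trichotomy, with the commutator inside any union of parts containing `A`. -/
theorem roots_pair (h2 : (2 : k) ≠ 0) (h3 : Nat.card k ≠ 3) (hN : NoUnip G)
    {S : Set (Subgroup (LinearMap.GeneralLinearGroup k M))} (hS : S ⊆ Cfsg.quadraticRootSubgroups G)
    (hclosed : ∀ A ∈ S, ∀ B, Reach G A B → B ∈ S) :
    ∀ A ∈ S, ∀ B ∈ S, ⁅A, B⁆ = ⊥ ∨ Cfsg.IsRankOnePair A B ∨ Cfsg.RootCommutatorCase S A B := by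
  intro A hA B hB
  obtain ⟨a, ha, rfl⟩ := mem_quadraticRootSubgroups_iff.mp (hS hA)
  obtain ⟨b, hb, rfl⟩ := mem_quadraticRootSubgroups_iff.mp (hS hB)
  by_cases ht : a * b * a = 0
  · by_cases hab : a * b = b * a
    · exact Or.inl (commutator_eq_bot h2 h3 ha hb hab)
    have D := bracketData ha hb ht (triple_symm h2 h3 ha hb ht) (sub_ne_zero.mpr hab)
    refine Or.inr (Or.inr ?_)
    rw [Cfsg.RootCommutatorCase, D.commutator_eq h2 h3 hN ha hb]
    refine ⟨hclosed _ hA _ (D.reach_left h2 h3 hN ha hb), fun l hl g hg => ?_,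
      fun e he he1 => D.closure_left h2 h3 hN ha hb he he1, fun f hf hf1 => D.closure_right h2 h3 hN ha hb hf hf1⟩
    obtain ⟨cA, cB⟩ := D.centralize ha hb
    exact Subgroup.mem_centralizer_iff.mp (sup_le cA cB hg) l hl
  · exact Or.inr (Or.inl (adj_of_triple h2 h3 ha hb ht).2.2)

/-- Every member is adjacent to some member. -/
theorem not_isolated (h2 : (2 : k) ≠ 0) (h3 : Nat.card k ≠ 3) (hN : NoUnip G)
    {A : Subgroup (LinearMap.GeneralLinearGroup k M)} (hA : A ∈ Cfsg.quadraticRootSubgroups G) :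
    ∃ B, Cfsg.FAdj (Cfsg.quadraticRootSubgroups G) A B := by
  obtain ⟨a, ha, rfl⟩ := mem_quadraticRootSubgroups_iff.mp hA
  obtain ⟨c, hc⟩ := exists_partner h2 h3 hN ha
  exact ⟨_, hc.adj h2 h3⟩

/-- A rank one pair contains a copy of `SL₂(k)`. -/
theorem exists_psl2_subpair (h2 : (2 : k) ≠ 0) (h3 : Nat.card k ≠ 3)
    {A B : Subgroup (LinearMap.GeneralLinearGroup k M)} (hA : A ∈ Cfsg.quadraticRootSubgroups G)
    (hB : B ∈ Cfsg.quadraticRootSubgroups G) (hp : Cfsg.IsRankOnePair A B) :
    3 < ENat.card k ∧ ∃ A₀ B₀ : Subgroup (LinearMap.GeneralLinearGroup k M), A₀ ≤ A ∧ B₀ ≤ B ∧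
      Cfsg.IsPSL2PairOver k A₀ B₀ := by
  obtain ⟨a, ha, rfl⟩ := mem_quadraticRootSubgroups_iff.mp hA
  obtain ⟨b, hb, rfl⟩ := mem_quadraticRootSubgroups_iff.mp hB
  refine ⟨?_, ?_⟩
  · obtain ⟨t, ht0, ht1⟩ := exists_sq_ne_one h2 h3
    have hn1 : (-1 : k) ≠ 1 := fun h => h2 (by linear_combination -h)
    have ht1' : t ≠ 1 := fun h => ht1 (by rw [h, one_pow])
    have ht2 : t ≠ -1 := fun h => ht1 (by rw [h, neg_one_sq])
    have hinj : Function.Injective (![0, 1, -1, t] : Fin 4 → k) := by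
      intro i j h
      fin_cases i <;> fin_cases j <;> simp at h <;> first
        | rfl
        | exact absurd h ht0
        | exact absurd h.symm ht0
        | exact absurd h ht1'
        | exact absurd h.symm ht1'
        | exact absurd h ht2
        | exact absurd h.symm ht2
        | exact absurd h hn1
        | exact absurd h.symm hn1
    have h4 := ENat.card_le_card_of_injective hinj
    simp at h4
    exact lt_of_lt_of_le (by norm_num) h4
  rcases dichotomy h2 h3 ha hb with h | ⟨-, c, hbc, hc⟩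
  · exact absurd h.1 (triple_ne_zero_of_rankOne h2 h3 ha hb hp)
  refine ⟨lineGroup k a ha.sq, lineGroup k c hc.2.1.sq, ?_, ?_,
    isPSL2PairOver_lines ha.sq hc.2.1.sq hc.2.2.1 hc.2.2.2 ha.2.1⟩
  · rintro g ⟨t, ht⟩
    rw [mem_classGroup, ht, add_sub_cancel_left]
    exact Submodule.smul_mem _ t (self_mem_classSpace ha)
  · rintro g ⟨t, ht⟩
    rw [classGroup_congr hb hc.2.1 hbc, mem_classGroup, ht, add_sub_cancel_left]
    exact Submodule.smul_mem _ t (self_mem_classSpace hc.2.1)

/-- A class lies in the commutator subgroup of its join with an opposite. -/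
lemma IsPartner.le_commutator (h2 : (2 : k) ≠ 0) (h3 : Nat.card k ≠ 3) (hc : IsPartner G a c) :
    classGroup hc.1 ≤ ⁅classGroup hc.1 ⊔ classGroup hc.2.1, classGroup hc.1 ⊔ classGroup hc.2.1⁆ := by
  set H := classGroup hc.1 ⊔ classGroup hc.2.1 with hH
  have hHG : H ≤ G := sup_le (classGroup_le _) (classGroup_le _)
  have lineH : ∀ {p : Module.End k M} (hp : IsMinLine G p), classGroup hp ≤ H → IsMinLine H p := by
    intro p hp hle
    refine ⟨⟨hp.sq, fun t => ?_⟩, hp.2.1, fun y hy => hp.2.2 y (hy.mono hHG)⟩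
    obtain ⟨g, hg, e⟩ := exists_mem_classGroup (Submodule.smul_mem (classSpace G hp) t (self_mem_classSpace hp))
    exact ⟨g, hle hg, e⟩
  have hcH : IsPartner H a c := ⟨lineH hc.1 le_sup_left, lineH hc.2.1 le_sup_right, hc.2.2.1, hc.2.2.2⟩
  obtain ⟨r, hr0, hr1⟩ := exists_sq_ne_one h2 h3
  obtain ⟨g, hg, eg⟩ := hcH.exists_torus hr0
  obtain ⟨g', -, eg'⟩ := hcH.exists_torus (inv_ne_zero hr0)
  rw [inv_inv] at eg'
  have hgi : ((g⁻¹ : (Module.End k M)ˣ) : Module.End k M) = g' := by
    refine Units.inv_eq_of_mul_eq_one_right ?_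
    rw [eg, eg']
    have PP : a * c * (a * c) = a * c := by rw [← mul_assoc, hc.2.2.1]
    have QQ : c * a * (c * a) = c * a := by rw [← mul_assoc, hc.2.2.2]
    have PQ : a * c * (c * a) = 0 := by rw [mul_assoc, ← mul_assoc c c a, hc.2.1.sq]; simp
    have QP : c * a * (a * c) = 0 := by rw [mul_assoc, ← mul_assoc a a c, hc.1.sq]; simp
    simp only [add_mul, mul_add, one_mul, mul_one, smul_mul_assoc, mul_smul_comm, PP, QQ, PQ, QP, smul_zero,
      add_zero, zero_add, smul_smul]
    match_scalars <;> field_simp <;> ring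
  intro u hu
  obtain ⟨x, hx, ex⟩ := classGroup_val hu
  have hs : r * r - 1 ≠ 0 := by rw [← pow_two]; exact sub_ne_zero.mpr hr1
  obtain ⟨y, hy, rfl⟩ : ∃ y ∈ classSpace G hc.1, x = (r * r - 1) • y :=
    ⟨(r * r - 1)⁻¹ • x, Submodule.smul_mem _ _ hx, by rw [smul_smul, mul_inv_cancel₀ hs, one_smul]⟩
  obtain ⟨v, hv, ev⟩ := exists_mem_classGroup hy
  have yy : y * y = 0 := classSpace.mul_eq_zero hy hy
  have e1 : a * c * y = y := by
    rcases hy with rfl | ⟨-, hs'⟩
    · simp
    · exact mul_idem_left hc.2.2.1 hs'.1.le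
  have e2 : y * (c * a) = y := by
    rcases hy with rfl | ⟨-, hs'⟩
    · simp
    · exact mul_idem_right hc.2.2.1 hs'.2.ge
  have e3 : c * a * y = 0 := classSpace.mul_right hy (by rw [mul_assoc, hc.1.sq, mul_zero])
  have e4 : y * (a * c) = 0 := by rw [← mul_assoc, classSpace.mul_left hy hc.1.sq, zero_mul]
  have f1 : (g : Module.End k M) * y * (g' : Module.End k M) = (r * r) • y := by
    rw [eg, eg']
    simp only [add_mul, one_mul, smul_mul_assoc, e1, e3, mul_add, mul_one, mul_smul_comm, e2, e4, smul_zero,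
      add_zero, zero_mul]
    module
  have hgg : (g : Module.End k M) * (g' : Module.End k M) = 1 := by rw [← hgi]; exact Units.mul_inv g
  have he : ⁅g, v⁆ = u := by
    refine Units.ext ?_
    rw [commutatorElement_def, Units.val_mul, Units.val_mul, Units.val_mul, ev, line_inv_val ev yy, hgi, ex,
      mul_add, mul_one, add_mul, hgg, f1, mul_sub, mul_one, add_mul, one_mul, smul_mul_assoc, yy, smul_zero,
      add_zero]
    module
  rw [← he]
  exact Subgroup.commutator_mem_commutator hg (Subgroup.mem_sup_left hv)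

/-- The group generated by the part of `A`. -/
abbrev partGroup (G : Subgroup (LinearMap.GeneralLinearGroup k M)) (A : Subgroup (LinearMap.GeneralLinearGroup k M)) :
    Subgroup (LinearMap.GeneralLinearGroup k M) := ⨆ B ∈ part G A, B

/-- The group generated by all members. -/
abbrev sigmaGroup (G : Subgroup (LinearMap.GeneralLinearGroup k M)) : Subgroup (LinearMap.GeneralLinearGroup k M) :=
  ⨆ B ∈ Cfsg.quadraticRootSubgroups G, B

lemma sigmaGroup_le : sigmaGroup G ≤ G := iSup₂_le fun _ hB => roots_le hB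

lemma partGroup_le (A : Subgroup (LinearMap.GeneralLinearGroup k M)) : partGroup G A ≤ sigmaGroup G :=
  biSup_mono fun _ hB => hB.1

lemma le_partGroup {A : Subgroup (LinearMap.GeneralLinearGroup k M)} (hA : A ∈ Cfsg.quadraticRootSubgroups G) :
    A ≤ partGroup G A := le_iSup₂ (f := fun B _ => B) A ⟨hA, ReflTransGen.refl⟩

lemma sigmaGroup_normal : G ≤ Subgroup.normalizer (sigmaGroup G : Set (LinearMap.GeneralLinearGroup k M)) := by
  have key : ∀ g ∈ G, ∀ x ∈ sigmaGroup G, g * x * g⁻¹ ∈ sigmaGroup G := by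
    intro g hg x hx
    have : g * x * g⁻¹ ∈ (sigmaGroup G).map (MulAut.conj g).toMonoidHom := ⟨x, hx, rfl⟩
    refine (?_ : _ ≤ sigmaGroup G) this
    simp only [sigmaGroup, Subgroup.map_iSup, iSup_le_iff]
    exact fun A hA => le_iSup₂ (f := fun B _ => B) _ (conjBy_mem_roots hA hg)
  exact fun g hg => Subgroup.mem_normalizer_iff.mpr fun x => ⟨key g hg x, fun h => by
    simpa [mul_assoc] using key g⁻¹ (inv_mem hg) _ h⟩

lemma commutator_partGroup (h2 : (2 : k) ≠ 0) (h3 : Nat.card k ≠ 3) (hN : NoUnip G)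
    {A B : Subgroup (LinearMap.GeneralLinearGroup k M)} (h : ¬ Reach G A B) :
    ⁅partGroup G A, partGroup G B⁆ = ⊥ := by
  rw [Subgroup.commutator_eq_bot_iff_le_centralizer]
  refine iSup₂_le fun C hC => ?_
  rw [Subgroup.le_centralizer_iff]
  refine iSup₂_le fun D hD => ?_
  rw [Subgroup.le_centralizer_iff, ← Subgroup.commutator_eq_bot_iff_le_centralizer]
  exact commutator_eq_bot_of_not_reach h2 h3 hN hC.1 hD.1
    fun hr => h (hC.2.trans (hr.trans (Reach.symm hD.2)))

/-- A subgroup of a part group normalised by it is everything or central. -/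
theorem part_dichotomy (h2 : (2 : k) ≠ 0) (h3 : Nat.card k ≠ 3) (hN : NoUnip G)
    (A : Subgroup (LinearMap.GeneralLinearGroup k M)) {N : Subgroup (LinearMap.GeneralLinearGroup k M)}
    (hNP : N ≤ partGroup G A) (hn : partGroup G A ≤ Subgroup.normalizer (N : Set (LinearMap.GeneralLinearGroup k M))) :
    N = partGroup G A ∨ N ≤ Subgroup.centralizer (partGroup G A : Set (LinearMap.GeneralLinearGroup k M)) := by
  have hn0 : sigmaGroup G ≤ Subgroup.normalizer (N : Set (LinearMap.GeneralLinearGroup k M)) := by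
    refine iSup₂_le fun B hB => ?_
    by_cases hr : Reach G A B
    · exact (le_iSup₂ (f := fun B _ => B) B ⟨hB, hr⟩).trans hn
    · refine le_trans ?_ (Subgroup.centralizer_le_normalizer _)
      rw [Subgroup.le_centralizer_iff]
      refine hNP.trans (iSup₂_le fun C hC => ?_)
      rw [← Subgroup.commutator_eq_bot_iff_le_centralizer]
      exact commutator_eq_bot_of_not_reach h2 h3 hN hC.1 hB fun h => hr (hC.2.trans h)
  have hN0 : NoUnip (sigmaGroup G) := hN.of_normal sigmaGroup_le sigmaGroup_normal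
  have key : ∀ B ∈ part G A, B ≤ N ∨ B ≤ Subgroup.centralizer (N : Set (LinearMap.GeneralLinearGroup k M)) := by
    intro B hB
    obtain ⟨b, hb, rfl⟩ := mem_quadraticRootSubgroups_iff.mp hB.1
    have line0 : ∀ x ∈ classSpace G hb, IsLine k (sigmaGroup G) x := by
      intro x hx
      refine ⟨(classSpace.isLine hx).1, fun t => ?_⟩
      obtain ⟨g, hg, e⟩ := exists_mem_classGroup (Submodule.smul_mem _ t hx)
      exact ⟨g, le_iSup₂ (f := fun B _ => B) _ hB.1 hg, e⟩
    have split : ∀ x ∈ classSpace G hb, ∃ x₁ x₀, x = x₁ + x₀ ∧ IsLine k N x₁ ∧ x₁ ∈ classSpace G hb ∧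
        x₀ ∈ classSpace G hb ∧ ∀ g ∈ N, Commute (g : Module.End k M) x₀ := by
      intro x hx
      rcases hx with rfl | ⟨hx, hbx⟩
      · exact ⟨0, 0, (add_zero 0).symm, isLine_zero, zero_mem _, zero_mem _, fun g _ => Commute.zero_right _⟩
      obtain ⟨x₁, x₀, e, l₁, l₀, r₁, k₁, r₀, k₀, hc⟩ :=
        line_decomp h2 h3 hN0 (hNP.trans (partGroup_le A)) hn0 x (line0 x (Or.inr ⟨hx, hbx⟩))
      have mem : ∀ y, IsLine k G y → range y ≤ range x → ker x ≤ ker y → y ∈ classSpace G hb := by
        intro y hy h h'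
        rcases eq_or_ne y 0 with rfl | hy0
        · exact zero_mem _
        · obtain ⟨hm, hs⟩ := hx.of_le hy hy0 h h'
          exact Or.inr ⟨hm, hbx.trans hs⟩
      exact ⟨x₁, x₀, e, l₁, mem _ (l₁.mono ((hNP.trans (partGroup_le A)).trans sigmaGroup_le)) r₁ k₁,
        mem _ (l₀.mono sigmaGroup_le) r₀ k₀, hc⟩
    by_cases hall : ∀ x ∈ classSpace G hb, ∀ g ∈ N, Commute (g : Module.End k M) x
    · right
      intro g hg h hh
      obtain ⟨x, hx, ex⟩ := classGroup_val hg
      refine Units.ext ?_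
      rw [Units.val_mul, Units.val_mul, ex, mul_add, add_mul, mul_one, one_mul, (hall x hx h hh).eq]
    · left
      push Not at hall
      obtain ⟨x, hx, g, hg, hgx⟩ := hall
      obtain ⟨x₁, x₀, e, l₁, m₁, -, hc⟩ := split x hx
      have hx₁ : x₁ ≠ 0 := fun h => hgx (by rw [e, h, zero_add]; exact hc g hg)
      obtain ⟨hm₁, hs₁⟩ := m₁.resolve_left hx₁
      intro u hu
      obtain ⟨y, hy, ey⟩ := classGroup_val hu
      obtain ⟨y₁, y₀, e', l, -, m₀, hc'⟩ := split y hy
      have hy₀ : y₀ = 0 := by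
        by_contra h0
        obtain ⟨hm₀, hs₀⟩ := m₀.resolve_left h0
        obtain ⟨d, hd⟩ := exists_partner h2 h3 hN hm₁
        obtain ⟨f, hf, ef⟩ := hd.2.1.1.exists_one
        obtain ⟨n₁, hn₁, en⟩ := l₁.exists_one
        have hfN : f * n₁ * f⁻¹ ∈ N := by
          refine (Subgroup.mem_normalizer_iff.mp (hn ?_) n₁).mp hn₁
          have hreach : Reach G A (classGroup hd.2.1) := by
            refine hB.2.trans ?_
            rw [classGroup_congr hb hm₁ hs₁]
            exact ReflTransGen.single (hd.adj h2 h3)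
          have hfd : f ∈ classGroup hd.2.1 := by
            rw [mem_classGroup, ef, add_sub_cancel_left]; exact self_mem_classSpace _
          exact le_iSup₂ (f := fun B _ => B) (classGroup hd.2.1)
            (show classGroup hd.2.1 ∈ part G A from ⟨classGroup_mem _, hreach⟩) hfd
        set w := (1 + d) * x₁ * (1 - d) with hw
        have hval : ((f * n₁ * f⁻¹ : (Module.End k M)ˣ) : Module.End k M) = 1 + w := by
          rw [Units.val_mul, Units.val_mul, en, ef, line_inv_val ef hd.2.1.sq, hw, mul_add, mul_one, add_mul,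
            add_mul 1 d (1 - d), one_mul, mul_sub, mul_one, hd.2.1.sq]
          abel
        have hcomm : w * y₀ = y₀ * w := by
          have h := (hc' _ hfN).eq
          rw [hval, add_mul, mul_add, one_mul, mul_one] at h
          exact add_left_cancel h
        have hwm : IsMinLine G w := by
          have := hm₁.conj (Subgroup.le_normalizer hf)
          rwa [ef, line_inv_val ef hd.2.1.sq] at this
        have h' : x₁ * w = w * x₁ :=
          (comm_of_comm h2 h3 hm₀ hwm hm₁ (hs₀.symm.trans hs₁) hcomm.symm)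
        have t : x₁ * w * x₁ = -x₁ := by
          rw [hw]
          simp only [add_mul, mul_add, mul_sub, sub_mul, one_mul, mul_one, ← mul_assoc, hm₁.sq, hd.2.2.1,
            zero_mul, sub_zero, zero_add, add_zero, zero_sub]
        rw [h', mul_assoc, hm₁.sq, mul_zero] at t
        exact hm₁.2.1 (neg_eq_zero.mp t.symm)
      rw [e', hy₀, add_zero] at ey
      obtain ⟨n, hn', en⟩ := l.exists_one
      exact (Units.ext (en.trans ey.symm) : n = u) ▸ hn'
  by_cases hsome : ∃ B ∈ part G A, B ≤ N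
  · left
    obtain ⟨B, hB, hBN⟩ := hsome
    refine le_antisymm hNP (iSup₂_le fun C hC => ?_)
    have step : ∀ C, Reach G B C → C ≤ N := by
      intro C hC
      induction hC with
      | refl => exact hBN
      | tail hr h ih =>
        obtain ⟨g, hg, rfl⟩ := FAdj.conjugate h
        rintro - ⟨x, hx, rfl⟩
        refine (Subgroup.mem_normalizer_iff.mp (hn ?_) x).mp (ih hx)
        refine (sup_le ?_ ?_ : _ ≤ partGroup G A) hg
        · exact le_iSup₂ (f := fun B _ => B) _ ⟨h.1, hB.2.trans hr⟩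
        · exact le_iSup₂ (f := fun B _ => B) _ ⟨h.2.1, (hB.2.trans hr).tail h⟩
    exact step C ((Reach.symm hB.2).trans hC.2)
  · right
    push Not at hsome
    rw [Subgroup.le_centralizer_iff]
    exact iSup₂_le fun B hB => (key B hB).resolve_left (hsome B hB)

/-- Each part group is quasisimple. -/
theorem part_quasisimple (h2 : (2 : k) ≠ 0) (h3 : Nat.card k ≠ 3) (hN : NoUnip G)
    {A : Subgroup (LinearMap.GeneralLinearGroup k M)} (hA : A ∈ Cfsg.quadraticRootSubgroups G) :
    Cfsg.IsQuasisimple ↥(partGroup G A) := by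
  set P := partGroup G A with hP
  have hperf : P ≤ ⁅P, P⁆ := by
    refine iSup₂_le fun B hB => ?_
    obtain ⟨b, hb, rfl⟩ := mem_quadraticRootSubgroups_iff.mp hB.1
    obtain ⟨d, hd⟩ := exists_partner h2 h3 hN hb
    refine (hd.le_commutator h2 h3).trans (Subgroup.commutator_mono ?_ ?_) <;>
      exact sup_le (le_iSup₂ (f := fun B _ => B) _ hB)
        (le_iSup₂ (f := fun B _ => B) _ ⟨classGroup_mem _, hB.2.tail (hd.adj h2 h3)⟩)
  refine CfsgLib.Cores.isQuasisimple_iff.mpr ⟨?_, ?_, fun N hNn => ?_⟩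
  · refine Group.isPerfect_def.mpr (Subgroup.map_injective P.subtype_injective ?_)
    rw [Subgroup.map_subtype_commutator, ← MonoidHom.range_eq_map, Subgroup.range_subtype]
    exact le_antisymm (Subgroup.commutator_le_self P) hperf
  · refine (Subgroup.nontrivial_iff_ne_bot P).mpr fun h => roots_ne_bot hA ?_
    exact le_bot_iff.mp (h ▸ le_partGroup hA)
  · have hle : N.map P.subtype ≤ P := Subgroup.map_subtype_le N
    have hn : P ≤ Subgroup.normalizer ((N.map P.subtype : Subgroup _) : Set (LinearMap.GeneralLinearGroup k M)) := by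
      intro g hg
      refine Subgroup.mem_normalizer_iff.mpr fun x => ⟨?_, ?_⟩
      · rintro ⟨y, hy, rfl⟩
        let g' : ↥P := ⟨g, hg⟩
        exact ⟨g' * y * g'⁻¹, hNn.conj_mem y hy g', rfl⟩
      · rintro ⟨y, hy, e⟩
        let g' : ↥P := ⟨g, hg⟩
        refine ⟨g'⁻¹ * y * g'⁻¹⁻¹, hNn.conj_mem y hy g'⁻¹, ?_⟩
        change g⁻¹ * P.subtype y * g⁻¹⁻¹ = x
        rw [e]
        group
    rcases part_dichotomy h2 h3 hN A hle hn with h | h
    · left
      refine Subgroup.map_injective P.subtype_injective (h.trans ?_)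
      rw [← MonoidHom.range_eq_map, Subgroup.range_subtype]
    · right
      intro x hx
      exact Subgroup.mem_center_iff.mpr fun y =>
        Subtype.ext (Subgroup.mem_centralizer_iff.mp (h ⟨x, hx, rfl⟩) y y.2)

/-- Root subgroups of a part form a class inside the part group. -/
theorem part_rootClass (h2 : (2 : k) ≠ 0) (h3 : Nat.card k ≠ 3) (hN : NoUnip G)
    {A : Subgroup (LinearMap.GeneralLinearGroup k M)} (hA : A ∈ Cfsg.quadraticRootSubgroups G) :
    Cfsg.IsRootSubgroupClass ((fun B : Subgroup (LinearMap.GeneralLinearGroup k M) => B.subgroupOf (partGroup G A)) ''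
      part G A) := by
  have hsub : part G A ⊆ Cfsg.quadraticRootSubgroups G := fun B hB => hB.1
  have hle : ∀ B ∈ part G A, B ≤ partGroup G A := fun B hB => le_iSup₂ (f := fun B _ => B) B hB
  refine ⟨isRootSubgroupSet_image rfl (fun B hB => roots_commutative (hsub hB)) (fun B hB => roots_ne_bot (hsub hB))
    (fun B hB g hg => ⟨conjBy_mem_roots hB.1 (sigmaGroup_le (partGroup_le A hg)),
      hB.2.trans (reach_conjBy h2 h3 hN hB.1 (partGroup_le A hg))⟩)
    (roots_pair h2 h3 hN hsub fun B hB C h => ⟨h.mem hB.1, hB.2.trans h⟩), ?_⟩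
  refine ⟨⟨_, A, ⟨hA, ReflTransGen.refl⟩, rfl⟩, ?_⟩
  have step : ∀ C, Reach G A C → ∃ g ∈ partGroup G A, C = Cfsg.conjBy A g := by
    intro C hC
    induction hC with
    | refl => exact ⟨1, one_mem _, by simp only [Cfsg.conjBy, map_one]; exact (Subgroup.map_id _).symm⟩
    | tail hr h ih =>
      obtain ⟨g, hg, rfl⟩ := ih
      obtain ⟨g', hg', rfl⟩ := FAdj.conjugate h
      refine ⟨g' * g, mul_mem ?_ hg, ?_⟩
      · exact sup_le (hle _ ⟨h.1, hr⟩) (hle _ ⟨h.2.1, hr.tail h⟩) hg'
      · simp only [Cfsg.conjBy, Subgroup.map_map]; congr 1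
  rintro - ⟨B, hB, rfl⟩ - ⟨C, hC, rfl⟩
  obtain ⟨g, hg, rfl⟩ := step B hB.2
  obtain ⟨g', hg', rfl⟩ := step C hC.2
  refine ⟨⟨g' * g⁻¹, mul_mem hg' (inv_mem hg)⟩, ?_⟩
  show (Cfsg.conjBy A g').subgroupOf _ = Cfsg.conjBy ((Cfsg.conjBy A g).subgroupOf _) _
  rw [conjBy_subgroupOf (hle _ hB)]
  congr 1
  simp only [Cfsg.conjBy, Subgroup.map_map]
  congr 1
  ext x : 1
  simp [mul_assoc]

/-- Finitely many parts. -/
theorem finite_parts (h2 : (2 : k) ≠ 0) (h3 : Nat.card k ≠ 3) (hN : NoUnip G) :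
    ((part G) '' Cfsg.quadraticRootSubgroups G).Finite := by
  have hrep : ∀ P : ↥((part G) '' Cfsg.quadraticRootSubgroups G), ∃ (a : Module.End k M) (ha : IsMinLine G a),
      part G (classGroup ha) = P := by
    rintro ⟨-, A, hA, rfl⟩
    obtain ⟨a, ha, rfl⟩ := mem_quadraticRootSubgroups_iff.mp hA
    exact ⟨a, ha, rfl⟩
  choose f hf hfp using hrep
  have hdiff : ∀ {P Q}, P ≠ Q → ¬ Reach G (classGroup (hf P)) (classGroup (hf Q)) := fun hne h =>
    hne (Subtype.ext (by rw [← hfp, ← hfp, part_eq_of_reach h]))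
  have hli : LinearIndependent k f := by
    rw [linearIndependent_iff']
    intro s g hsum P hP
    obtain ⟨c, hc⟩ := exists_partner h2 h3 hN (hf P)
    have hz : ∀ Q ∈ s, Q ≠ P → g Q • (f Q * c - c * f Q) = 0 := by
      intro Q _ hQ
      have hnr : ¬ Reach G (classGroup (hf Q)) (classGroup hc.2.1) := fun h =>
        hdiff hQ (h.trans (Reach.symm (ReflTransGen.single (hc.adj h2 h3))))
      have hcomm : f Q * c = c * f Q := by
        by_contra h
        exact hnr (reach_of_not_comm h2 h3 hN (hf Q) hc.2.1 h)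
      rw [hcomm, sub_self, smul_zero]
    have h0 : ∑ Q ∈ s, g Q • (f Q * c - c * f Q) = 0 := by
      calc ∑ Q ∈ s, g Q • (f Q * c - c * f Q) = (∑ Q ∈ s, g Q • f Q) * c - c * ∑ Q ∈ s, g Q • f Q := by
            rw [Finset.sum_mul, Finset.mul_sum, ← Finset.sum_sub_distrib]
            exact Finset.sum_congr rfl fun Q _ => by rw [smul_sub, smul_mul_assoc, mul_smul_comm]
        _ = 0 := by rw [hsum, zero_mul, mul_zero, sub_zero]
    rw [Finset.sum_eq_single_of_mem P hP hz] at h0
    exact (smul_eq_zero.mp h0).resolve_right (sub_ne_zero.mpr hc.not_comm)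
  exact Set.finite_coe_iff.mp hli.finite

end CfsgLib.Transpositions
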