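import Cfsg.Agent.Lib.Transpositions.Pair

/-!
Splitting of a pair of lines into the part where `z = ab + ba` is invertible and the unipotent part.
-/
set_option autoImplicit false

open Polynomial
open scoped Pointwise commutatorElement

namespace CfsgLib.Transpositions

variable {k A : Type*} [Field k] [Ring A] [Algebra k A]

lemma aeval_mul_idem {z ε : A} (hε : ε * ε = ε) (hc : Commute z ε) (P : k[X]) :
    aeval (ε * z) P * ε = aeval z P * ε := by
  induction P using Polynomial.induction_on' with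
  | add p q hp hq => rw [map_add, map_add, add_mul, add_mul, hp, hq]
  | monomial n r =>
    rw [aeval_monomial, aeval_monomial, mul_assoc, mul_assoc]
    congr 1
    induction n with
    | zero => simp
    | succ n ih =>
      rw [pow_succ, pow_succ, mul_assoc, mul_assoc ε z, ← mul_assoc _ ε, ih, mul_assoc,
        ← mul_assoc ε z, ← hc.eq, mul_assoc z ε ε, hε, mul_assoc]

/-- The elements commuting with `ε`. -/
def commUnits (ε : A) : Subgroup Aˣ where
  carrier := {g | Commute ε (g : A)}
  one_mem' := Commute.one_right ε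
  mul_mem' ha hb := by simpa using ha.mul_right hb
  inv_mem' ha := ha.units_inv_right

/-- `g ↦ 1 + ε (g - 1)`. -/
noncomputable def projHom (ε : A) (hε : ε * ε = ε) : commUnits ε →* Aˣ :=
  MonoidHom.toHomUnits
    { toFun := fun g => 1 + ε * (((g : Aˣ) : A) - 1)
      map_one' := by simp
      map_mul' := fun g h => by
        have hc : Commute ε (((g : Aˣ) : A) - 1) := g.2.sub_right (Commute.one_right ε)
        have e : ((((g * h : commUnits ε) : Aˣ) : A) - 1) =
            (((g : Aˣ) : A) - 1) * (((h : Aˣ) : A) - 1) + (((g : Aˣ) : A) - 1) + (((h : Aˣ) : A) - 1) := by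
          simp [sub_mul, mul_sub]
        have e2 : ε * (((g : Aˣ) : A) - 1) * (ε * (((h : Aˣ) : A) - 1)) =
            ε * ((((g : Aˣ) : A) - 1) * (((h : Aˣ) : A) - 1)) := by
          rw [mul_assoc, ← mul_assoc (((g : Aˣ) : A) - 1) ε, ← hc.eq, mul_assoc ε (((g : Aˣ) : A) - 1),
            ← mul_assoc ε ε, hε]
        rw [e, mul_add, mul_add, add_mul, one_mul, mul_add, mul_one, e2]
        abel }

lemma projHom_val (ε : A) (hε : ε * ε = ε) (g : commUnits ε) :
    (projHom ε hε g : A) = 1 + ε * (((g : Aˣ) : A) - 1) := rfl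

lemma alternating_pow {c d : A} (hc : c * c = 0) (hd : d * d = 0) (i : ℕ) :
    (Submodule.span k ({c, d} : Set A)) ^ (2 * (i + 1)) ≤
      Submodule.span k {(c * d) ^ (i + 1), (d * c) ^ (i + 1)} := by
  have h2 : (Submodule.span k ({c, d} : Set A)) ^ 2 ≤ Submodule.span k {c * d, d * c} := by
    rw [pow_two, Submodule.span_mul_span, Submodule.span_le]
    rintro - ⟨x, (rfl | rfl), y, (rfl | rfl), rfl⟩
    · simp [hc]
    · exact Submodule.subset_span (Or.inl rfl)
    · exact Submodule.subset_span (Or.inr rfl)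
    · simp [hd]
  induction i with
  | zero => simpa using h2
  | succ i ih =>
    rw [show 2 * (i + 1 + 1) = 2 * (i + 1) + 2 by ring, pow_add]
    refine (mul_le_mul' ih h2).trans ?_
    rw [Submodule.span_mul_span, Submodule.span_le]
    rintro - ⟨x, (rfl | rfl), y, (rfl | rfl), rfl⟩
    · exact Submodule.subset_span (Or.inl (pow_succ _ _).symm)
    · simp [pow_succ _ i, mul_assoc, ← mul_assoc d d c, hd]
    · simp [pow_succ _ i, mul_assoc, ← mul_assoc c c d, hc]
    · exact Submodule.subset_span (Or.inr (pow_succ _ _).symm)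

/-- Two lines with nilpotent `z` generate a unipotent group. -/
lemma isUnip_of_nilpotent {c d : A} (hc : c * c = 0) (hd : d * d = 0) {N : ℕ}
    (hcN : (c * d + d * c) ^ N * c = 0) (hdN : (c * d + d * c) ^ N * d = 0) {H : Subgroup Aˣ}
    {S : Set Aˣ} (hH : H = Subgroup.closure S)
    (hS : ∀ g ∈ S, ∃ t : k, ((g : A) = 1 + t • c) ∨ ((g : A) = 1 + t • d)) : IsUnipGroup k H := by
  set z := c * d + d * c
  have hz : ∀ i, (c * d) ^ (i + 1) = z ^ i * (c * d) := by
    intro i
    induction i with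
    | zero => simp
    | succ i ih =>
      rw [pow_succ, ih, pow_succ z, mul_assoc, mul_assoc (z ^ i)]
      congr 1
      simp [z, add_mul, mul_assoc, ← mul_assoc c c d, hc]
  have hz' : ∀ i, (d * c) ^ (i + 1) = z ^ i * (d * c) := by
    intro i
    induction i with
    | zero => simp
    | succ i ih =>
      rw [pow_succ, ih, pow_succ z, mul_assoc, mul_assoc (z ^ i)]
      congr 1
      simp [z, add_mul, mul_assoc, ← mul_assoc d d c, hd]
  set V := Submodule.span k ({c, d} : Set A)
  have hV : V ^ (2 * (N + 1)) = ⊥ := by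
    refine le_bot_iff.mp ((alternating_pow hc hd N).trans ?_)
    rw [Submodule.span_le]
    rintro - (rfl | rfl)
    · simp [hz, ← mul_assoc, hcN]
    · simp [hz', ← mul_assoc, hdN]
  set M := 2 * (N + 1)
  let T : Submodule k A := ⨆ i : ℕ, V ^ (i + 1)
  have hVbig : ∀ i, M ≤ i → V ^ i = ⊥ := by
    intro i hi
    obtain ⟨j, rfl⟩ := Nat.exists_eq_add_of_le hi
    rw [pow_add, hV, Submodule.bot_mul]
  have hTT : T * T ≤ T := by
    simp only [T, Submodule.iSup_mul, Submodule.mul_iSup, iSup_le_iff]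
    intro i j
    rw [← pow_add]
    exact le_iSup_of_le (i + 1 + j) (le_of_eq (by congr 1 <;> ring))
  have hTp : ∀ n, T ^ (n + 1) ≤ ⨆ i : ℕ, V ^ (i + 1 + n) := by
    intro n
    induction n with
    | zero => simp [T]
    | succ n ih =>
      rw [pow_succ]
      refine (mul_le_mul' ih le_rfl).trans ?_
      simp only [T, Submodule.iSup_mul, Submodule.mul_iSup, iSup_le_iff]
      intro i j
      rw [← pow_add]
      exact le_iSup_of_le (i + j) (le_of_eq (by congr 1; ring))
  refine IsUnipGroup.of_le_span (I := T) (n := M + 1) M.succ_pos (le_bot_iff.mp ((hTp M).trans ?_)) ?_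
  · exact iSup_le fun i => le_of_eq (hVbig _ (by omega))
  subst hH
  refine augSpan_closure_le hTT fun g hg => ?_
  have hV1 : V ≤ T := le_iSup_of_le 0 (by simp)
  obtain ⟨t, ht⟩ := hS g hg
  have key : ∀ e : A, e * e = 0 → e ∈ V → (g : A) = 1 + t • e →
      (g : A) - 1 ∈ T ∧ ((g⁻¹ : Aˣ) : A) - 1 ∈ T := by
    intro e he heV hge
    have hinv : ((g⁻¹ : Aˣ) : A) = 1 - t • e := by
      refine Units.inv_eq_of_mul_eq_one_right ?_
      rw [hge, add_mul, one_mul, mul_sub, mul_one, smul_sq he]; abel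
    constructor
    · rw [hge, add_sub_cancel_left]; exact hV1 (V.smul_mem t heV)
    · rw [hinv, sub_sub_cancel_left]; exact neg_mem (hV1 (V.smul_mem t heV))
  rcases ht with ht | ht
  · exact key c hc (Submodule.subset_span (Or.inl rfl)) ht
  · exact key d hd (Submodule.subset_span (Or.inr rfl)) ht

/-- The set of units `1 + t c`, `1 + t d`. -/
def linePair (k : Type*) [Field k] [Algebra k A] (c d : A) : Set Aˣ :=
  {g | ∃ t : k, ((g : A) = 1 + t • c) ∨ ((g : A) = 1 + t • d)}

lemma isLine_closure_linePair {c d : A} (hc : c * c = 0) (hd : d * d = 0) :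
    IsLine k (Subgroup.closure (linePair k c d)) c ∧ IsLine k (Subgroup.closure (linePair k c d)) d := by
  constructor
  · exact ⟨hc, fun t => ⟨sqUnit (t • c) (smul_sq hc t t), Subgroup.subset_closure ⟨t, Or.inl rfl⟩, rfl⟩⟩
  · exact ⟨hd, fun t => ⟨sqUnit (t • d) (smul_sq hd t t), Subgroup.subset_closure ⟨t, Or.inr rfl⟩, rfl⟩⟩

lemma closure_linePair_le {c d : A} {G : Subgroup Aˣ} (hc : IsLine k G c) (hd : IsLine k G d) :
    Subgroup.closure (linePair k c d) ≤ G := by
  refine (Subgroup.closure_le G).mpr ?_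
  rintro g ⟨t, ht | ht⟩
  · obtain ⟨h, hh, hht⟩ := hc.2 t
    exact (Units.ext (hht.trans ht.symm) : h = g) ▸ hh
  · obtain ⟨h, hh, hht⟩ := hd.2 t
    exact (Units.ext (hht.trans ht.symm) : h = g) ▸ hh

/-- The splitting theorem. -/
theorem split_pair [FiniteDimensional k A] (h2 : (2 : k) ≠ 0) (h3 : Nat.card k ≠ 3) {G : Subgroup Aˣ}
    {a b : A} (hla : IsLine k G a) (hlb : IsLine k G b) :
    ∃ E : k[X], E.coeff 0 = 0 ∧
      aeval (a * b + b * a) E * aeval (a * b + b * a) E = aeval (a * b + b * a) E ∧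
      (∀ P : k[X], IsLine k ⁅G, G⁆ (aeval (a * b + b * a) P * (aeval (a * b + b * a) E * a)) ∧
        IsLine k ⁅G, G⁆ (aeval (a * b + b * a) P * (aeval (a * b + b * a) E * b))) ∧
      ∃ N : ℕ, (a * b + b * a) ^ N * (a - aeval (a * b + b * a) E * a) = 0 ∧
        (a * b + b * a) ^ N * (b - aeval (a * b + b * a) E * b) = 0 := by
  set z := a * b + b * a with hz
  rcases subsingleton_or_nontrivial A with hA | hA
  · refine ⟨0, coeff_zero 0, Subsingleton.elim _ _, fun P => ?_, 0, Subsingleton.elim _ _, Subsingleton.elim _ _⟩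
    constructor <;> simp only [map_zero, zero_mul, mul_zero] <;> exact isLine_zero
  set m := minpoly k z with hm
  have hmon : m.Monic := minpoly.monic (.of_finite k z)
  have hm0 : aeval z m = 0 := minpoly.aeval k z
  obtain ⟨m₁, hm₁, hnd⟩ := exists_eq_pow_rootMultiplicity_mul_and_not_dvd m hmon.ne_zero (0 : k)
  rw [map_zero, sub_zero] at hm₁ hnd
  set N := m.rootMultiplicity 0
  have hm₁0 : m₁.coeff 0 ≠ 0 := fun h => hnd (X_dvd_iff.mpr h)
  have hmon₁ : m₁.Monic := (monic_X_pow N).of_mul_monic_left (hm₁ ▸ hmon)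
  obtain ⟨U, V, hUV⟩ := (((irreducible_X (R := k)).coprime_iff_not_dvd).mpr hnd).pow_left (m := N + 1)
  set E := U * X ^ (N + 1) with hE
  have hE0 : E.coeff 0 = 0 := by simp [hE]
  have hkill : ∀ P : k[X], m ∣ P → aeval z P = 0 := by
    rintro P ⟨Q, rfl⟩; rw [map_mul, hm0, zero_mul]
  set ε := aeval z E with hε'
  have hεε : ε * ε = ε := by
    rw [← sub_eq_zero, ← map_mul, ← map_sub]
    refine hkill _ ⟨-(U * X * V), ?_⟩
    rw [hm₁, hE]
    linear_combination (U * X ^ (N + 1)) * hUV
  have hzε : Commute z ε := (commute_aeval (Commute.refl z) E).symm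
  have hca : Commute ε a := commute_aeval (commute_pairZ_left hla.1) E
  have hcb : Commute ε b := commute_aeval (commute_pairZ_right hlb.1) E
  set a' := ε * a with ha'
  set b' := ε * b with hb'
  have ha2 : a' * a' = 0 := by
    rw [ha', mul_assoc, ← mul_assoc a ε, ← hca.eq, mul_assoc ε a a, hla.1, mul_zero, mul_zero]
  have hb2 : b' * b' = 0 := by
    rw [hb', mul_assoc, ← mul_assoc b ε, ← hcb.eq, mul_assoc ε b b, hlb.1, mul_zero, mul_zero]
  have hz' : a' * b' + b' * a' = ε * z := by
    have e1 : a' * b' = ε * (a * b) := by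
      rw [ha', hb', mul_assoc, ← mul_assoc a ε, ← hca.eq, mul_assoc ε a b, ← mul_assoc ε ε, hεε]
    have e2 : b' * a' = ε * (b * a) := by
      rw [ha', hb', mul_assoc, ← mul_assoc b ε, ← hcb.eq, mul_assoc ε b a, ← mul_assoc ε ε, hεε]
    rw [e1, e2, ← mul_add, ← hz]
  have hm₁ε : aeval z m₁ * ε = 0 := by
    rw [← map_mul]
    refine hkill _ ⟨U * X, ?_⟩
    rw [hm₁, hE]; ring
  have hcorner : ∀ c : A, aeval (ε * z) m₁ * (ε * c) = 0 := fun c => by
    rw [← mul_assoc, aeval_mul_idem hεε hzε, hm₁ε, zero_mul]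
  let D : CornerData k a' b' :=
    { poly := m₁, monic := hmon₁, coeff0 := hm₁0, sq_a := ha2, sq_b := hb2
      kill_a := by rw [hz']; exact hcorner a
      kill_b := by rw [hz']; exact hcorner b }
  set X₁ := Subgroup.closure (linePair k a' b')
  set X₀ := Subgroup.closure (linePair k a b)
  obtain ⟨hla', hlb'⟩ := isLine_closure_linePair (k := k) ha2 hb2
  have hfull : ∀ P : k[X], IsLine k ⁅X₁, X₁⁆ (aeval z P * a') ∧ IsLine k ⁅X₁, X₁⁆ (aeval z P * b') := by
    intro P
    have h := D.line_full h2 h3 hla' hlb' P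
    rw [hz'] at h
    have e : ∀ c : A, aeval (ε * z) P * (ε * c) = aeval z P * (ε * c) := fun c => by
      rw [← mul_assoc, aeval_mul_idem hεε hzε, mul_assoc]
    rwa [ha', hb', e, e] at h
  have hperf : X₁ ≤ ⁅X₁, X₁⁆ := by
    have h1 := hfull 1
    rw [map_one, one_mul, one_mul] at h1
    exact closure_linePair_le h1.1 h1.2
  have hX₀ : X₀ ≤ commUnits ε := by
    refine (Subgroup.closure_le _).mpr ?_
    rintro g ⟨t, ht | ht⟩ <;> show Commute ε (g : A) <;> rw [ht]
    · exact (Commute.one_right ε).add_right (hca.smul_right t)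
    · exact (Commute.one_right ε).add_right (hcb.smul_right t)
  set P₀ := X₀.subgroupOf (commUnits ε)
  have hP₀ : P₀.map (commUnits ε).subtype = X₀ := by
    rw [Subgroup.subgroupOf_map_subtype, inf_eq_left.mpr hX₀]
  have hεc : (1 - ε) * (1 - ε) = 1 - ε := by
    rw [mul_sub, mul_one, sub_mul, one_mul, hεε, sub_self, sub_zero]
  have hswap : commUnits ε = commUnits (1 - ε) := by
    ext g
    exact ⟨fun h => (Commute.one_left _).sub_left h, fun h => by
      show Commute ε (g : A)
      simpa using (Commute.one_left _).sub_left h⟩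
  set π₁ := projHom ε hεε
  set π₂ := (projHom (1 - ε) hεc).comp (Subgroup.inclusion hswap.le)
  have himg : ∀ (η : A) (π : commUnits ε →* Aˣ),
      (∀ g, (π g : A) = 1 + η * (((g : Aˣ) : A) - 1)) →
      P₀.map π = Subgroup.closure (linePair k (η * a) (η * b)) := by
    intro η π hπ
    refine le_antisymm ?_ ((Subgroup.closure_le _).mpr ?_)
    · rintro - ⟨⟨g, hgc⟩, hg, rfl⟩
      have hg' : g ∈ Subgroup.closure (linePair k a b) := hg
      clear hg
      induction hg' using Subgroup.closure_induction with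
      | mem x hx =>
        obtain ⟨t, hx⟩ := hx
        refine Subgroup.subset_closure ⟨t, ?_⟩
        rw [hπ]
        rcases hx with hx | hx
        · left; simp [hx]
        · right; simp [hx]
      | one => rw [show (⟨1, hgc⟩ : commUnits ε) = 1 from rfl, map_one]; exact one_mem _
      | mul x y hx hy ihx ihy =>
        rw [show (⟨x * y, hgc⟩ : commUnits ε) = ⟨x, hX₀ hx⟩ * ⟨y, hX₀ hy⟩ from rfl, map_mul]
        exact mul_mem (ihx _) (ihy _)
      | inv x hx ih =>
        rw [show (⟨x⁻¹, hgc⟩ : commUnits ε) = (⟨x, hX₀ hx⟩)⁻¹ from rfl, map_inv]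
        exact inv_mem (ih _)
    · rintro g ⟨t, ht⟩
      have hgen : ∀ c : A, c = a ∨ c = b → ∀ hc : c * c = 0, (g : A) = 1 + t • (η * c) →
          g ∈ P₀.map π := by
        intro c hcab hc hg
        have hmem : sqUnit (t • c) (smul_sq hc t t) ∈ X₀ := Subgroup.subset_closure
          ⟨t, by rcases hcab with rfl | rfl <;> [exact Or.inl rfl; exact Or.inr rfl]⟩
        refine ⟨⟨_, hX₀ hmem⟩, hmem, Units.ext ?_⟩
        rw [hπ, hg]
        show 1 + η * ((1 + t • c) - 1) = _
        rw [add_sub_cancel_left, mul_smul_comm]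
      rcases ht with ht | ht
      · exact hgen a (Or.inl rfl) hla.1 ht
      · exact hgen b (Or.inr rfl) hlb.1 ht
  have hπ₁ : P₀.map π₁ = X₁ := himg ε π₁ (fun g => projHom_val ε hεε g)
  have hπ₂ : P₀.map π₂ = Subgroup.closure (linePair k ((1 - ε) * a) ((1 - ε) * b)) :=
    himg (1 - ε) π₂ (fun g => projHom_val (1 - ε) hεc _)
  set a'' := (1 - ε) * a with ha''
  set b'' := (1 - ε) * b with hb''
  have hca' : Commute (1 - ε) a := (Commute.one_left a).sub_left hca
  have hcb' : Commute (1 - ε) b := (Commute.one_left b).sub_left hcb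
  have hzN : aeval z (X ^ N : k[X]) * (1 - ε) = 0 := by
    rw [← map_one (aeval (R := k) z), ← map_sub, ← map_mul]
    refine hkill _ ⟨V, ?_⟩
    rw [hm₁, hE]
    linear_combination -(X ^ N) * hUV
  rw [map_pow, aeval_X] at hzN
  have ha2' : a'' * a'' = 0 := by
    rw [ha'', mul_assoc, ← mul_assoc a, ← hca'.eq, mul_assoc _ a a, hla.1, mul_zero, mul_zero]
  have hb2' : b'' * b'' = 0 := by
    rw [hb'', mul_assoc, ← mul_assoc b, ← hcb'.eq, mul_assoc _ b b, hlb.1, mul_zero, mul_zero]
  have hz'' : a'' * b'' + b'' * a'' = (1 - ε) * z := by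
    have e1 : a'' * b'' = (1 - ε) * (a * b) := by
      rw [ha'', hb'', mul_assoc, ← mul_assoc a, ← hca'.eq, mul_assoc _ a b, ← mul_assoc, hεc]
    have e2 : b'' * a'' = (1 - ε) * (b * a) := by
      rw [ha'', hb'', mul_assoc, ← mul_assoc b, ← hcb'.eq, mul_assoc _ b a, ← mul_assoc, hεc]
    rw [e1, e2, ← mul_add, ← hz]
  have hz2ε : Commute z (1 - ε) := (Commute.one_right z).sub_right hzε
  have hnil : ∀ c : A, (a'' * b'' + b'' * a'') ^ N * ((1 - ε) * c) = 0 := fun c => by
    rw [hz'', ← mul_assoc]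
    have h := aeval_mul_idem (k := k) hεc hz2ε (X ^ N)
    rw [map_pow, map_pow, aeval_X, aeval_X] at h
    rw [h, hzN, zero_mul]
  obtain ⟨n, hn⟩ := (Subgroup.isNilpotent_iff_lowerCentralSeries _).mp
    (isUnip_of_nilpotent (k := k) ha2' hb2' (hnil a) (hnil b) (S := linePair k a'' b'') rfl (fun g hg => hg)).isNilpotent
  have hX₁n : ∀ i, X₁ ≤ X₁.lowerCentralSeries i := by
    intro i
    induction i with
    | zero => exact le_rfl
    | succ i ih => exact hperf.trans (by rw [Subgroup.lowerCentralSeries_succ]; exact Subgroup.commutator_mono ih le_rfl)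
  have hX₁G : X₁ ≤ G := by
    intro g hg
    have hg' := hX₁n n hg
    rw [← hπ₁, ← Subgroup.map_lowerCentralSeries] at hg'
    obtain ⟨x, hx, hxg⟩ := hg'
    have hx2 : π₂ x ∈ (P₀.map π₂).lowerCentralSeries n := by
      rw [← Subgroup.map_lowerCentralSeries]; exact ⟨x, hx, rfl⟩
    rw [hπ₂, hn, Subgroup.mem_bot] at hx2
    have h2' : (1 - ε) * (((x : Aˣ) : A) - 1) = 0 := by
      have := congrArg (fun u : Aˣ => (u : A)) hx2
      have h := projHom_val (1 - ε) hεc (Subgroup.inclusion hswap.le x)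
      simp only [π₂, MonoidHom.comp_apply, Units.val_one] at this
      rw [h] at this
      simpa using this
    have hxg' : (g : A) = ((x : Aˣ) : A) := by
      rw [← hxg, show (π₁ x : A) = _ from projHom_val ε hεε x]
      rw [sub_mul, one_mul, sub_eq_zero] at h2'
      rw [← h2', add_sub_cancel]
    rw [show g = (x : Aˣ) from Units.ext hxg']
    refine closure_linePair_le hla hlb ?_
    have hle : P₀.lowerCentralSeries n ≤ P₀ := by
      clear hx hn hx2 hg
      induction n with
      | zero => exact le_rfl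
      | succ i ih => exact (Subgroup.commutator_mono ih le_rfl).trans (Subgroup.commutator_le_self P₀)
    exact hle hx
  have hGG : ⁅X₁, X₁⁆ ≤ ⁅G, G⁆ := Subgroup.commutator_mono hX₁G hX₁G
  refine ⟨E, hE0, hεε, fun P => ⟨(hfull P).1.mono hGG, (hfull P).2.mono hGG⟩, N, ?_, ?_⟩
  · rw [← one_mul a, ← mul_assoc ε, mul_one, ← sub_mul, ← mul_assoc, hzN, zero_mul]
  · rw [← one_mul b, ← mul_assoc ε, mul_one, ← sub_mul, ← mul_assoc, hzN, zero_mul]

end CfsgLib.Transpositions
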