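import Cfsg.Agent.Lib.Transpositions.RootGroup

/-!
The bracket of a unipotent pair of classes maps onto the class of the bracket.
-/
set_option autoImplicit false

namespace CfsgLib.Transpositions

variable {k : Type*} [Field k] {M : Type*} [AddCommGroup M] [Module k M]
variable {G : Subgroup (Module.End k M)ˣ} {a b c x w : Module.End k M}

open LinearMap (range ker)

variable [FiniteDimensional k M]

/-- A line `q b r` for which `q` kills a non-zero vector in the range of the minimal `b` vanishes. -/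
lemma IsMinLine.eq_zero_of_drop (hb : IsMinLine G b) {q r : Module.End k M} {v : M}
    (hl : IsLine k G (q * b * r)) (hv : v ∈ range b) (hv0 : v ≠ 0) (hqv : q v = 0) :
    q * b * r = 0 := by
  by_contra hne
  have hrk := hb.2.2 _ hl hne
  have h := (q.domRestrict (range b)).finrank_range_add_finrank_ker
  have e1 : range (q.domRestrict (range b)) = range (q * b) := by
    ext m; simp [LinearMap.mem_range]
  have hpos : 0 < Module.finrank k (ker (q.domRestrict (range b))) := by
    refine Submodule.one_le_finrank_iff.mpr fun hbot => ?_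
    have : (⟨v, hv⟩ : range b) ∈ ker (q.domRestrict (range b)) := hqv
    rw [hbot, Submodule.mem_bot] at this
    exact hv0 (congrArg Subtype.val this)
  rw [e1] at h
  have := endRank_mul_le_left (q * b) r
  unfold endRank at *
  omega

lemma BracketData.ker_le_left (D : BracketData G a b) : ker (a * b - b * a) ≤ ker (a * b) := by
  rw [D.ker_eq, D.kerL]; exact inf_le_left

lemma BracketData.ker_le_right (D : BracketData G a b) : ker (a * b - b * a) ≤ ker (b * a) := by
  rw [D.ker_eq, D.kerR]; exact inf_le_right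

lemma BracketData.range_le_right (D : BracketData G a b) : range (b * a) ≤ range (a * b - b * a) := by
  rw [D.range_eq, D.rangeR]; exact le_sup_right

/-- An element killing the kernel of `u` absorbs `c * u`. -/
lemma mul_idem_right {u : Module.End k M} (h : u * c * u = u) (hle : ker u ≤ ker x) :
    x * (c * u) = x := by
  ext m
  have hm : m - (c * u) m ∈ ker u := by
    rw [LinearMap.mem_ker, map_sub, ← Module.End.mul_apply, ← mul_assoc, h, sub_self]
  have := LinearMap.mem_ker.mp (hle hm)
  rw [map_sub, sub_eq_zero] at this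
  exact this.symm

/-- An element with range in the range of `u` absorbs `u * c`. -/
lemma mul_idem_left {u : Module.End k M} (h : u * c * u = u) (hle : range x ≤ range u) :
    (u * c) * x = x := by
  ext m
  obtain ⟨n, hn⟩ := hle (LinearMap.mem_range_self x m)
  rw [Module.End.mul_apply, ← hn, ← Module.End.mul_apply, h]

/-- For opposites in the same two classes the idempotents agree. -/
lemma exists_partner_of_class (h2 : (2 : k) ≠ 0) (h3 : Nat.card k ≠ 3) {u : Module.End k M}
    (hc : IsPartner G u c) (hw : IsMinLine G w) (huw : SameAction u w) :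
    ∃ c', SameAction c c' ∧ IsPartner G w c' ∧ w * c' = u * c ∧ c' * w = c * u := by
  rcases dichotomy h2 h3 hw hc.2.1 with ⟨h, -⟩ | ⟨-, c', hcc, hp⟩
  · exfalso
    have := triple_class h2 h3 hw hc.2.1 hc.1 hc.2.1 huw.symm (.refl c) h
    exact hc.1.2.1 (hc.2.2.1.symm.trans this)
  have key : ∀ {p q p' q' : Module.End k M}, IsPartner G p q → IsPartner G p' q' → SameAction p p' →
      SameAction q q' → p' * q' = p * q := by
    intro p q p' q' hpq hpq' hp hq
    have r : ∀ {p q : Module.End k M}, IsPartner G p q → range (p * q) = range p ∧ ker (p * q) = ker q := by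
      intro p q h
      refine ⟨le_antisymm (range_mul_le p q) ?_, le_antisymm ?_ (ker_le_ker_mul p q)⟩
      · rintro - ⟨m, rfl⟩
        exact ⟨p m, by rw [← Module.End.mul_apply, h.2.2.1]⟩
      · intro m hm
        rw [LinearMap.mem_ker, Module.End.mul_apply] at hm
        rw [LinearMap.mem_ker, ← h.2.2.2, Module.End.mul_apply, Module.End.mul_apply, hm, map_zero]
    refine idem_ext ?_ ?_ ?_ ?_
    · rw [← mul_assoc, hpq'.2.2.1]
    · rw [← mul_assoc, hpq.2.2.1]
    · rw [(r hpq').1, (r hpq).1, hp.1]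
    · rw [(r hpq').2, (r hpq).2, hq.2]
  exact ⟨c', hcc, hp, key hc hp huw hcc, key hc.symm hp.symm hcc huw⟩

/-- Conjugating `b` by a suitable torus-like element moves `u` to `w`. -/
theorem BracketData.transport (h2 : (2 : k) ≠ 0) (h3 : Nat.card k ≠ 3) (hN : NoUnip G)
    (D : BracketData G a b) (ha : IsMinLine G a) (hb : IsMinLine G b)
    (hc : IsPartner G (a * b - b * a) c) (hw : IsMinLine G w) (huw : SameAction (a * b - b * a) w) :
    ∃ g ∈ G, ∃ f, f = (g : Module.End k M) * b * (g⁻¹ : (Module.End k M)ˣ) ∧ a * f - f * a = w ∧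
      f * (a * b - b * a) = 0 ∧ (a * b - b * a) * f = 0 ∧
      ((a * b - b * a) * c * b * (c * (a * b - b * a)) = 0 → SameAction b f) := by
  obtain ⟨c', hcc, hc', hP', hQ'⟩ := exists_partner_of_class h2 h3 hc hw huw
  obtain ⟨ca, hca⟩ := exists_partner h2 h3 hN ha
  obtain ⟨cb, hcb⟩ := exists_partner h2 h3 hN hb
  set u := a * b - b * a with hu
  set P := u * c with hP
  set Q := c * u with hQ
  have au : a * u = 0 := D.a_mul
  have ua : u * a = 0 := D.mul_a
  have bu : b * u = 0 := D.b_mul
  have ub : u * b = 0 := D.mul_b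
  have uu : u * u = 0 := D.min.sq
  have aw : a * w = 0 := huw.mul_eq_zero_right au
  have wa : w * a = 0 := huw.mul_eq_zero_left ua
  have uw : u * w = 0 := huw.mul_eq_zero_right uu
  have wu : w * u = 0 := huw.mul_eq_zero_left uu
  have cc' : c * c' = 0 := hcc.mul_eq_zero_right hc.2.1.sq
  have c'c : c' * c = 0 := hcc.mul_eq_zero_left hc.2.1.sq
  -- the two elements `w - c'` and `u - c`, completed by the common fixed space
  have omega : ∀ {p q : Module.End k M}, IsPartner G p q → p * q = P → q * p = Q →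
      ∃ g ∈ G, (g : Module.End k M) = 1 - P - Q + p - q ∧
        ((g⁻¹ : (Module.End k M)ˣ) : Module.End k M) = 1 - P - Q - p + q := by
    intro p q h hpP hqQ
    obtain ⟨v₁, hv₁, e₁⟩ := h.1.1.exists_one
    obtain ⟨v₂, hv₂, e₂⟩ := h.2.1.1.neg.exists_one
    have i₁ : ((v₁⁻¹ : (Module.End k M)ˣ) : Module.End k M) = 1 - p :=
      Units.inv_eq_of_mul_eq_one_right (by rw [e₁, add_mul, one_mul, mul_sub, mul_one, h.1.sq]; abel)
    have i₂ : ((v₂⁻¹ : (Module.End k M)ˣ) : Module.End k M) = 1 + q :=
      Units.inv_eq_of_mul_eq_one_right (by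
        rw [e₂, add_mul, one_mul, neg_mul, mul_add, mul_one, h.2.1.sq]; abel)
    refine ⟨v₁ * v₂ * v₁, mul_mem (mul_mem hv₁ hv₂) hv₁, ?_, ?_⟩
    · simp only [Units.val_mul, e₁, e₂, add_mul, mul_add, one_mul, mul_one, neg_mul, mul_neg, hpP,
        h.1.sq]
      rw [hP] at hpP ⊢
      simp only [← hpP, h.2.2.1, hqQ]
      abel
    · simp only [mul_inv_rev, Units.val_mul, i₁, i₂, add_mul, mul_add, sub_mul, mul_sub, one_mul,
        mul_one, ← mul_assoc, h.1.sq, h.2.2.1, hpP, hqQ]
      rw [hP] at hpP ⊢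
      simp only [← hpP, h.2.2.1, hqQ]
      abel
  obtain ⟨g₁, hg₁, eg₁, ei₁⟩ := omega hc' hP' hQ'
  obtain ⟨g₂, hg₂, eg₂, ei₂⟩ := omega hc rfl rfl
  set g := g₁ * g₂⁻¹ with hg
  have uP : u * P = 0 := by rw [hP, ← mul_assoc, uu, zero_mul]
  have Pu : P * u = u := hc.2.2.1
  have uQ : u * Q = u := by rw [hQ, ← mul_assoc]; exact hc.2.2.1
  have Qu : Q * u = 0 := by rw [hQ, mul_assoc, uu, mul_zero]
  have cP : c * P = c := by rw [hP, ← mul_assoc]; exact hc.2.2.2
  have Pc : P * c = 0 := by rw [hP, mul_assoc, hc.2.1.sq, mul_zero]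
  have cQ : c * Q = 0 := by rw [hQ, ← mul_assoc, hc.2.1.sq, zero_mul]
  have Qc : Q * c = c := hc.2.2.2
  have wQ : w * Q = w := mul_idem_right hc.2.2.1 huw.2.ge
  have Pw : P * w = w := mul_idem_left hc.2.2.1 huw.1.le
  have wP : w * P = 0 := by rw [hP, ← mul_assoc, wu, zero_mul]
  have Qw : Q * w = 0 := by rw [hQ, mul_assoc, uw, mul_zero]
  have c'P : c' * P = c' := by rw [← hP', ← mul_assoc]; exact hc'.2.2.2
  have c'Q : c' * Q = 0 := by rw [← hQ', ← mul_assoc, hc'.2.1.sq, zero_mul]
  have Pc' : P * c' = 0 := by rw [← hP', mul_assoc, hc'.2.1.sq, mul_zero]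
  have Qc' : Q * c' = c' := by rw [← hQ']; exact hc'.2.2.2
  have PP : P * P = P := by nth_rw 2 [hP]; rw [← mul_assoc, Pu]
  have QQ : Q * Q = Q := by nth_rw 1 [hQ]; rw [mul_assoc, uQ]
  have PQ : P * Q = 0 := by rw [hQ, ← mul_assoc, Pc, zero_mul]
  have QP : Q * P = 0 := by rw [hP, ← mul_assoc, Qu, zero_mul]
  have eg : (g : Module.End k M) = 1 - P - Q + w * c + c' * u := by
    simp only [hg, Units.val_mul, eg₁, ei₂, add_mul, mul_add, sub_mul, mul_sub, one_mul, mul_one,
      PP, QQ, PQ, QP, Pu, Qu, Pc, Qc, wP, wQ, c'P, c'Q, wu, c'c]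
    abel
  have ei : ((g⁻¹ : (Module.End k M)ˣ) : Module.End k M) = 1 - P - Q + u * c' + c * w := by
    simp only [hg, mul_inv_rev, inv_inv, Units.val_mul, ei₁, eg₂, add_mul, mul_add, sub_mul, mul_sub,
      one_mul, mul_one, PP, QQ, PQ, QP, Pw, Qw, Pc', Qc', uP, uQ, cP, cQ, uw, cc']
    abel
  have Qb : Q * b = 0 := by rw [hQ, mul_assoc, ub, mul_zero]
  have bP : b * P = 0 := by rw [hP, ← mul_assoc, bu, zero_mul]
  have Qa : Q * a = 0 := by rw [hQ, mul_assoc, ua, mul_zero]
  have aP : a * P = 0 := by rw [hP, ← mul_assoc, au, zero_mul]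
  set f := (g : Module.End k M) * b * (g⁻¹ : (Module.End k M)ˣ) with hf
  have ef : f = (b - P * b + w * c * b) * (1 - Q + c * w) := by
    have e1 : (g : Module.End k M) * b = b - P * b + w * c * b := by
      simp only [eg, add_mul, sub_mul, one_mul, Qb, sub_zero, mul_assoc c' u b, ub, mul_zero, add_zero]
    have e2 : ∀ z : Module.End k M, z * P = 0 → z * u = 0 →
        z * (1 - P - Q + u * c' + c * w) = z * (1 - Q + c * w) := by
      intro z h1 h1'
      simp only [mul_add, mul_sub, mul_one, h1, ← mul_assoc z u c', h1', zero_mul, add_zero, sub_zero]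
    rw [hf, e1, ei]
    refine e2 _ ?_ ?_
    · simp [add_mul, sub_mul, mul_assoc, bP]
    · simp [add_mul, sub_mul, mul_assoc, bu]
  have bacu : b * a * c * u = b * a := by
    rw [mul_assoc]; exact mul_idem_right hc.2.2.1 D.ker_le_right
  have abQ : a * b * Q = a * b := mul_idem_right hc.2.2.1 D.ker_le_left
  have Pba : P * (b * a) = b * a := mul_idem_left hc.2.2.1 D.range_le_right
  have mix : ∀ q ∈ range u, ∃ n, q = (a * b) n - (b * a) n ∧ (b * a) (c q) = (b * a) n := by
    rintro - ⟨n, rfl⟩
    exact ⟨n, rfl, LinearMap.congr_fun bacu n⟩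
  have hab_mem : ∀ n, (a * b) n ∈ range a ⊓ ker b := fun n => D.rangeL ▸ LinearMap.mem_range_self _ n
  have hba_mem : ∀ n, (b * a) n ∈ range b ⊓ ker a := fun n => D.rangeR ▸ LinearMap.mem_range_self _ n
  have bot : ∀ {q : M}, q ∈ range a ⊓ ker b → q ∈ range b ⊓ ker a → q = 0 := fun h h' => by
    have : _ ∈ (range a ⊓ ker b) ⊓ (range b ⊓ ker a) := ⟨h, h'⟩
    rwa [D.disj, Submodule.mem_bot] at this
  have hR2 : ∀ q ∈ range a ⊓ ker b, (b * a) (c q) = 0 ∧ c q ∈ ker a ⊔ range b := by
    intro q hq
    obtain ⟨n, hn, hn'⟩ := mix q (by rw [D.range_eq]; exact Submodule.mem_sup_left hq)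
    have : (b * a) n = 0 := bot (by
      rw [show (b * a) n = (a * b) n - q by rw [hn]; abel]; exact sub_mem (hab_mem n) hq) (hba_mem n)
    refine ⟨hn'.trans this, ?_⟩
    rw [← D.kerR, LinearMap.mem_ker]; exact hn'.trans this
  have hR1 : ∀ q ∈ range b ⊓ ker a, (b * a) (c q) = -q ∧ c q ∈ ker b ⊔ range a := by
    intro q hq
    obtain ⟨n, hn, hn'⟩ := mix q (by rw [D.range_eq]; exact Submodule.mem_sup_right hq)
    have h0 : (a * b) n = 0 := bot (hab_mem n) (by
      rw [show (a * b) n = q + (b * a) n by rw [hn]; abel]; exact add_mem hq (hba_mem n))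
    have h1 : (b * a) (c q) = -q := by rw [hn', hn, h0, zero_sub, neg_neg]
    refine ⟨h1, ?_⟩
    rw [← D.kerL, LinearMap.mem_ker]
    have hucq : u (c q) = q := by
      obtain ⟨n', rfl⟩ : q ∈ range u := by rw [D.range_eq]; exact Submodule.mem_sup_right hq
      exact LinearMap.congr_fun hc.2.2.1 n'
    have : (a * b) (c q) = u (c q) + (b * a) (c q) := by rw [hu, LinearMap.sub_apply, sub_add_cancel]
    rw [this, hucq, h1, add_neg_cancel]
  have hdiag := D.diag h2 h3 hb.sq hca hw huw
  have huw' : SameAction (b * a - a * b) w := by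
    obtain ⟨-, hs⟩ := D.min.smul (neg_ne_zero.mpr (one_ne_zero (α := k)))
    rw [neg_one_smul, neg_sub] at hs
    exact hs.symm.trans huw
  have hdiag' := D.symm.diag h2 h3 ha.sq hcb hw huw'
  have hkey : b * a * c * w = w * c * (b * a) := by
    ext m
    have hwm : w m = w (c ((a * b) m)) - w (c ((b * a) m)) := by
      rw [← map_sub, ← map_sub, ← LinearMap.sub_apply, ← hu]
      exact (LinearMap.congr_fun wQ m).symm
    have q2 := hdiag _ (hR2 _ (hab_mem m)).2
    have q1 := hdiag' _ (hR1 _ (hba_mem m)).2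
    show (b * a) (c (w m)) = w (c ((b * a) m))
    rw [hwm, map_sub, map_sub, (hR2 _ q2).1, (hR1 _ q1).1, zero_sub, neg_neg]
  have fu : f * u = 0 := by
    rw [ef, mul_assoc, show (1 - Q + c * w) * u = u by simp [add_mul, sub_mul, mul_assoc, wu, Qu]]
    simp [add_mul, sub_mul, mul_assoc, bu]
  have uf : u * f = 0 := by
    rw [ef, ← mul_assoc, show u * (b - P * b + w * c * b) = 0 by
      simp [mul_add, mul_sub, ← mul_assoc, uP, ub, uw]]
    simp
  refine ⟨g, mul_mem hg₁ (inv_mem hg₂), f, rfl, ?_, fu, uf, fun hpure => ?_⟩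
  · have h1 : a * f = a * b * c * w := by
      rw [ef, ← mul_assoc, show a * (b - P * b + w * c * b) = a * b by
        simp [mul_add, mul_sub, ← mul_assoc, aP, aw]]
      simp only [mul_add, mul_sub, mul_one, abQ, sub_self, zero_add,
        ← mul_assoc]
    have h1' : f * a = w * c * (b * a) := by
      rw [ef, mul_assoc, show (1 - Q + c * w) * a = a by simp [add_mul, sub_mul, mul_assoc, Qa, wa]]
      simp only [add_mul, sub_mul, mul_assoc P b a, Pba, sub_self, zero_add, mul_assoc]
    have h1'' : a * b = u + b * a := by rw [hu, sub_add_cancel]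
    rw [h1, h1', h1'', add_mul, add_mul, hkey, Pw]
    abel
  -- the pure case
  have hpure' : P * b * Q = 0 := by
    show u * c * b * (c * u) = 0
    exact hpure
  have hzero : (1 - P) * b * (1 - Q) = 0 := by
    by_cases hR : range b ⊓ ker a = ⊥
    · have hba : b * a = 0 := by rw [← LinearMap.range_eq_bot, D.rangeR, hR]
      rw [mul_assoc]
      suffices b * (1 - Q) = 0 by rw [this, mul_zero]
      ext m
      have hm : (1 - Q) m ∈ ker b ⊔ range a := by
        have : (1 - Q) m ∈ ker u := by
          rw [LinearMap.mem_ker, ← Module.End.mul_apply, mul_sub, mul_one, uQ, sub_self]; rfl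
        rw [D.ker_eq] at this
        exact this.1
      obtain ⟨m1, hm1, -, ⟨m2, rfl⟩, he⟩ := Submodule.mem_sup.mp hm
      rw [Module.End.mul_apply, ← he, map_add, LinearMap.mem_ker.mp hm1, ← Module.End.mul_apply, hba]
      simp
    · obtain ⟨v, hv, hv0⟩ := Submodule.exists_mem_ne_zero_of_ne_bot hR
      have hline := (isLine_components h2 h3 hc hb.1 (by rw [← hP]; exact bP) (by rw [← hQ]; exact Qb)).2
      refine hb.eq_zero_of_drop hline hv.1 hv0 ?_
      obtain ⟨n, rfl⟩ : v ∈ range u := by rw [D.range_eq]; exact Submodule.mem_sup_right hv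
      rw [← Module.End.mul_apply, sub_mul, one_mul, Pu, sub_self]; rfl
  have hsum : b - P * b = b * Q := by
    rw [← sub_eq_zero]
    refine Eq.trans ?_ hzero
    simp only [sub_mul, mul_sub, one_mul, mul_one, hpure']
    abel
  have wcbQ : w * c * b * Q = 0 := by
    have : w * c * b * Q = w * c * (P * b * Q) := by simp only [← mul_assoc, mul_assoc w c P, cP]
    rw [this, hpure', mul_zero]
  have ef' : f = b * c * w + w * c * b := by
    have e3 : w * c * b * (c * w) = 0 := by
      have : w * c * b * (c * w) = w * c * b * Q * (c * w) := by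
        rw [mul_assoc (w * c * b) Q, ← mul_assoc Q c w, Qc]
      rw [this, wcbQ, zero_mul]
    rw [ef, hsum]
    simp only [add_mul, mul_add, mul_sub, mul_one, wcbQ, e3, sub_zero, add_zero]
    rw [mul_assoc b Q Q, QQ, mul_assoc b Q, ← mul_assoc Q c w, Qc, ← mul_assoc]
    abel
  refine sameAction_of_le ?_ ?_ ?_
  · exact hb.2.2 _ (hb.1.conj_mem (mul_mem hg₁ (inv_mem hg₂)))
      (hb.conj (Subgroup.le_normalizer (mul_mem hg₁ (inv_mem hg₂)))).2.1
  · rw [ef']
    rintro - ⟨m, rfl⟩
    refine add_mem ?_ ?_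
    · rw [mul_assoc]; exact range_mul_le b _ (LinearMap.mem_range_self _ m)
    · have h1 : (w * c * b) m = w (c ((P * b) m)) := by
        have : w * c * b = w * c * (P * b) := by simp only [← mul_assoc, mul_assoc w c P, cP]
        rw [this]; rfl
      have h2' : (P * b) m ∈ range b ⊓ ker a := by
        have hB : (P * b) m ∈ range b := by
          rw [show P * b = b - b * Q by rw [← hsum]; abel]
          exact sub_mem (LinearMap.mem_range_self b m) (range_mul_le b Q (LinearMap.mem_range_self _ m))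
        have hU : (P * b) m ∈ range u := by
          rw [hP, mul_assoc]; exact range_mul_le u _ (LinearMap.mem_range_self _ m)
        rw [D.range_eq] at hU
        obtain ⟨r2, hr2, r1, hr1, hs⟩ := Submodule.mem_sup.mp hU
        have hr2B : r2 ∈ range b := by
          rw [show r2 = (P * b) m - r1 by rw [← hs]; abel]; exact sub_mem hB hr1.1
        have : r2 = 0 := bot hr2 ⟨hr2B, mem_of_mul_eq_zero ha.sq hr2.1⟩
        rw [← hs, this, zero_add]; exact hr1
      show (w * c * b) m ∈ range b
      rw [h1]; exact (hdiag' _ (hR1 _ h2').2).1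
  · rw [ef']
    intro m hm
    rw [LinearMap.mem_ker, LinearMap.add_apply, show (w * c * b) m = 0 by
      simp [LinearMap.mem_ker.mp hm], add_zero]
    have h1 := hdiag' m (Submodule.mem_sup_left hm)
    obtain ⟨n, hn⟩ : w m ∈ range u := huw.1 ▸ LinearMap.mem_range_self w m
    show b (c (w m)) = 0
    rw [← hn]
    have h0 : (a * b) n = 0 := bot (hab_mem n) (by
      rw [show (a * b) n = w m + (b * a) n by
        rw [← hn, hu, LinearMap.sub_apply, sub_add_cancel]]
      exact add_mem h1 (hba_mem n))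
    have hn' : n ∈ ker b ⊔ range a := by rw [← D.kerL]; exact h0
    obtain ⟨n1, hn1, -, ⟨n2, rfl⟩, rfl⟩ := Submodule.mem_sup.mp hn'
    have z1 : (b * Q) n1 = 0 := by
      rw [← hsum, LinearMap.sub_apply, Module.End.mul_apply, LinearMap.mem_ker.mp hn1, map_zero, sub_zero]
    have z2 : (b * Q) (a n2) = 0 := by
      rw [← Module.End.mul_apply, mul_assoc, Qa, mul_zero]; rfl
    show (b * Q) (n1 + a n2) = 0
    rw [map_add, z1, z2, add_zero]

/-- Every element of the class of the bracket is a bracket with `a` of a member of the class of `b`. -/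
theorem BracketData.exists_bracket_eq (h2 : (2 : k) ≠ 0) (h3 : Nat.card k ≠ 3) (hN : NoUnip G)
    (D : BracketData G a b) (ha : IsMinLine G a) (hb : IsMinLine G b) (hw : IsMinLine G w)
    (huw : SameAction (a * b - b * a) w) :
    ∃ f, IsMinLine G f ∧ SameAction b f ∧ a * f - f * a = w := by
  obtain ⟨c, hc⟩ := exists_partner h2 h3 hN D.min
  set u := a * b - b * a with hu
  set P := u * c with hP
  set Q := c * u with hQ
  -- the pure case
  have pure : ∀ {a b : Module.End k M}, IsMinLine G a → IsMinLine G b → BracketData G a b →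
      a * b - b * a = u → u * c * b * (c * u) = 0 →
      ∃ f, IsMinLine G f ∧ SameAction b f ∧ a * f - f * a = w := by
    intro a b ha hb D e hp
    obtain ⟨g, hg, f, hf, h1, -, -, hs⟩ := D.transport h2 h3 hN ha hb (by rw [e]; exact hc) hw
      (by rw [e]; exact huw)
    exact ⟨f, hf ▸ hb.conj (Subgroup.le_normalizer hg), hs (by rw [e]; exact hp), h1⟩
  by_cases hx : P * b * Q = 0
  · exact pure ha hb D rfl hx
  set x := P * b * Q with hxdef
  have hline := (isLine_components h2 h3 hc hb.1 (by rw [← mul_assoc, D.b_mul, zero_mul])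
    (by rw [mul_assoc, D.mul_b, mul_zero])).1
  obtain ⟨hxmin, hxsame⟩ := D.min.of_le hline hx
    (by rw [mul_assoc, mul_assoc]; exact range_mul_le _ _)
    (by rw [← mul_assoc]; exact ker_le_ker_mul _ _)
  have hc' : IsPartner G (b * a - a * b) (-c) := by
    have hm := D.symm.min
    obtain ⟨hcm, -⟩ := hc.2.1.smul (neg_ne_zero.mpr (one_ne_zero (α := k)))
    rw [neg_one_smul] at hcm
    have e : b * a - a * b = -u := by rw [hu, neg_sub]
    refine ⟨hm, hcm, ?_, ?_⟩
    · rw [e]; simp only [mul_neg, neg_mul, neg_neg]; rw [hc.2.2.1]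
    · rw [e]; simp only [mul_neg, neg_mul, neg_neg]; rw [hc.2.2.2]
  have hx' : SameAction (b * a - a * b) x := by
    obtain ⟨-, hs⟩ := D.min.smul (neg_ne_zero.mpr (one_ne_zero (α := k)))
    rw [neg_one_smul, neg_sub] at hs
    exact hs.symm.trans hxsame
  obtain ⟨g₀, hg₀, e, he, heb, heu, hue, -⟩ := D.symm.transport h2 h3 hN hb ha hc' hxmin hx'
  have hu' : b * a - a * b = -u := by rw [hu, neg_sub]
  rw [hu', mul_neg, neg_eq_zero] at heu
  rw [hu', neg_mul, neg_eq_zero] at hue
  have hel : IsLine k G e := he ▸ ha.1.conj_mem hg₀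
  have ew : e * w = 0 := huw.mul_eq_zero_right heu
  have we : w * e = 0 := huw.mul_eq_zero_left hue
  have ex : e * x = 0 := hxsame.mul_eq_zero_right heu
  have hebe : e * b * e = 0 := by
    have : b * e = x + e * b := sub_eq_iff_eq_add.mp heb
    rw [mul_assoc, this, mul_add, ex, ← mul_assoc, hel.sq, zero_mul, add_zero]
  obtain ⟨g, hg, hge⟩ := hel.exists_one
  have hgi : ((g⁻¹ : (Module.End k M)ˣ) : Module.End k M) = 1 - e :=
    Units.inv_eq_of_mul_eq_one_right (by rw [hge, add_mul, one_mul, mul_sub, mul_one, hel.sq]; abel)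
  have hnz := Subgroup.le_normalizer hg
  set a' := (g : Module.End k M) * a * (g⁻¹ : (Module.End k M)ˣ) with ha'
  set b' := (g : Module.End k M) * b * (g⁻¹ : (Module.End k M)ˣ) with hb'
  have eb' : b' = b - x := by
    have hbe : b * e = x + e * b := sub_eq_iff_eq_add.mp heb
    rw [hb', hge, hgi]
    simp only [add_mul, one_mul, mul_sub, mul_one, hebe, hbe]
    abel
  have eu' : a' * b' - b' * a' = u := by
    rw [ha', hb', conj_val_mul, conj_val_mul, ← sub_mul, ← mul_sub, ← hu, hge, hgi]
    simp only [add_mul, one_mul, mul_sub, mul_one, heu, hue, zero_mul, add_zero, sub_zero]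
  have hD' : BracketData G a' b' := by
    refine bracketData (ha.conj hnz) (hb.conj hnz) ?_ ?_ (eu' ▸ D.min.2.1)
    · rw [ha', hb', conj_val_mul, conj_val_mul]
      have : a * b * a = 0 := by
        have := D.mul_a
        rwa [sub_mul, mul_assoc b a a, ha.sq, mul_zero, sub_zero] at this
      rw [this]; simp
    · rw [ha', hb', conj_val_mul, conj_val_mul]
      have : b * a * b = 0 := by
        have := D.mul_b
        rw [sub_mul, mul_assoc a b b, hb.sq, mul_zero, zero_sub, neg_eq_zero] at this
        exact this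
      rw [this]; simp
  have hpure : u * c * b' * (c * u) = 0 := by
    have PP : P * P = P := by
      show u * c * (u * c) = u * c
      rw [← mul_assoc, hc.2.2.1]
    have QQ : Q * Q = Q := by
      show c * u * (c * u) = c * u
      rw [← mul_assoc, hc.2.2.2]
    show P * b' * Q = 0
    have : P * x * Q = x := by
      show P * (P * b * Q) * Q = P * b * Q
      calc P * (P * b * Q) * Q = (P * P) * b * (Q * Q) := by simp only [mul_assoc]
        _ = P * b * Q := by rw [PP, QQ]
    rw [eb', mul_sub, sub_mul, this]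
    exact sub_self _
  obtain ⟨f', hf', hbf', hf'w⟩ := pure (ha.conj hnz) (hb.conj hnz) hD' eu' hpure
  have hnz' := Subgroup.le_normalizer (inv_mem hg)
  refine ⟨_, hf'.conj hnz', ?_, ?_⟩
  · have := hbf'.conj g⁻¹
    simpa [hb', mul_assoc] using this
  · have key := congrArg (fun y => ((g⁻¹ : (Module.End k M)ˣ) : Module.End k M) * y * (g : Module.End k M)) hf'w
    simp only [ha', mul_sub, sub_mul] at key
    have e2 : ((g⁻¹ : (Module.End k M)ˣ) : Module.End k M) * w * (g : Module.End k M) = w := by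
      rw [hgi, hge]; simp [sub_mul, mul_add, mul_assoc, ew, we]
    rw [e2] at key
    simpa [mul_assoc] using key

end CfsgLib.Transpositions
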