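import Cfsg.Agent.Lib.Transpositions.TransvSL

/-!
Transvections of `SL_n(F)` in characteristic two as root involutions.
-/
set_option autoImplicit false

open Cfsg Matrix

namespace CfsgLib.Transpositions

variable {F : Type*} [Field F] [Fintype F] [CharP F 2]

/-- In characteristic two an element with separable quadratic minimal polynomial `X² + τX + 1` is
killed by `q² - 1`. -/
lemma pow_sub_one_eq_one_of_quadratic {A : Type*} [Ring A] [Algebra F A] [CharP A 2] {z : A}
    {τ : F} (hτ : τ ≠ 0) (hz : z * z = τ • z + 1)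
    (hind : ∀ a b : F, a • z + b • (1 : A) = 0 → a = 0 ∧ b = 0) :
    z ^ (Fintype.card F ^ 2 - 1) = 1 := by
  haveI : Fact (Nat.Prime 2) := ⟨Nat.prime_two⟩
  obtain ⟨m, -, hm⟩ := FiniteField.card F 2
  set q := Fintype.card F with hq
  have h2A : ∀ x : A, x + x = 0 := CharTwo.add_self_eq_zero
  have h2F : ∀ x : F, x + x = 0 := CharTwo.add_self_eq_zero
  have sq : ∀ a b : F, (a • z + b • (1 : A)) * (a • z + b • 1) =
      (a * a * τ) • z + (a * a + b * b) • 1 := fun a b => by
    simp only [add_mul, mul_add, smul_mul_assoc, mul_smul_comm, one_mul, mul_one, hz, smul_add,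
      smul_smul]
    rw [show (a * (a * τ)) = a * a * τ by ring]
    linear_combination (norm := (match_scalars <;> ring_nf)) (h2A ((a * b) • z))
  have hpow : ∀ i, ∃ a b : F, z ^ 2 ^ i = a • z + b • (1 : A) := by
    intro i
    induction i with
    | zero => exact ⟨1, 0, by simp⟩
    | succ i ih =>
      obtain ⟨a, b, h⟩ := ih
      exact ⟨_, _, by rw [pow_succ, pow_mul, pow_two, h, sq]⟩
  obtain ⟨a, b, hab⟩ := hpow m
  rw [← hm] at hab
  have frob : ∀ x y : F, (x • z + y • (1 : A)) ^ q = x • z ^ q + y • (1 : A) := fun x y => by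
    conv_lhs => rw [hm]
    rw [add_pow_char_pow_of_commute 2 m ((Commute.one_right _).smul_right _), smul_pow,
      smul_pow, one_pow, ← hm, hq, FiniteField.pow_card, FiniteField.pow_card]
  have e1 : (z * z) ^ q = (a • z + b • (1 : A)) * (a • z + b • 1) := by
    rw [← pow_two, ← pow_mul, mul_comm, pow_mul, hab, pow_two]
  rw [hz, show τ • z + (1 : A) = τ • z + (1 : F) • (1 : A) by rw [one_smul], frob, hab, sq,
    smul_add, smul_smul, smul_smul, add_assoc, ← add_smul] at e1
  obtain ⟨ea, eb⟩ := hind (τ * a - a * a * τ) (τ * b + 1 - (a * a + b * b)) (by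
    rw [sub_smul, sub_smul, sub_add_sub_comm, sub_eq_zero]
    exact e1)
  rcases eq_or_ne a 0 with rfl | ha
  · exfalso
    set u := z + b • (1 : A) with hu
    have hu0 : u ≠ 0 := fun h => one_ne_zero (hind 1 b (by rw [one_smul]; exact h)).1
    have hu2 : u * u = τ • u := by
      have := sq 1 b
      rw [one_smul] at this
      rw [hu, this, smul_add, smul_smul]
      congr 1
      · rw [one_mul, one_mul]
      · congr 1; linear_combination eb + h2F (b * b) - h2F (τ * b)
    have hupow : ∀ i, u ^ (i + 1) = τ ^ i • u := fun i => by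
      induction i with
      | zero => simp
      | succ i ih => rw [pow_succ, ih, smul_mul_assoc, hu2, smul_smul, pow_succ]
    have huq : u ^ q = 0 := by
      have := frob 1 b
      rw [one_smul, hab, zero_smul, zero_add, one_smul, h2A] at this
      exact this
    obtain ⟨i, hi⟩ : ∃ i, q = i + 1 := ⟨q - 1, by have := Fintype.one_lt_card (α := F); omega⟩
    rw [hi, hupow] at huq
    exact hu0 ((smul_eq_zero.mp huq).resolve_left (pow_ne_zero _ hτ))
  · have ha1 : a = 1 := by
      have : τ * a * (1 - a) = 0 := by linear_combination ea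
      exact (sub_eq_zero.mp ((mul_eq_zero.mp this).resolve_left (mul_ne_zero hτ ha))).symm
    subst ha1
    have hqq : z ^ (q ^ 2) = z := by
      rw [pow_two, pow_mul, hab, frob, hab, one_smul, one_smul, add_assoc, h2A, add_zero]
    have hinv : z * (z + τ • (1 : A)) = 1 := by
      rw [mul_add, mul_smul_comm, mul_one, hz, add_comm (τ • z) 1, add_assoc, h2A, add_zero]
    obtain ⟨i, hi⟩ : ∃ i, q ^ 2 = i + 1 :=
      ⟨q ^ 2 - 1, (Nat.sub_add_cancel (Nat.one_le_pow _ _ (hq ▸ Fintype.card_pos))).symm⟩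
    rw [hi, Nat.add_sub_cancel]
    rw [hi, pow_succ] at hqq
    have := congrArg (· * (z + τ • (1 : A))) hqq
    simpa [mul_assoc, hinv] using this

omit [Fintype F] in
lemma opposite_product_sq (t : F) :
    ((u12 (1 : F) * u21 t : Matrix.SpecialLinearGroup (Fin 2) F) : Matrix (Fin 2) (Fin 2) F) *
        ((u12 (1 : F) * u21 t : Matrix.SpecialLinearGroup (Fin 2) F) : Matrix (Fin 2) (Fin 2) F) =
      t • ((u12 (1 : F) * u21 t : Matrix.SpecialLinearGroup (Fin 2) F) : Matrix (Fin 2) (Fin 2) F)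
        + 1 := by
  have h2 : ∀ x : F, x + x = 0 := CharTwo.add_self_eq_zero
  ext i j
  simp only [Matrix.mul_apply, Fin.sum_univ_two, Matrix.add_apply, Matrix.smul_apply, smul_eq_mul]
  fin_cases i <;> fin_cases j <;> simp [mul_entry] <;>
    first
      | ring1
      | linear_combination h2 t
      | linear_combination h2 (1 : F) + h2 t
      | linear_combination h2 (1 : F)
      | linear_combination -h2 t
      | linear_combination h2 (t * t)

lemma opposite_product_pow {t : F} (ht : t ≠ 0) :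
    (u12 (1 : F) * u21 t) ^ (Fintype.card F ^ 2 - 1) = 1 := by
  refine slRho_injective ?_
  rw [map_pow, map_one]
  refine pow_sub_one_eq_one_of_quadratic (τ := t) ht (opposite_product_sq t) fun a b h => ?_
  have h01 : a * ((u12 (1 : F) * u21 t : Matrix.SpecialLinearGroup (Fin 2) F) :
      Matrix (Fin 2) (Fin 2) F) 0 1 + b * (1 : Matrix (Fin 2) (Fin 2) F) 0 1 = 0 :=
    congrFun (congrFun h 0) 1
  simp [mul_entry] at h01
  subst h01
  have h00 := congrFun (congrFun h 0) 0
  simp at h00
  exact ⟨rfl, h00⟩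

variable {ι : Type} [Fintype ι] [DecidableEq ι]

/-- The transvections. -/
def transvSet (ι : Type) [Fintype ι] [DecidableEq ι] (F : Type*) [Field F] :
    Set (SpecialLinearGroup ι F) :=
  {t | ∃ u φ : ι → F, u ≠ 0 ∧ φ ≠ 0 ∧ φ ⬝ᵥ u = 0 ∧ (t : Matrix ι ι F) = 1 + vecMulVec u φ}

omit [Fintype F] [CharP F 2] in
lemma transvection_conj_eq {u v φ ψ : ι → F} {s t : SpecialLinearGroup ι F}
    (hs : (s : Matrix ι ι F) = 1 + vecMulVec u φ) (ht : (t : Matrix ι ι F) = 1 + vecMulVec v ψ)
    {g : SpecialLinearGroup ι F}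
    (hg : (g : Matrix ι ι F) * vecMulVec u φ = vecMulVec v ψ * (g : Matrix ι ι F)) :
    t = g * s * g⁻¹ := by
  refine slRho_injective ?_
  rw [map_mul, map_mul]
  show slRho t = slRho g * (s : Matrix ι ι F) * slRho g⁻¹
  rw [hs, mul_add, mul_one, add_mul, rho_mul_inv, slRho_conj hg]
  exact ht

omit [Fintype F] [CharP F 2] in
lemma transvSet_eq_conj {i j : ι} (hι : 3 ≤ Fintype.card ι) (hij : i ≠ j) :
    {t : SpecialLinearGroup ι F | ∃ c : F, c ≠ 0 ∧ ∃ g : SpecialLinearGroup ι F,
        ((g⁻¹ * t * g : SpecialLinearGroup ι F) : Matrix ι ι F) = Matrix.transvection i j c} =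
      transvSet ι F := by
  ext t
  constructor
  · rintro ⟨c, hc, g, hg⟩
    refine ⟨slRho g *ᵥ (c • Pi.single i 1), Pi.single j 1 ᵥ* slRho g⁻¹, fun e => hc ?_, fun e => ?_,
      ?_, ?_⟩
    · have h1 := congrArg (slRho g⁻¹ *ᵥ ·) e
      simp only [Matrix.mulVec_mulVec, rho_inv_mul, Matrix.one_mulVec, Matrix.mulVec_zero] at h1
      simpa using congrFun h1 i
    · have h1 := congrArg (· ᵥ* slRho g) e
      simp only [Matrix.vecMul_vecMul, rho_inv_mul, Matrix.vecMul_one, Matrix.zero_vecMul] at h1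
      simpa using congrFun h1 j
    · rw [← Matrix.dotProduct_mulVec, Matrix.mulVec_mulVec, rho_inv_mul, Matrix.one_mulVec]
      simp [hij.symm]
    · show slRho t = _
      have : slRho t = slRho g * slRho (g⁻¹ * t * g) * slRho g⁻¹ := by
        simp only [← map_mul]; congr 1; group
      rw [this, show slRho (g⁻¹ * t * g) = _ from hg, ← one_add_smul_vmv_single,
        ← Matrix.smul_vecMulVec, mul_add, mul_one, add_mul, rho_mul_inv, Matrix.mul_vecMulVec,
        Matrix.vecMulVec_mul]
  · rintro ⟨u, φ, hu, hφ, h, ht⟩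
    refine ⟨1, one_ne_zero, ?_⟩
    obtain ⟨g, hg⟩ := exists_sl_pair hι (u := Pi.single i 1) (φ := Pi.single j 1) (by simp)
      (by simp) (by simp [hij.symm]) hu hφ h
    obtain ⟨s, hs⟩ := (hasLine_vmv (u := Pi.single i (1 : F)) (φ := Pi.single j 1)
      (by simp [hij.symm])).2 1
    have hs' : (s : Matrix ι ι F) = 1 + vecMulVec (Pi.single i 1) (Pi.single j 1) :=
      (show slRho s = _ from hs).trans (by rw [one_smul])
    refine ⟨g, ?_⟩
    rw [transvection_conj_eq hs' ht hg]
    show slRho (g⁻¹ * (g * s * g⁻¹) * g) = _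
    rw [show g⁻¹ * (g * s * g⁻¹) * g = s by group, hs, one_add_smul_vmv_single]

lemma transvSet_pair {a b : SpecialLinearGroup ι F} (ha : a ∈ transvSet ι F)
    (hb : b ∈ transvSet ι F) :
    a * b = b * a ∨ orderOf (a * b) ∣ Fintype.card F ^ 2 - 1 ∨
      (orderOf (a * b) = 4 ∧ (a * b) ^ 2 ∈ transvSet ι F) := by
  obtain ⟨u, φ, hu, hφ, h, ha'⟩ := ha
  obtain ⟨v, ψ, hv, hψ, h', hb'⟩ := hb
  have hla := hasLine_vmv (F := F) h
  have hlb := hasLine_vmv (F := F) h'
  by_cases hx : φ ⬝ᵥ v = 0 ∧ ψ ⬝ᵥ u = 0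
  · left
    refine slRho_injective ?_
    simp only [map_mul]
    show (a : Matrix ι ι F) * (b : Matrix ι ι F) = (b : Matrix ι ι F) * (a : Matrix ι ι F)
    simp only [ha', hb', add_mul, mul_add, one_mul, mul_one, vmv_mul_vmv, hx.1, hx.2, zero_smul,
      add_zero]
    abel
  right
  by_cases h0 : φ ⬝ᵥ v = 0 ∨ ψ ⬝ᵥ u = 0
  · right
    obtain ⟨c, w, χ, hc, hw, hχ, hwχ, he⟩ := commutator_data h h' h0 (by tauto)
    have hw0 : w ≠ 0 := by rcases hw with rfl | rfl <;> assumption
    have hχ0 : χ ≠ 0 := by rcases hχ with rfl | rfl <;> assumption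
    haveI : Nonempty ι := ⟨(Function.ne_iff.mp hu).choose⟩
    have h2 : ∀ x : Matrix ι ι F, x + x = 0 := CharTwo.add_self_eq_zero
    have hn : ∀ x : Matrix ι ι F, -x = x := fun x => neg_eq_of_add_eq_zero_left (h2 x)
    have hval : slRho ((a * b) ^ 2) = 1 + c • vecMulVec w χ := by
      rw [map_pow, map_mul, show slRho a = _ from ha', show slRho b = _ from hb', pow_two,
        ← mul_assoc, ← he]
      have e := commutator_val hla.1 hlb.1
        (show _ = (0 : Matrix ι ι F) by rcases h0 with h0 | h0 <;> simp [triple_vmv, h0])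
        (show _ = (0 : Matrix ι ι F) by rcases h0 with h0 | h0 <;> simp [triple_vmv, h0])
      rwa [sub_eq_add_neg 1, sub_eq_add_neg 1, hn, hn] at e
    refine ⟨?_, c • w, χ, smul_ne_zero hc hw0, hχ0, by rw [dotProduct_smul, hwχ, smul_zero], ?_⟩
    · haveI : Fact (Nat.Prime 2) := ⟨Nat.prime_two⟩
      have := orderOf_eq_prime_pow (p := 2) (n := 1) (x := a * b) ?_ ?_
      · simpa using this
      · rw [pow_one]
        intro e
        rw [e, map_one, left_eq_add, smul_eq_zero] at hval
        exact hval.elim hc (vmv_ne_zero hw0 hχ0)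
      · refine slRho_injective ?_
        rw [show (2 : ℕ) ^ (1 + 1) = 2 * 2 from rfl, pow_mul, map_pow, hval, map_one, pow_two,
          one_add_mul_of_sq (hasLine_vmv hwχ).1, CharTwo.add_self_eq_zero, zero_smul, add_zero]
    · exact hval.trans (by rw [Matrix.smul_vecMulVec])
  · left
    push Not at h0
    obtain ⟨o1, o2⟩ := opposite_data h0.1 h0.2
    have hl0 : (φ ⬝ᵥ v) * (ψ ⬝ᵥ u) ≠ 0 := mul_ne_zero h0.1 h0.2
    obtain ⟨f, f12, f21, -⟩ := isPSL2PairOver_rootLine slRho_injective hla (hlb.smul _) o1 o2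
      (vmv_ne_zero hu hφ)
    have e : a * b = f (u12 (1 : F) * u21 ((φ ⬝ᵥ v) * (ψ ⬝ᵥ u))) := by
      refine slRho_injective ?_
      rw [map_mul, map_mul, map_mul, f12, f21, one_smul, smul_smul, mul_inv_cancel₀ hl0, one_smul]
      exact congrArg₂ (· * ·) ha' hb'
    rw [e]
    exact (orderOf_map_dvd f _).trans (orderOf_dvd_of_pow_eq_one (opposite_product_pow hl0))

lemma orderOf_transvSet {t : SpecialLinearGroup ι F} (ht : t ∈ transvSet ι F) : orderOf t = 2 := by
  obtain ⟨u, φ, hu, hφ, h, ht⟩ := ht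
  haveI : Fact (Nat.Prime 2) := ⟨Nat.prime_two⟩
  refine orderOf_eq_prime (slRho_injective ?_) fun e => ?_
  · rw [map_pow, show slRho t = _ from ht, map_one, pow_two, ← one_smul F (vecMulVec u φ),
      one_add_mul_of_sq (hasLine_vmv h).1, CharTwo.add_self_eq_zero, zero_smul, add_zero]
  · subst e
    exact vmv_ne_zero hu hφ (left_eq_add.1 (show (1 : Matrix ι ι F) = 1 + vecMulVec u φ from ht))

theorem isRootInvolutionSet_transvSet : IsRootInvolutionSet (transvSet ι F) where
  orderOf_eq _ := orderOf_transvSet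
  generates := by
    refine CfsgLib.ClassicalLinear.eq_top_of_transvection_mem fun i j hij c => ?_
    rcases eq_or_ne c 0 with rfl | hc
    · rw [show SpecialLinearGroup.transvection hij (0 : F) = 1 from
        Subtype.ext (Matrix.transvection_zero i j)]
      exact one_mem _
    · refine Subgroup.subset_closure ⟨c • Pi.single i 1, Pi.single j 1, by simp [hc], by simp,
        by simp [hij.symm], ?_⟩
      rw [Matrix.smul_vecMulVec, one_add_smul_vmv_single]
      rfl
  conj_mem := by
    rintro t ⟨u, φ, hu, hφ, h, ht⟩ g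
    refine ⟨slRho g *ᵥ u, φ ᵥ* slRho g⁻¹, fun e => hu ?_, fun e => hφ ?_, ?_, ?_⟩
    · have h1 := congrArg (slRho g⁻¹ *ᵥ ·) e
      simpa only [Matrix.mulVec_mulVec, rho_inv_mul, Matrix.one_mulVec, Matrix.mulVec_zero] using h1
    · have h1 := congrArg (· ᵥ* slRho g) e
      simpa only [Matrix.vecMul_vecMul, rho_inv_mul, Matrix.vecMul_one, Matrix.zero_vecMul] using h1
    · rw [← Matrix.dotProduct_mulVec, Matrix.mulVec_mulVec, rho_inv_mul, Matrix.one_mulVec, h]
    · show slRho (g * t * g⁻¹) = _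
      rw [map_mul, map_mul, show slRho t = _ from ht, mul_add, mul_one, add_mul, rho_mul_inv,
        Matrix.mul_vecMulVec, Matrix.vecMulVec_mul]
  pair a ha b hb := (transvSet_pair ha hb).imp_right (Or.imp_left fun h => by
    refine Odd.of_dvd_nat ?_ h
    haveI : Fact (Nat.Prime 2) := ⟨Nat.prime_two⟩
    obtain ⟨m, -, hm⟩ := FiniteField.card F 2
    rw [hm]
    refine Nat.Even.sub_odd ?_ ?_ odd_one
    · exact Nat.one_le_pow _ _ (pow_pos two_pos _)
    · exact ((Nat.even_pow' m.ne_zero).2 even_two).pow_of_ne_zero two_ne_zero)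

theorem isRootInvolutionClass_transvSet (hι : 3 ≤ Fintype.card ι) :
    IsRootInvolutionClass (transvSet ι F) := by
  refine ⟨isRootInvolutionSet_transvSet, ?_, ?_⟩
  · obtain ⟨i, j, hij⟩ := (Fintype.one_lt_card_iff_nontrivial.1 (by omega : 1 < Fintype.card ι))
    obtain ⟨s, hs⟩ := (hasLine_vmv (u := Pi.single i (1 : F)) (φ := Pi.single j 1)
      (by simp [hij.symm])).2 1
    exact ⟨s, Pi.single i 1, Pi.single j 1, by simp, by simp, by simp [hij.symm],
      (show slRho s = _ from hs).trans (by rw [one_smul])⟩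
  · rintro a ⟨u, φ, hu, hφ, h, ha⟩ b ⟨v, ψ, hv, hψ, h', hb⟩
    obtain ⟨g, hg⟩ := exists_sl_pair hι hu hφ h hv hψ h'
    exact ⟨g, transvection_conj_eq ha hb hg⟩

theorem isThreeFourPlus_transvSet (hF : Fintype.card F = 2) :
    IsThreeFourPlusTranspositionSet (transvSet ι F) := by
  refine ⟨isRootInvolutionSet_transvSet, fun a ha b hb hodd => ?_⟩
  rcases transvSet_pair ha hb with h | h | h
  · left
    have h2 : (a * b) ^ 2 = 1 := by
      rw [(show Commute a b from h).mul_pow, ← orderOf_transvSet ha, pow_orderOf_eq_one,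
        orderOf_transvSet ha, ← orderOf_transvSet hb, pow_orderOf_eq_one, one_mul]
    exact Nat.Coprime.eq_one_of_dvd (Nat.coprime_two_right.2 hodd) (orderOf_dvd_of_pow_eq_one h2)
  · rw [hF] at h
    exact (Nat.dvd_prime Nat.prime_three).1 h
  · exact absurd (h.1 ▸ hodd) (by decide)

end CfsgLib.Transpositions
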