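import Cfsg.Agent.Lib.Transpositions.TransvSL
import Cfsg.Agent.Lib.Transpositions.RootTransferPairs
import Cfsg.Agent.Lib.Forms.UnitaryForm

/-!
The unitary transvection groups: root subgroups over the fixed field of the conjugation.
-/
set_option autoImplicit false

open Cfsg Matrix
open scoped commutatorElement

namespace CfsgLib.Transpositions

variable {F : Type*} [Field F] {q N : ℕ} {σ : F →+* F} {k : Type*} [Field k] [Algebra k F]

/-- The setting: `σ` is the involution `x ↦ x ^ q`, `k` its fixed field and `τ` has trace zero. -/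
structure UnitaryData (q : ℕ) (σ : F →+* F) (k : Type*) [Field k] [Algebra k F] (τ : F) : Prop where
  pow : ∀ x, σ x = x ^ q
  invol : ∀ x, σ (σ x) = x
  fixed : ∀ x : F, σ x = x ↔ ∃ t : k, algebraMap k F t = x
  tau : σ τ = -τ
  tau_ne : τ ≠ 0

variable {τ : F}

local notation "Mat" => Matrix (Fin N) (Fin N) F
local notation "H" => Cfsg.hermForm N F q

/-- The inclusion of `SU` in the matrix algebra. -/
def suRho (N : ℕ) (F : Type*) [Field F] (q : ℕ) : ↥(Cfsg.SU N F q) →* Matrix (Fin N) (Fin N) F :=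
  slRho.comp (Cfsg.SU N F q).subtype

lemma suRho_injective : Function.Injective (suRho N F q) :=
  slRho_injective.comp Subtype.val_injective

lemma herm_add_left (u u' v : Fin N → F) : H (u + u') v = H u v + H u' v := by
  simp [Cfsg.hermForm, add_mul, Finset.sum_add_distrib]

lemma herm_smul_left (c : F) (u v : Fin N → F) : H (c • u) v = c * H u v := by
  simp [Cfsg.hermForm, Finset.mul_sum, mul_assoc]

lemma herm_eq_dot (D : UnitaryData q σ k τ) (u v : Fin N → F) : H u v = (σ ∘ v) ⬝ᵥ u := by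
  simp [Cfsg.hermForm, dotProduct, D.pow, mul_comm]

lemma herm_add_right (D : UnitaryData q σ k τ) (u v v' : Fin N → F) :
    H u (v + v') = H u v + H u v' := by
  simp [Cfsg.hermForm, ← D.pow, mul_add, Finset.sum_add_distrib]

lemma herm_smul_right (D : UnitaryData q σ k τ) (c : F) (u v : Fin N → F) :
    H u (c • v) = σ c * H u v := by
  simp [Cfsg.hermForm, ← D.pow, Finset.mul_sum, mul_left_comm]

lemma herm_symm (D : UnitaryData q σ k τ) (u v : Fin N → F) : σ (H u v) = H v u := by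
  simp [Cfsg.hermForm, ← D.pow, map_sum, D.invol, mul_comm]

lemma herm_zero_right (D : UnitaryData q σ k τ) (u : Fin N → F) : H u 0 = 0 := by
  rw [herm_eq_dot D]
  exact Finset.sum_eq_zero fun i _ => by simp

/-- The nilpotent part of a transvection with centre `p`. -/
def suLine (σ : F →+* F) (τ : F) (p : Fin N → F) : Mat := τ • vecMulVec p (σ ∘ p)

lemma suLine_mulVec (D : UnitaryData q σ k τ) (p v : Fin N → F) :
    suLine σ τ p *ᵥ v = (τ * H v p) • p := by
  rw [suLine, Matrix.smul_mulVec, Matrix.vecMulVec_mulVec, op_smul_eq_smul, smul_smul, herm_eq_dot D]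

lemma suLine_ne_zero (D : UnitaryData q σ k τ) {p : Fin N → F} (hp : p ≠ 0) :
    suLine σ τ p ≠ 0 := by
  refine smul_ne_zero D.tau_ne (vmv_ne_zero hp fun h => hp (funext fun i => σ.injective ?_))
  rw [Pi.zero_apply, map_zero]
  exact congrFun h i

lemma suLine_mul (D : UnitaryData q σ k τ) (p r : Fin N → F) :
    suLine σ τ p * suLine σ τ r = (τ * τ * H r p) • vecMulVec p (σ ∘ r) := by
  rw [suLine, suLine, smul_mul_smul_comm, vmv_mul_vmv, smul_smul, herm_eq_dot D]

lemma suLine_triple (D : UnitaryData q σ k τ) (p r : Fin N → F) :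
    suLine σ τ p * suLine σ τ r * suLine σ τ p = (τ * τ * (H r p * H p r)) • suLine σ τ p := by
  rw [suLine_mul D, suLine, smul_mul_smul_comm, vmv_mul_vmv, smul_smul, smul_smul, ← herm_eq_dot D]
  congr 1
  ring

lemma algebraMap_mul_eq (D : UnitaryData q σ k τ) (t : k) :
    σ (algebraMap k F t * τ) = -(algebraMap k F t * τ) := by
  rw [map_mul, (D.fixed _).2 ⟨t, rfl⟩, D.tau, mul_neg]

lemma hasLine_suLine (D : UnitaryData q σ k τ) {p : Fin N → F} (hp : H p p = 0) :
    HasLine k (suRho N F q) (suLine σ τ p) := by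
  refine ⟨by rw [suLine_mul D, hp, mul_zero, zero_smul], fun t => ?_⟩
  have hd : (σ ∘ p) ⬝ᵥ p = 0 := by rw [← herm_eq_dot D, hp]
  obtain ⟨g, hg⟩ := (hasLine_vmv hd).2 (algebraMap k F t * τ)
  set c := algebraMap k F t * τ with hc
  have hval : ∀ v, (g : Mat) *ᵥ v = v + (c * H v p) • p := fun v => by
    rw [show (g : Mat) = _ from hg, Matrix.add_mulVec, Matrix.one_mulVec, Matrix.smul_mulVec,
      Matrix.vecMulVec_mulVec, op_smul_eq_smul, smul_smul, herm_eq_dot D]
  have hmem : g ∈ Cfsg.SU N F q := by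
    intro u v
    show H ((g : Mat) *ᵥ u) ((g : Mat) *ᵥ v) = H u v
    rw [hval, hval]
    simp only [herm_add_left, herm_smul_left, herm_add_right D, herm_smul_right D, hp, map_mul,
      herm_symm D, mul_zero, add_zero]
    rw [show σ c = -c from algebraMap_mul_eq D t]
    ring
  refine ⟨⟨g, hmem⟩, ?_⟩
  show (g : Mat) = 1 + t • suLine σ τ p
  rw [show (g : Mat) = _ from hg, suLine, ← algebraMap_smul F t (τ • vecMulVec p (σ ∘ p)), smul_smul]

/-- The transvection group with centre `p`. -/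
def suRoot (k : Type*) [Field k] [Algebra k F] (q : ℕ) (σ : F →+* F) (τ : F) (p : Fin N → F) :
    Subgroup ↥(Cfsg.SU N F q) := rootLine k (suRho N F q) (suLine σ τ p)

lemma exists_herm_eq_one (D : UnitaryData q σ k τ) {p : Fin N → F} (hp : p ≠ 0) :
    ∃ v, H v p = 1 := by
  obtain ⟨i, hi⟩ := Function.ne_iff.mp hp
  have hne : σ (p i) ≠ 0 := (map_ne_zero σ).2 hi
  refine ⟨(σ (p i))⁻¹ • Pi.single i 1, ?_⟩
  rw [herm_smul_left, herm_eq_dot D]
  simp [inv_mul_cancel₀ hne]

lemma closure_eq_suRoot (D : UnitaryData q σ k τ) {p : Fin N → F} (hp : p ≠ 0) (hpp : H p p = 0) :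
    Subgroup.closure {g : ↥(Cfsg.SU N F q) |
      (∀ v : Fin N → F, ∃ c : F,
        ((g : SpecialLinearGroup (Fin N) F) : Mat) *ᵥ v = v + c • p) ∧
      ∀ v : Fin N → F, H v p = 0 → ((g : SpecialLinearGroup (Fin N) F) : Mat) *ᵥ v = v} =
      suRoot k q σ τ p := by
  have key : ∀ (t : k) (v : Fin N → F), (1 + t • suLine σ τ p : Mat) *ᵥ v =
      v + (algebraMap k F t * τ * H v p) • p := fun t v => by
    rw [Matrix.add_mulVec, Matrix.one_mulVec, ← algebraMap_smul F t (suLine σ τ p), Matrix.smul_mulVec,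
      suLine_mulVec D, smul_smul, mul_assoc]
  refine congrArg Subgroup.closure (Set.ext fun g => ⟨?_, ?_⟩)
  · rintro ⟨h1, h2⟩
    obtain ⟨v₀, hv₀⟩ := exists_herm_eq_one D hp
    obtain ⟨c, hc⟩ := h1 v₀
    set M : Mat := ((g : SpecialLinearGroup (Fin N) F) : Mat) with hM
    have hall : ∀ v, M *ᵥ v = v + (c * H v p) • p := fun v => by
      have h0 : H (v + (-(H v p)) • v₀) p = 0 := by
        rw [herm_add_left, herm_smul_left, hv₀]; ring
      have h := h2 _ h0
      rw [Matrix.mulVec_add, Matrix.mulVec_smul, hc] at h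
      rw [smul_add, smul_smul, ← add_assoc, add_comm (M *ᵥ v), add_assoc, add_comm (v : Fin N → F)] at h
      have h' := add_left_cancel h
      rw [← sub_eq_zero]
      rw [← sub_eq_zero] at h'
      rw [← h', neg_mul, neg_smul, mul_comm c]
      abel
    have hpres : H (M *ᵥ v₀) (M *ᵥ v₀) = H v₀ v₀ := g.2 v₀ v₀
    have hp1 : H p v₀ = 1 := by rw [← herm_symm D, hv₀, map_one]
    rw [hc] at hpres
    simp only [herm_add_left, herm_smul_left, herm_add_right D, herm_smul_right D, hpp, hv₀, hp1,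
      mul_zero, add_zero, mul_one] at hpres
    have hcc : σ c = -c := by linear_combination hpres
    obtain ⟨t, ht⟩ := (D.fixed (c / τ)).1 (by rw [map_div₀, hcc, D.tau, neg_div_neg_eq])
    refine ⟨t, Matrix.ext_of_mulVec_single fun i => ?_⟩
    rw [key, ht, div_mul_cancel₀ _ D.tau_ne]
    exact hall _
  · rintro ⟨t, ht⟩
    have ht' : ((g : SpecialLinearGroup (Fin N) F) : Mat) = 1 + t • suLine σ τ p := ht
    exact ⟨fun v => ⟨_, by rw [ht']; exact key t v⟩,
      fun v hv => by rw [ht', key, hv, mul_zero, zero_smul, add_zero]⟩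

/-- All transvection groups. -/
def suRoots (k : Type*) [Field k] [Algebra k F] (N q : ℕ) (σ : F →+* F) (τ : F) :
    Set (Subgroup ↥(Cfsg.SU N F q)) :=
  {A | ∃ p : Fin N → F, p ≠ 0 ∧ Cfsg.hermForm N F q p p = 0 ∧ A = suRoot k q σ τ p}

lemma conjBy_suRoot (D : UnitaryData q σ k τ) (g : ↥(Cfsg.SU N F q)) (p : Fin N → F) :
    conjBy (suRoot k q σ τ p) g = suRoot k q σ τ (suRho N F q g *ᵥ p) := by
  refine conjBy_rootLine g one_ne_zero ?_
  rw [one_smul]
  have h : suRho N F q g * suLine σ τ p = suLine σ τ (suRho N F q g *ᵥ p) * suRho N F q g := by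
    rw [suLine, suLine, mul_smul_comm, smul_mul_assoc, Matrix.mul_vecMulVec, Matrix.vecMulVec_mul]
    congr 2
    refine dotProduct_eq _ _ fun v => ?_
    rw [← Matrix.dotProduct_mulVec, ← herm_eq_dot D, ← herm_eq_dot D]
    exact (g.2 v p).symm
  rw [h, mul_assoc, rho_mul_inv, mul_one]

lemma rankOne_suRoot (D : UnitaryData q σ k τ) {p r : Fin N → F} (hp : p ≠ 0) (hpp : H p p = 0)
    (hrr : H r r = 0) (h : H p r ≠ 0) :
    IsRankOnePair (suRoot k q σ τ p) (suRoot k q σ τ r) ∧
      IsPSL2PairOver k (suRoot k q σ τ p) (suRoot k q σ τ r) := by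
  obtain ⟨s, hs⟩ := (D.fixed (τ * τ * (H r p * H p r))).1
    (by rw [map_mul, map_mul, map_mul, D.tau, herm_symm D, herm_symm D]; ring)
  have hne : τ * τ * (H r p * H p r) ≠ 0 :=
    mul_ne_zero (mul_ne_zero D.tau_ne D.tau_ne) (mul_ne_zero
      (by rw [← herm_symm D]; exact (map_ne_zero σ).2 h) h)
  have hs0 : s ≠ 0 := by rintro rfl; exact hne (by rw [← hs, map_zero])
  have h1 : suLine σ τ p * suLine σ τ r * suLine σ τ p = s • suLine σ τ p := by
    rw [suLine_triple D, ← hs, algebraMap_smul]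
  have h2 : suLine σ τ r * suLine σ τ p * suLine σ τ r = s • suLine σ τ r := by
    rw [suLine_triple D, mul_comm (H p r), ← hs, algebraMap_smul]
  have o1 : suLine σ τ p * (s⁻¹ • suLine σ τ r) * suLine σ τ p = suLine σ τ p := by
    rw [mul_smul_comm, smul_mul_assoc, h1, smul_smul, inv_mul_cancel₀ hs0, one_smul]
  have o2 : s⁻¹ • suLine σ τ r * suLine σ τ p * (s⁻¹ • suLine σ τ r) = s⁻¹ • suLine σ τ r := by
    rw [mul_smul_comm, smul_mul_assoc, smul_mul_assoc, h2, smul_smul, smul_smul]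
    congr 1
    field_simp
  have e : suRoot k q σ τ r = rootLine k (suRho N F q) (s⁻¹ • suLine σ τ r) :=
    (rootLine_smul (inv_ne_zero hs0)).symm
  rw [e]
  exact ⟨isRankOnePair_rootLine suRho_injective (hasLine_suLine D hpp)
      ((hasLine_suLine D hrr).smul _) o1 o2 (suLine_ne_zero D hp),
    isPSL2PairOver_of_opposite suRho_injective (hasLine_suLine D hpp)
      ((hasLine_suLine D hrr).smul _) o1 o2 (suLine_ne_zero D hp)⟩

lemma suRoots_cases (D : UnitaryData q σ k τ) {A B : Subgroup ↥(Cfsg.SU N F q)}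
    (hA : A ∈ suRoots k N q σ τ) (hB : B ∈ suRoots k N q σ τ) :
    ⁅A, B⁆ = ⊥ ∨ (IsRankOnePair A B ∧ IsPSL2PairOver k A B) := by
  obtain ⟨p, hp, hpp, rfl⟩ := hA
  obtain ⟨r, -, hrr, rfl⟩ := hB
  by_cases h : H p r = 0
  · left
    refine commutator_rootLine_eq_bot suRho_injective (hasLine_suLine D hpp).1
      (hasLine_suLine D hrr).1 ?_
    rw [suLine_mul D, suLine_mul D, h, show H r p = 0 by rw [← herm_symm D, h, map_zero]]
    simp
  · exact Or.inr (rankOne_suRoot D hp hpp hrr h)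

lemma exists_trace (D : UnitaryData q σ k τ) (hid : σ ≠ RingHom.id F) {s : F} (hs : σ s = s) :
    ∃ μ, μ + σ μ = s := by
  obtain ⟨x, hx⟩ : ∃ x, x + σ x ≠ 0 := by
    by_contra hc
    push Not at hc
    refine hid (RingHom.ext fun x => ?_)
    have h1 : (1 : F) + 1 = 0 := by simpa using hc 1
    rw [RingHom.id_apply]
    linear_combination hc x - x * h1
  refine ⟨s * (x / (x + σ x)), ?_⟩
  rw [map_mul, map_div₀, hs, map_add, D.invol, add_comm (σ x) x, ← mul_add, ← add_div,
    div_self hx, mul_one]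

theorem suRoots_connected (D : UnitaryData q σ k τ) (hid : σ ≠ RingHom.id F) :
    IsConnectedFamily (FAdj (suRoots k N q σ τ)) (suRoots k N q σ τ) := by
  rintro A ⟨p, hp, hpp, rfl⟩ B ⟨r, hr, hrr, rfl⟩
  by_cases h : H p r ≠ 0
  · exact Relation.ReflTransGen.single
      ⟨⟨p, hp, hpp, rfl⟩, ⟨r, hr, hrr, rfl⟩, (rankOne_suRoot D hp hpp hrr h).1⟩
  push Not at h
  obtain ⟨v, hv⟩ := exists_herm_eq_one D hp
  obtain ⟨v', hv'⟩ := exists_herm_eq_one D hr
  obtain ⟨w₀, -, h1, h2⟩ := exists_both_ne_zero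
    (AddMonoidHom.mk' (fun x : Fin N → F => H x p) fun a b => herm_add_left a b p)
    (AddMonoidHom.mk' (fun x : Fin N → F => H x r) fun a b => herm_add_left a b r)
    (p := fun _ => True) (fun _ _ _ _ => trivial) (x := v) (y := v') trivial trivial
    (by simp [hv]) (by simp [hv'])
  simp only [AddMonoidHom.mk'_apply] at h1 h2
  obtain ⟨μ, hμ⟩ := exists_trace D hid (s := -H w₀ w₀) (by rw [map_neg, herm_symm D])
  have hpw : H p w₀ ≠ 0 := by rw [← herm_symm D]; exact (map_ne_zero σ).2 h1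
  set l := μ / H p w₀ with hl
  set w := w₀ + l • p with hw
  have hwp : H w p = H w₀ p := by rw [hw, herm_add_left, herm_smul_left, hpp, mul_zero, add_zero]
  have hwr : H w r = H w₀ r := by rw [hw, herm_add_left, herm_smul_left, h, mul_zero, add_zero]
  have hww : H w w = 0 := by
    simp only [hw, herm_add_left, herm_smul_left, herm_add_right D, herm_smul_right D, hpp, mul_zero,
      add_zero]
    rw [show l * H p w₀ = μ by rw [hl, div_mul_cancel₀ _ hpw],
      show σ l * H w₀ p = σ μ by rw [← herm_symm D p w₀, ← map_mul, hl, div_mul_cancel₀ _ hpw]]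
    linear_combination hμ
  have hw0 : w ≠ 0 := fun e => h1 (by rw [← hwp, e, Cfsg.hermForm]; simp)
  have hpw' : H p w ≠ 0 := by rw [← herm_symm D, hwp]; exact (map_ne_zero σ).2 h1
  refine (Relation.ReflTransGen.single (b := suRoot k q σ τ w) ?_).tail ?_
  · exact ⟨⟨p, hp, hpp, rfl⟩, ⟨w, hw0, hww, rfl⟩, (rankOne_suRoot D hp hpp hww hpw').1⟩
  · exact ⟨⟨w, hw0, hww, rfl⟩, ⟨r, hr, hrr, rfl⟩,
      (rankOne_suRoot D hw0 hww hrr (by rw [hwr]; exact h2)).1⟩

theorem suRoots_package (D : UnitaryData q σ k τ) (hid : σ ≠ RingHom.id F)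
    (hne : (suRoots k N q σ τ).Nonempty) :
    IsRootSubgroupClass ((fun A : Subgroup ↥(Cfsg.SU N F q) =>
        A.subgroupOf (⨆ B ∈ suRoots k N q σ τ, B)) '' suRoots k N q σ τ) ∧
    IsDegenerateRootSet ((fun A : Subgroup ↥(Cfsg.SU N F q) =>
        A.subgroupOf (⨆ B ∈ suRoots k N q σ τ, B)) '' suRoots k N q σ τ) ∧
    IsKRootSubgroupSet k ((fun A : Subgroup ↥(Cfsg.SU N F q) =>
        A.subgroupOf (⨆ B ∈ suRoots k N q σ τ, B)) '' suRoots k N q σ τ) ∧
    IsConnectedFamily (FAdj ((fun A : Subgroup ↥(Cfsg.SU N F q) =>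
        A.subgroupOf (⨆ B ∈ suRoots k N q σ τ, B)) '' suRoots k N q σ τ))
      ((fun A : Subgroup ↥(Cfsg.SU N F q) =>
        A.subgroupOf (⨆ B ∈ suRoots k N q σ τ, B)) '' suRoots k N q σ τ) := by
  refine degenerate_package ?_ ?_ hne ?_ (fun A hA B hB => suRoots_cases D hA hB)
    (suRoots_connected D hid)
  · rintro A ⟨p, -, hpp, rfl⟩
    exact rootLine_commutative suRho_injective (hasLine_suLine D hpp).1
  · rintro A ⟨p, hp, hpp, rfl⟩
    exact rootLine_ne_bot (hasLine_suLine D hpp) (suLine_ne_zero D hp)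
  · rintro A ⟨p, hp, hpp, rfl⟩ g
    refine ⟨suRho N F q g *ᵥ p, fun e => hp ?_, (g.2 p p).trans hpp, conjBy_suRoot D g p⟩
    have h1 := congrArg (suRho N F q g⁻¹ *ᵥ ·) e
    simpa only [Matrix.mulVec_mulVec, rho_inv_mul, Matrix.one_mulVec, Matrix.mulVec_zero] using h1

/-- The fixed field as a type in `Type`, with its cardinality. -/
theorem exists_unitaryData [Fintype F] (hF : Fintype.card F = q ^ 2) :
    ∃ (σ : F →+* F) (τ : F) (L : Type) (_ : Field L) (_ : Fintype L) (_ : Algebra L F),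
      σ ≠ RingHom.id F ∧ Fintype.card L = q ∧ UnitaryData q σ L τ := by
  classical
  obtain ⟨σ, hσ, hid, hσ2⟩ := CfsgLib.Forms.exists_conj_of_card_sq hF
  obtain ⟨x, hx⟩ : ∃ x, σ x ≠ x := by
    by_contra hc
    push Not at hc
    exact hid (RingHom.ext hc)
  let k₀ : Subfield F := σ.eqLocusField (RingHom.id F)
  let e := (Fintype.equivFin k₀).symm
  letI : Field (Fin (Fintype.card k₀)) := e.field
  letI : Algebra (Fin (Fintype.card k₀)) F := ((k₀.subtype).comp e.ringEquiv.toRingHom).toAlgebra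
  have halg : ∀ t, algebraMap (Fin (Fintype.card k₀)) F t = (e t : F) := fun t => rfl
  have D : UnitaryData q σ (Fin (Fintype.card k₀)) (x - σ x) := by
    refine ⟨hσ, hσ2, fun y => ⟨fun h => ⟨e.symm ⟨y, h⟩, by rw [halg, Equiv.apply_symm_apply]⟩, ?_⟩,
      by rw [map_sub, hσ2]; ring, sub_ne_zero.2 (Ne.symm hx)⟩
    rintro ⟨t, rfl⟩
    rw [halg]
    exact (e t).2
  refine ⟨σ, x - σ x, Fin (Fintype.card k₀), inferInstance, inferInstance, inferInstance, hid, ?_, D⟩
  rw [Fintype.card_fin]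
  have hmem : ∀ y : F, σ y = y → y ∈ k₀ := fun y h => h
  have hfix : ∀ y : k₀, σ (y : F) = (y : F) := fun y => y.2
  obtain ⟨μ, hμ⟩ := exists_trace D hid (map_one σ)
  let E : k₀ × k₀ ≃ F :=
    { toFun := fun ab => (ab.1 : F) * μ + (ab.2 : F) * (x - σ x)
      invFun := fun y => (⟨y + σ y, hmem _ (by rw [map_add, hσ2, add_comm])⟩,
        ⟨(y - (y + σ y) * μ) / (x - σ x), hmem _ (by
          rw [map_div₀, map_sub, map_mul, map_add, map_sub, hσ2, hσ2,
            show σ μ = 1 - μ by linear_combination hμ, ← neg_div_neg_eq]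
          congr 1 <;> ring)⟩)
      left_inv := by
        rintro ⟨a, b⟩
        have e1 : (a : F) * μ + (b : F) * (x - σ x) + σ ((a : F) * μ + (b : F) * (x - σ x)) = a := by
          rw [map_add, map_mul, map_mul, map_sub, hσ2, hfix, hfix]
          linear_combination (a : F) * hμ
        refine Prod.ext (Subtype.ext e1) (Subtype.ext ?_)
        show ((a : F) * μ + b * (x - σ x) - _ * μ) / (x - σ x) = b
        rw [e1, add_sub_cancel_left, mul_div_cancel_right₀ _ (sub_ne_zero.2 (Ne.symm hx))]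
      right_inv := fun y => by
        simp only
        rw [div_mul_cancel₀ _ (sub_ne_zero.2 (Ne.symm hx))]
        ring }
  have hc := Fintype.card_congr E
  rw [Fintype.card_prod, hF, ← sq] at hc
  exact Nat.pow_left_injective two_ne_zero hc

lemma suRoots_nonempty [Fintype F] (D : UnitaryData q σ k τ) (hid : σ ≠ RingHom.id F) (n : ℕ) :
    (suRoots k (n + 2) q σ τ).Nonempty := by
  obtain ⟨c, hc⟩ := CfsgLib.Forms.exists_norm_eq σ hid D.invol (-1) (by rw [map_neg, map_one])
  let p : Fin (n + 2) → F := Pi.single 0 1 + c • Pi.single 1 1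
  have h01 : (0 : Fin (n + 2)) ≠ 1 := by simp
  refine ⟨_, p, fun e => ?_, ?_, rfl⟩
  · have := congrFun e 0
    simp [p, h01] at this
  · simp only [p, herm_add_left, herm_smul_left, herm_add_right D, herm_smul_right D, herm_eq_dot D]
    simp [h01, h01.symm]
    linear_combination hc

end CfsgLib.Transpositions
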