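import Cfsg.Agent.Lib.Transpositions.RootLines
import Cfsg.Agent.Lib.Transpositions.TransvSL
import Cfsg.Agent.Lib.ClassicalLinear.SympBasic

/-!
The symplectic transvection groups form a degenerate class of root subgroups.
-/
set_option autoImplicit false

open Cfsg Matrix
open scoped commutatorElement

namespace CfsgLib.Transpositions

variable {F : Type*} [Field F] {m : ℕ}

local notation "V" => (Fin m ⊕ Fin m → F)
local notation "Sp" => Matrix.symplecticGroup (Fin m) F
local notation "ω" => Cfsg.sympForm m F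
local notation "M2" => Matrix (Fin m ⊕ Fin m) (Fin m ⊕ Fin m) F

/-- The inclusion of `Sp` in the matrix algebra. -/
def spRho : Sp →* M2 := Submonoid.subtype _

lemma spRho_injective : Function.Injective (spRho : Sp →* M2) := Subtype.val_injective

/-- The nilpotent part of a transvection with centre `p`. -/
def spLine (p : V) : M2 := vecMulVec p (Matrix.J (Fin m) F *ᵥ p)

lemma spLine_mulVec (p x : V) : spLine p *ᵥ x = ω x p • p := by
  simp [spLine, Cfsg.sympForm, Matrix.vecMulVec_mulVec, dotProduct_comm]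

lemma spLine_triple (p r : V) :
    spLine p * spLine r * spLine p = (-(ω p r * ω p r)) • spLine p := by
  rw [spLine, spLine, triple_vmv, dotProduct_comm (Matrix.J (Fin m) F *ᵥ p) r,
    dotProduct_comm (Matrix.J (Fin m) F *ᵥ r) p]
  show (ω r p * ω p r) • _ = _
  rw [CfsgLib.ClassicalLinear.sympForm_skew r p, neg_mul]

lemma spLine_ne_zero {p : V} (hp : p ≠ 0) : spLine p ≠ 0 := by
  intro h
  obtain ⟨v, hv⟩ := CfsgLib.ClassicalLinear.exists_sympForm_eq_one hp
  have h1 := spLine_mulVec p v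
  rw [h, Matrix.zero_mulVec, CfsgLib.ClassicalLinear.sympForm_skew, hv, neg_one_smul] at h1
  exact hp (neg_eq_zero.1 h1.symm)

lemma hasLine_spLine (p : V) : HasLine F spRho (spLine p) := by
  refine ⟨?_, fun t => ⟨CfsgLib.ClassicalLinear.spT p t, rfl⟩⟩
  rw [spLine, vmv_mul_vmv, dotProduct_comm]
  show ω p p • _ = _
  rw [CfsgLib.ClassicalLinear.sympForm_self, zero_smul]

/-- The transvection group with centre `p`. -/
def spRoot (p : V) : Subgroup Sp := rootLine F spRho (spLine p)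

/-- All of them. -/
def spRoots (m : ℕ) (F : Type*) [Field F] : Set (Subgroup (Matrix.symplecticGroup (Fin m) F)) :=
  {A | ∃ p : Fin m ⊕ Fin m → F, p ≠ 0 ∧ A = spRoot p}

lemma conjBy_spRoot (g : Sp) (p : V) : conjBy (spRoot p) g = spRoot (g • p) := by
  refine conjBy_rootLine g one_ne_zero ?_
  rw [one_smul]
  obtain ⟨h, hh⟩ : ∃ h, CfsgLib.ClassicalLinear.spT p 1 = h := ⟨_, rfl⟩
  have e : spRho (g * h * g⁻¹) = 1 + spLine (g • p) := by
    rw [← hh, CfsgLib.ClassicalLinear.conj_spT]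
    show Cfsg.sympTransvection m (g • p) 1 = _
    rw [Cfsg.sympTransvection, one_smul]
    rfl
  rw [map_mul, map_mul, show spRho h = 1 + spLine p from by
    rw [← hh]; show Cfsg.sympTransvection m p 1 = _; rw [Cfsg.sympTransvection, one_smul]; rfl,
    mul_add, mul_one, add_mul, rho_mul_inv] at e
  exact add_left_cancel e

lemma closure_eq_spRoot (p : V) :
    Subgroup.closure {g : Sp | ∃ c : F, ∀ v : V,
      (g : M2) *ᵥ v = v + (c * (v ⬝ᵥ (Matrix.J (Fin m) F *ᵥ p))) • p} = spRoot p := by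
  have key : ∀ (c : F) (v : V), (1 + c • spLine p) *ᵥ v =
      v + (c * (v ⬝ᵥ (Matrix.J (Fin m) F *ᵥ p))) • p := fun c v => by
    rw [Matrix.add_mulVec, Matrix.one_mulVec, Matrix.smul_mulVec, spLine_mulVec, smul_smul]
    rfl
  refine congrArg Subgroup.closure (Set.ext fun g => ⟨?_, ?_⟩)
  · rintro ⟨c, hc⟩
    exact ⟨c, Matrix.ext_of_mulVec_single fun i => (hc _).trans (key c _).symm⟩
  · rintro ⟨c, hc⟩
    exact ⟨c, fun v => by rw [show (g : M2) = _ from hc]; exact key c v⟩

lemma opposite_spLine {p r : V} (h : ω p r ≠ 0) :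
    spLine p * ((-(ω p r * ω p r))⁻¹ • spLine r) * spLine p = spLine p ∧
    ((-(ω p r * ω p r))⁻¹ • spLine r) * spLine p * ((-(ω p r * ω p r))⁻¹ • spLine r) =
      (-(ω p r * ω p r))⁻¹ • spLine r := by
  have hl : -(ω p r * ω p r) ≠ 0 := neg_ne_zero.2 (mul_ne_zero h h)
  simp only [mul_smul_comm, smul_mul_assoc, spLine_triple, smul_smul,
    CfsgLib.ClassicalLinear.sympForm_skew r p, neg_mul_neg]
  refine ⟨by rw [inv_mul_cancel₀ hl, one_smul], ?_⟩
  congr 1
  field_simp

lemma isRankOnePair_spRoot {p r : V} (hp : p ≠ 0) (h : ω p r ≠ 0) :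
    IsRankOnePair (spRoot p) (spRoot r) ∧ IsPSL2PairOver F (spRoot p) (spRoot r) := by
  have e : spRoot r = rootLine F spRho ((-(ω p r * ω p r))⁻¹ • spLine r) :=
    (rootLine_smul (inv_ne_zero (neg_ne_zero.2 (mul_ne_zero h h)))).symm
  rw [e]
  obtain ⟨o1, o2⟩ := opposite_spLine h
  exact ⟨isRankOnePair_rootLine spRho_injective (hasLine_spLine p) ((hasLine_spLine r).smul _) o1 o2
      (spLine_ne_zero hp),
    isPSL2PairOver_of_opposite spRho_injective (hasLine_spLine p) ((hasLine_spLine r).smul _) o1 o2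
      (spLine_ne_zero hp)⟩

lemma commutator_spRoot {p r : V} (h : ω p r = 0) : ⁅spRoot p, spRoot r⁆ = ⊥ := by
  refine commutator_rootLine_eq_bot spRho_injective (hasLine_spLine p).1 (hasLine_spLine r).1 ?_
  rw [spLine, spLine, vmv_mul_vmv, vmv_mul_vmv, dotProduct_comm, dotProduct_comm _ p]
  show ω r p • _ = ω p r • _
  rw [CfsgLib.ClassicalLinear.sympForm_skew r p, h, neg_zero, zero_smul, zero_smul]

lemma spRoots_cases {A B : Subgroup Sp} (hA : A ∈ spRoots m F) (hB : B ∈ spRoots m F) :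
    ⁅A, B⁆ = ⊥ ∨ (IsRankOnePair A B ∧ IsPSL2PairOver F A B) := by
  obtain ⟨p, hp, rfl⟩ := hA
  obtain ⟨r, -, rfl⟩ := hB
  by_cases h : ω p r = 0
  · exact Or.inl (commutator_spRoot h)
  · exact Or.inr (isRankOnePair_spRoot hp h)

theorem isRootSubgroupSet_spRoots : IsRootSubgroupSet (spRoots m F) where
  commutative := by
    rintro A ⟨p, -, rfl⟩; exact rootLine_commutative spRho_injective (hasLine_spLine p).1
  ne_bot := by
    rintro A ⟨p, hp, rfl⟩; exact rootLine_ne_bot (hasLine_spLine p) (spLine_ne_zero hp)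
  generates := by
    rw [eq_top_iff, ← CfsgLib.ClassicalLinear.closure_spT_eq_top, Subgroup.closure_le]
    rintro g ⟨w, c, rfl⟩
    rcases eq_or_ne w 0 with rfl | hw
    · rw [show CfsgLib.ClassicalLinear.spT (0 : V) c = 1 from CfsgLib.ClassicalLinear.sp_ext
        fun x => by rw [CfsgLib.ClassicalLinear.spT_smul, smul_zero, add_zero, one_smul]]
      exact one_mem _
    · exact Subgroup.mem_iSup_of_mem (spRoot w) (Subgroup.mem_iSup_of_mem
        (show spRoot w ∈ spRoots m F from ⟨w, hw, rfl⟩) (Subgroup.subset_closure ⟨c, rfl⟩))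
  conj_mem := by
    rintro A ⟨p, hp, rfl⟩ g
    exact ⟨g • p, (smul_ne_zero_iff_ne g).2 hp, conjBy_spRoot g p⟩
  pair A hA B hB := (spRoots_cases hA hB).imp_right fun h => Or.inl h.1

theorem isDegenerate_spRoots : IsDegenerateRootSet (spRoots m F) := by
  intro A hA B hB h
  rcases spRoots_cases hA hB with h' | h'
  · exact isRootSubgroupSet_spRoots.ne_bot _ (h' ▸ h.1) rfl
  · exact CfsgLib.RootGroups.not_rankOne_of_rootCommutatorCase isRootSubgroupSet_spRoots hB h h'.1

theorem isKRootSubgroupSet_spRoots : IsKRootSubgroupSet F (spRoots m F) := by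
  refine ⟨isRootSubgroupSet_spRoots, fun A hA B hB hp => ?_⟩
  rcases spRoots_cases hA hB with h | h
  · exact absurd hp (CfsgLib.RootGroups.not_rankOne_of_commute h)
  · exact h.2

theorem isConjClass_spRoots (hm : 1 ≤ m) : IsConjClassOfSubgroups (spRoots m F) := by
  refine ⟨⟨_, Pi.single (Sum.inl ⟨0, hm⟩) (1 : F), Pi.single_ne_zero_iff.2 one_ne_zero, rfl⟩, ?_⟩
  rintro A ⟨p, hp, rfl⟩ B ⟨r, hr, rfl⟩
  obtain ⟨g, hg⟩ := CfsgLib.ClassicalLinear.exists_sp_smul_eq hp hr
  exact ⟨g, by rw [conjBy_spRoot, hg]⟩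

theorem connected_spRoots : IsConnectedFamily (FAdj (spRoots m F)) (spRoots m F) := by
  rintro A ⟨p, hp, rfl⟩ B ⟨r, hr, rfl⟩
  obtain ⟨v, hv⟩ := CfsgLib.ClassicalLinear.exists_sympForm_eq_one hp
  obtain ⟨v', hv'⟩ := CfsgLib.ClassicalLinear.exists_sympForm_eq_one hr
  obtain ⟨w, -, h1, h2⟩ := exists_both_ne_zero
    (AddMonoidHom.mk' (fun x : V => ω p x) (CfsgLib.ClassicalLinear.sympForm_add_right p))
    (AddMonoidHom.mk' (fun x : V => ω r x) (CfsgLib.ClassicalLinear.sympForm_add_right r))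
    (p := fun _ => True) (fun _ _ _ _ => trivial) (x := v) (y := v') trivial trivial
    (by simp [hv]) (by simp [hv'])
  simp only [AddMonoidHom.mk'_apply] at h1 h2
  have hw : w ≠ 0 := fun e => h1 (by simp [Cfsg.sympForm, e])
  have h3 : ω w r ≠ 0 := by rwa [CfsgLib.ClassicalLinear.sympForm_skew, neg_ne_zero]
  refine (Relation.ReflTransGen.single (b := spRoot w) ?_).tail ?_
  · exact ⟨⟨p, hp, rfl⟩, ⟨w, hw, rfl⟩, (isRankOnePair_spRoot hp h1).1⟩
  · exact ⟨⟨w, hw, rfl⟩, ⟨r, hr, rfl⟩, (isRankOnePair_spRoot hw h3).1⟩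

end CfsgLib.Transpositions
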